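import Mathlib
import Cfsg.Prelude.Def_Blocks
import Cfsg.Agent.Lib.Helper2.BlockExt
import Cfsg.Agent.Lib.Helper2.BlockCls
import Cfsg.Agent.Lib.Helper1.Cores
import Cfsg.Agent.S0906
import Cfsg.Agent.S0912
import Cfsg.Agent.S0917
import Cfsg.Agent.S0920

set_option autoImplicit false
set_option linter.unusedSectionVars false
set_option linter.unusedVariables false
set_option linter.style.haveILetI false

/-! The extended first main theorem. -/

namespace Cfsg.Agent.Lib.Helper2.BlockExt2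

open Cfsg Cfsg.Agent.Lib.Helper7.CharIrr
  Cfsg.Agent.Lib.Helper2.LocRing
  Cfsg.Agent.Lib.Helper2.BlockZ Cfsg.Agent.Lib.Helper2.BlockDef Cfsg.Agent.Lib.Helper2.BlockOrth
  Cfsg.Agent.Lib.Helper2.BlockSub Cfsg.Agent.Lib.Helper2.BlockBr2
  Cfsg.Agent.Lib.Helper2.BlockCov Cfsg.Agent.Lib.Helper2.BlockCov2 Cfsg.Agent.Lib.Helper2.BlockN
  Cfsg.Agent.Lib.Helper2.BlockExt Cfsg.Agent.Lib.Helper2.BlockCls

variable {G : Type*} [Group G] [Fintype G]

theorem sup_le_normalizer (P : Subgroup G) :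
    P ⊔ Subgroup.centralizer (P : Set G) ≤ Subgroup.normalizer (P : Set G) :=
  sup_le Subgroup.le_normalizer (Subgroup.centralizer_le_normalizer _)

theorem normalizer_le_normalizer_sup (P : Subgroup G) :
    Subgroup.normalizer (P : Set G) ≤
      Subgroup.normalizer ((P ⊔ Subgroup.centralizer (P : Set G) : Subgroup G) : Set G) := by
  intro n hn
  apply mem_normalizer_of_le_map
  rw [Subgroup.map_sup]
  have hn' : ∀ q, q ∈ P ↔ n * q * n⁻¹ ∈ P := Subgroup.mem_normalizer_iff.mp hn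
  apply sup_le_sup
  · intro q hq
    refine ⟨n⁻¹ * q * n, ?_, ?_⟩
    · rw [SetLike.mem_coe, hn']
      have e : n * (n⁻¹ * q * n) * n⁻¹ = q := by group
      rw [e]; exact hq
    · show n * (n⁻¹ * q * n) * n⁻¹ = q
      group
  · intro c hc
    refine ⟨n⁻¹ * c * n, ?_, ?_⟩
    · rw [SetLike.mem_coe, Subgroup.mem_centralizer_iff]
      intro q hq
      have h1 := Subgroup.mem_centralizer_iff.mp hc (n * q * n⁻¹) ((hn' q).mp hq)
      calc q * (n⁻¹ * c * n) = n⁻¹ * (n * q * n⁻¹ * c) * n := by group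
        _ = n⁻¹ * (c * (n * q * n⁻¹)) * n := by rw [h1]
        _ = n⁻¹ * c * n * q := by group
    · show n * (n⁻¹ * c * n) * n⁻¹ = c
      group

theorem normal_sup_subgroupOf (P : Subgroup G) :
    ((P ⊔ Subgroup.centralizer (P : Set G)).subgroupOf (Subgroup.normalizer (P : Set G))).Normal :=
  (Subgroup.normal_subgroupOf_iff_le_normalizer (sup_le_normalizer P)).mpr
    (normalizer_le_normalizer_sup P)

theorem centralizer_subgroupOf_le (P : Subgroup G) :
    Subgroup.centralizer ((P.subgroupOf (Subgroup.normalizer (P : Set G)) :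
      Subgroup (Subgroup.normalizer (P : Set G))) : Set (Subgroup.normalizer (P : Set G))) ≤
      (P ⊔ Subgroup.centralizer (P : Set G)).subgroupOf (Subgroup.normalizer (P : Set G)) := by
  intro n hn
  rw [Subgroup.mem_subgroupOf]
  apply le_sup_right (a := P)
  rw [Subgroup.mem_centralizer_iff]
  intro q hq
  have h1 := Subgroup.mem_centralizer_iff.mp hn ⟨q, Subgroup.le_normalizer hq⟩
    (Subgroup.mem_subgroupOf.mpr hq)
  exact congrArg Subtype.val h1

theorem isPGroup_of_isDefectGroup {M : Ideal AlgInt} {p : ℕ} {B : Set (IrrCharacter G)}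
    {D : Subgroup G} (hD : IsDefectGroup p M B D) : IsPGroup p D := by
  obtain ⟨g, _, S, rfl⟩ := hD
  exact S.2.map _

theorem exists_defectGroup {M : Ideal AlgInt} {p : ℕ} [Fact p.Prime] (hM : IsPModular p M)
    {B : Set (IrrCharacter G)} (hB : IsPBlock M B) : ∃ D : Subgroup G, IsDefectGroup p M B D := by
  obtain ⟨y, hy⟩ := Cfsg.Agent.S0906.result p M hM B hB
  obtain ⟨S⟩ : Nonempty (Sylow p (Subgroup.centralizer ({y} : Set G))) := inferInstance
  exact ⟨_, y, hy, S, rfl⟩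

/-- a block of `H` inducing `B`, where a normal `p`-subgroup of `H` has the order of the defect
groups of `B`, has that subgroup as defect group -/
theorem defectGroup_of_induced {M : Ideal AlgInt} {p : ℕ} [Fact p.Prime] (hM : IsPModular p M)
    {B : Set (IrrCharacter G)} {P : Subgroup G} (hP : IsDefectGroup p M B P) (H : Subgroup G)
    [Fintype H] (hPH : P ≤ H) (hn : (P.subgroupOf H).Normal) {b : Set (IrrCharacter H)}
    (hind : IsInducedBlock M H b B) : IsDefectGroup p M b (P.subgroupOf H) := by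
  obtain ⟨D, hD⟩ := exists_defectGroup hM hind.1
  have hPp := isPGroup_of_isDefectGroup hP
  have h1 : P.subgroupOf H ≤ D :=
    (Cfsg.Agent.Lib.Helper1.le_pCore hn hPp.comap_subtype).trans
      (Cfsg.Agent.S0912.result p M hM b hind.1 _ hD)
  obtain ⟨E, hE, hDE⟩ := Cfsg.Agent.S0917.result p M hM H b hind.1 B hind.2.1 hind D hD
  have h2 : Nat.card D ≤ Nat.card (P.subgroupOf H) := by
    have e1 : Nat.card (D.map H.subtype) = Nat.card D :=
      Nat.card_congr (Subgroup.equivMapOfInjective _ _ (Subgroup.subtype_injective _)).symm.toEquiv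
    have e2 : Nat.card (P.subgroupOf H) = Nat.card P :=
      Nat.card_congr (Subgroup.subgroupOfEquivOfLe hPH).toEquiv
    rw [← e1, e2, card_defectGroup hM hind.2.1 hP, ← card_defectGroup hM hind.2.1 hE]
    exact Subgroup.card_le_of_le hDE
  rw [Subgroup.eq_of_le_of_card_ge h1 h2]
  exact hD

theorem isInducedBlock_of_rep {M : Ideal AlgInt} [M.IsPrime] (H : Subgroup G) [Fintype H]
    (ξ₀ : IrrCharacter H) {B : Set (IrrCharacter G)} (hB : IsPBlock M B) {χ₀ : IrrCharacter G}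
    (hχ₀ : χ₀ ∈ B)
    (h : ∀ g, MemLocalIdeal M (inducedCentralChar H (ξ₀ : H → ℂ) g - centralChar (χ₀ : G → ℂ) g)) :
    IsInducedBlock M H (blockOf M (ξ₀ : H → ℂ)) B := by
  refine ⟨⟨ξ₀, rfl⟩, hB, ?_⟩
  intro ξ hξ χ hχ g
  have h1 : inducedCentralChar H (ξ : H → ℂ) g - inducedCentralChar H (ξ₀ : H → ℂ) g ∈ Iloc M := by
    rw [inducedCentralChar_eq_W, inducedCentralChar_eq_W]
    exact W_sub_mem_Iloc (sameBlock_symm (M := M) hξ) (restrict_isClass H (cl_isClass g))
      (fun h => cl_mem_Rloc g _)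
  have h2 : centralChar (χ₀ : G → ℂ) g - centralChar (χ : G → ℂ) g ∈ Iloc M :=
    sameBlock_of_mem hB hχ₀ hχ g
  have h3 := (Iloc M).add_mem ((Iloc M).add_mem h1 (h g)) h2
  rwa [sub_add_sub_cancel, sub_add_sub_cancel] at h3

theorem block_eq_blockOf {H : Type*} [Group H] [Fintype H] {M : Ideal AlgInt} [M.IsPrime]
    {b : Set (IrrCharacter H)} (hb : IsPBlock M b) {θ : IrrCharacter H} (hθ : θ ∈ b) :
    b = blockOf M (θ : H → ℂ) :=
  block_eq_of_mem hb ⟨θ, rfl⟩ hθ (sameBlock_refl (M := M) _)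

theorem ext_exists {M : Ideal AlgInt} {p : ℕ} [Fact p.Prime] (hM : IsPModular p M)
    {B : Set (IrrCharacter G)} (hB : IsPBlock M B) {P : Subgroup G}
    (hP : IsDefectGroup p M B P) (H : Subgroup G) (hPH : P ≤ H)
    (hHN : H ≤ Subgroup.normalizer (P : Set G))
    (hn : (H.subgroupOf (Subgroup.normalizer (P : Set G))).Normal)
    (hC : Subgroup.centralizer ((P.subgroupOf (Subgroup.normalizer (P : Set G)) :
      Subgroup (Subgroup.normalizer (P : Set G))) : Set (Subgroup.normalizer (P : Set G))) ≤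
      H.subgroupOf (Subgroup.normalizer (P : Set G))) :
    ∃ b : Set (IrrCharacter H), IsDefectGroup p M b (P.subgroupOf H) ∧
      IsInducedBlock M H b B := by
  classical
  haveI := hM.2.1.isPrime
  have hPp := isPGroup_of_isDefectGroup hP
  obtain ⟨B₁, hB₁, hB₁D, hind₁⟩ := Cfsg.Agent.S0920.exist2 p M hM P hPp B hB hP
  obtain ⟨χ₁, hχ₁⟩ := block_nonempty hB₁
  obtain ⟨χ₀, hχ₀⟩ := block_nonempty hB
  obtain ⟨θ'', hθ''⟩ := exists_constituent_restrict
    (H.subgroupOf (Subgroup.normalizer (P : Set G))) χ₁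
  obtain ⟨θ, hθ⟩ : ∃ θ : IrrCharacter H, θ = tr (Subgroup.subgroupOfEquivOfLe hHN).symm θ'' :=
    ⟨_, rfl⟩
  have hθ2 : tr (Subgroup.subgroupOfEquivOfLe hHN) θ = θ'' := by
    rw [hθ, tr_tr_symm]
  rw [← hθ2] at hθ''
  have hind : IsInducedBlock M H (blockOf M (θ : H → ℂ)) B := by
    apply isInducedBlock_of_rep H θ hB hχ₀
    intro g
    have h1 := induced_tower hM (Subgroup.normalizer (P : Set G)) H hHN
      (P.subgroupOf (Subgroup.normalizer (P : Set G))) hPp.comap_subtype hC χ₁ θ hθ'' g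
    have h2 := hind₁.2.2 χ₁ hχ₁ χ₀ hχ₀ g
    have h3 := (Iloc M).add_mem (sub_mem_Iloc_symm h1) h2
    rwa [sub_add_sub_cancel] at h3
  exact ⟨_, defectGroup_of_induced hM hP H hPH
    ((Subgroup.normal_subgroupOf_iff_le_normalizer hPH).mpr hHN) hind, hind⟩

theorem ext_conj {M : Ideal AlgInt} {p : ℕ} [Fact p.Prime] (hM : IsPModular p M)
    {B : Set (IrrCharacter G)} (hB : IsPBlock M B) {P : Subgroup G}
    (hP : IsDefectGroup p M B P) (H : Subgroup G) (hPH : P ≤ H)
    (hHN : H ≤ Subgroup.normalizer (P : Set G))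
    (hn : (H.subgroupOf (Subgroup.normalizer (P : Set G))).Normal)
    (hC : Subgroup.centralizer ((P.subgroupOf (Subgroup.normalizer (P : Set G)) :
      Subgroup (Subgroup.normalizer (P : Set G))) : Set (Subgroup.normalizer (P : Set G))) ≤
      H.subgroupOf (Subgroup.normalizer (P : Set G)))
    (b b' : Set (IrrCharacter H)) (hb : IsInducedBlock M H b B) (hb' : IsInducedBlock M H b' B) :
    ∃ n ∈ Subgroup.normalizer (P : Set G), ∀ θ ∈ b, ∃ θ' ∈ b', ∀ x : H,
      ∀ hx : n * (x : G) * n⁻¹ ∈ H, (θ' : H → ℂ) x = (θ : H → ℂ) ⟨n * (x : G) * n⁻¹, hx⟩ := by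
  classical
  haveI := hM.2.1.isPrime
  have hPp := isPGroup_of_isDefectGroup hP
  obtain ⟨B₁, hB₁, hB₁D, hind₁⟩ := Cfsg.Agent.S0920.exist2 p M hM P hPp B hB hP
  obtain ⟨χ₀, hχ₀⟩ := block_nonempty hB
  have key : ∀ (c : Set (IrrCharacter H)), IsInducedBlock M H c B → ∀ θ₀ ∈ c,
      ∀ χ₁ : IrrCharacter (Subgroup.normalizer (P : Set G)),
      classInner (fun x : H.subgroupOf (Subgroup.normalizer (P : Set G)) =>
        (χ₁ : Subgroup.normalizer (P : Set G) → ℂ) x)
        (tr (Subgroup.subgroupOfEquivOfLe hHN) θ₀ :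
          H.subgroupOf (Subgroup.normalizer (P : Set G)) → ℂ) ≠ 0 → χ₁ ∈ B₁ := by
    intro c hc θ₀ hθ₀ χ₁ hcon
    have hind : IsInducedBlock M (Subgroup.normalizer (P : Set G))
        (blockOf M (χ₁ : Subgroup.normalizer (P : Set G) → ℂ)) B := by
      apply isInducedBlock_of_rep _ χ₁ hB hχ₀
      intro g
      have h1 := induced_tower hM (Subgroup.normalizer (P : Set G)) H hHN
        (P.subgroupOf (Subgroup.normalizer (P : Set G))) hPp.comap_subtype hC χ₁ θ₀ hcon g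
      have h2 := hc.2.2 θ₀ hθ₀ χ₀ hχ₀ g
      have h3 := (Iloc M).add_mem h1 h2
      rwa [sub_add_sub_cancel] at h3
    have h4 := Cfsg.Agent.S0920.uniq2 p M hM P hPp B hB B₁ _ hB₁ ⟨χ₁, rfl⟩ hB₁D hind₁ hind
    rw [← h4]
    exact sameBlock_refl (M := M) _
  obtain ⟨θ₀, hθ₀⟩ := block_nonempty hb.1
  obtain ⟨θ₀', hθ₀'⟩ := block_nonempty hb'.1
  obtain ⟨χ₁, hχ₁⟩ := exists_over' (H.subgroupOf (Subgroup.normalizer (P : Set G)))
    (tr (Subgroup.subgroupOfEquivOfLe hHN) θ₀)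
  obtain ⟨χ₁', hχ₁'⟩ := exists_over' (H.subgroupOf (Subgroup.normalizer (P : Set G)))
    (tr (Subgroup.subgroupOfEquivOfLe hHN) θ₀')
  have hs : SameBlock M (χ₁ : Subgroup.normalizer (P : Set G) → ℂ)
      (χ₁' : Subgroup.normalizer (P : Set G) → ℂ) :=
    sameBlock_of_mem hB₁ (key b hb θ₀ hθ₀ χ₁ hχ₁) (key b' hb' θ₀' hθ₀' χ₁' hχ₁')
  have horb := mem_orb_of_sameBlock (H.subgroupOf (Subgroup.normalizer (P : Set G)))
    (b := blockOf M (tr (Subgroup.subgroupOfEquivOfLe hHN) θ₀ :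
      H.subgroupOf (Subgroup.normalizer (P : Set G)) → ℂ)) ⟨_, rfl⟩ hs
    (sameBlock_refl (M := M) _) hχ₁ hχ₁'
  obtain ⟨n, θ₁, hθ₁, hn1⟩ := horb
  refine ⟨(n : G), n.2, ?_⟩
  intro θ hθ
  refine ⟨tr (Subgroup.subgroupOfEquivOfLe hHN).symm
    (cj (H.subgroupOf (Subgroup.normalizer (P : Set G)))
      (tr (Subgroup.subgroupOfEquivOfLe hHN) θ) n), ?_, ?_⟩
  · have h1 : SameBlock M (tr (Subgroup.subgroupOfEquivOfLe hHN) θ :
        H.subgroupOf (Subgroup.normalizer (P : Set G)) → ℂ)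
        (θ₁ : H.subgroupOf (Subgroup.normalizer (P : Set G)) → ℂ) :=
      sameBlock_trans (M := M)
        (sameBlock_tr (Subgroup.subgroupOfEquivOfLe hHN) (sameBlock_of_mem hb.1 hθ hθ₀)) hθ₁
    have h2 := sameBlock_cj (H.subgroupOf (Subgroup.normalizer (P : Set G))) h1 n
    rw [← hn1] at h2
    have h3 := sameBlock_tr (Subgroup.subgroupOfEquivOfLe hHN).symm h2
    rw [tr_symm_tr] at h3
    by_contra hc
    exact block_closed hb'.1 θ₀' hθ₀' _ hc (sameBlock_symm (M := M) h3)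
  · intro x hx
    rfl

end Cfsg.Agent.Lib.Helper2.BlockExt2
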