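import Mathlib
import Cfsg.Prelude.Def_Blocks
import Cfsg.Agent.Lib.Helper2.BlockFong
import Cfsg.Agent.Lib.Helper2.BlockN
import Cfsg.Agent.Lib.Helper2.BlockMisc
import Cfsg.Agent.Lib.Helper2.BlockAvg
import Cfsg.Agent.Lib.Helper2.BlockCong
import Cfsg.Agent.Lib.Helper2.BlockSM7
import Cfsg.Agent.Lib.Helper2.BlockSM3
import Cfsg.Agent.Lib.Helper2.BlockPr
import Cfsg.Agent.Lib.Helper2.BlockSM5
import Cfsg.Agent.S0906
import Cfsg.Agent.Lib.Helper2.BlockInd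
import Cfsg.Agent.Lib.Helper2.BlockReg3
import Cfsg.Agent.Lib.Helper2.BlockBr
import Cfsg.Agent.S0917

set_option autoImplicit false
set_option linter.unusedSectionVars false
set_option linter.unusedVariables false
set_option linter.style.haveILetI false

/-! Miscellaneous consequences of the block library. -/

namespace Cfsg.Agent.Lib.Helper2.BlockFR

open Cfsg Cfsg.Agent.Lib.Helper7.CharIrr Cfsg.Agent.Lib.Helper7.CharOrth
  Cfsg.Agent.Lib.Helper7.CharIntegral Cfsg.Agent.Lib.Helper7.CharMore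
  Cfsg.Agent.Lib.Helper7.CharClassAlg Cfsg.Agent.Lib.Helper7.CharComplete
  Cfsg.Agent.Lib.Helper7.CharDeg Cfsg.Agent.Lib.Helper7.CharGalois
  Cfsg.Agent.Lib.Helper7.CharClassAlg2 Cfsg.Agent.Lib.Helper7.CharBurnside
  Cfsg.Agent.Lib.Helper7.CharNormal Cfsg.Agent.Lib.Helper7.CharClifford
  Cfsg.Agent.Lib.Helper7.CharInd Cfsg.Agent.Lib.Helper7.CharMisc
  Cfsg.Agent.Lib.Helper2.LocRing
  Cfsg.Agent.Lib.Helper2.BlockZ Cfsg.Agent.Lib.Helper2.BlockDef Cfsg.Agent.Lib.Helper2.BlockOrth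
  Cfsg.Agent.Lib.Helper2.BlockSM4 Cfsg.Agent.Lib.Helper2.BlockSub Cfsg.Agent.Lib.Helper2.BlockBr2
  Cfsg.Agent.Lib.Helper2.BlockCov Cfsg.Agent.Lib.Helper2.BlockKer
  Cfsg.Agent.Lib.Helper2.BlockCov2 Cfsg.Agent.Lib.Helper2.BlockLam
  Cfsg.Agent.Lib.Helper2.BlockFMT Cfsg.Agent.Lib.Helper2.BlockGr3
  Cfsg.Agent.Lib.Helper2.BlockFong Cfsg.Agent.Lib.Helper2.BlockN
  Cfsg.Agent.Lib.Helper2.BlockMisc Cfsg.Agent.Lib.Helper2.BlockAvg Cfsg.Agent.Lib.Helper2.BlockCong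
  Cfsg.Agent.Lib.Helper2.BlockSM7 Cfsg.Agent.Lib.Helper2.BlockSM3 Cfsg.Agent.Lib.Helper2.BlockPr
  Cfsg.Agent.Lib.Helper2.BlockSM5 Cfsg.Agent.Lib.Helper2.BlockInd Cfsg.Agent.Lib.Helper2.BlockReg
  Cfsg.Agent.Lib.Helper2.BlockReg2 Cfsg.Agent.Lib.Helper2.BlockReg3 Cfsg.Agent.Lib.Helper2.BlockBr
open scoped ComplexConjugate

variable {G : Type*} [Group G] [Fintype G] (N : Subgroup G) [hN : N.Normal] [Fintype N]
  (T : Subgroup G) [Fintype T] (hNT : N ≤ T)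

/-- left multiplication of a function on `T` by an element of the group algebra of `N` -/
def act (hNT : N ≤ T) (u : N → ℂ) (φ : T → ℂ) : T → ℂ :=
  fun t => ∑ n : N, u n * φ ((⟨n, hNT n.2⟩ : T)⁻¹ * t)

/-- a function on `N` viewed on `T` -/
noncomputable def uT (u : N → ℂ) : T → ℂ := fun t => ext0 N u (t : G)

theorem sum_uT (u : N → ℂ) (F : T → ℂ) :
    ∑ x : T, uT N T u x * F x = ∑ n : N, u n * F ⟨n, hNT n.2⟩ := by
  symm
  apply Fintype.sum_of_injective (fun n : N => (⟨n, hNT n.2⟩ : T))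
  · intro a b h
    exact Subtype.ext (congrArg (fun t : T => (t : G)) h)
  · intro t ht
    have : (t : G) ∉ N := fun h => ht ⟨⟨t, h⟩, rfl⟩
    rw [uT, ext0_notMem N u this, zero_mul]
  · intro n
    rw [uT, ext0_mem N u n.2]

theorem cv_uT (u : N → ℂ) (φ : T → ℂ) : cv (uT N T u) φ = act N T hNT u φ := by
  funext t
  unfold cv act
  exact sum_uT N T hNT u (fun x => φ (x⁻¹ * t))

theorem act_act (v u : N → ℂ) (a : T → ℂ) :
    act N T hNT v (act N T hNT u a) = act N T hNT (cv v u) a := by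
  funext t
  unfold act cv
  have h1 : ∀ k : N, (∑ x : N, v x * u (x⁻¹ * k)) * a ((⟨k, hNT k.2⟩ : T)⁻¹ * t) =
      ∑ x : N, v x * u (x⁻¹ * k) * a ((⟨k, hNT k.2⟩ : T)⁻¹ * t) := fun k => Finset.sum_mul _ _ _
  simp only [h1]
  rw [Finset.sum_comm]
  apply Finset.sum_congr rfl
  intro n _
  rw [Finset.mul_sum]
  apply Fintype.sum_equiv (Equiv.mulLeft n)
  intro m
  simp only [Equiv.coe_mulLeft, inv_mul_cancel_left]
  rw [mul_assoc]
  congr 3
  apply Subtype.ext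
  simp only [Subgroup.coe_mul, Subgroup.coe_inv, mul_inv_rev]
  group

theorem act_zero (a : T → ℂ) : act N T hNT 0 a = 0 := by
  funext t
  simp [act]

theorem key (u : N → ℂ) (hinv : ∀ x ∈ T, conjFun N u x = u)
    (horth : ∀ x, x ∉ T → cv (conjFun N u x) u = 0)
    (a : T → ℂ) (ha : IsClassFunction T a) (hua : act N T hNT u a = a) :
    act N T hNT u (fun s : T => indFun T a s) = a := by
  classical
  funext t
  have hS : ∀ x : G, ∑ n : N, u n * extendByZero T a (x⁻¹ * ((n : G)⁻¹ * t) * x) =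
      if x ∈ T then a t else 0 := by
    intro x
    have h1 : ∑ n : N, u n * extendByZero T a (x⁻¹ * ((n : G)⁻¹ * t) * x) =
        ∑ m : N, conjFun N u x m * extendByZero T a ((m : G)⁻¹ * (x⁻¹ * t * x)) := by
      symm
      apply Fintype.sum_equiv (cjEquiv N x)
      intro m
      simp only [cjEquiv, Equiv.coe_fn_mk, conjFun_apply]
      congr 2
      group
    rw [h1]
    by_cases hx : x ∈ T
    · rw [if_pos hx, hinv x hx]
      have hy : x⁻¹ * t * x ∈ T := T.mul_mem (T.mul_mem (T.inv_mem hx) t.2) hx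
      have h2 : ∀ m : N, extendByZero T a ((m : G)⁻¹ * (x⁻¹ * t * x)) =
          a ((⟨m, hNT m.2⟩ : T)⁻¹ * ⟨x⁻¹ * t * x, hy⟩) := by
        intro m
        rw [extendByZero_of_mem T a (T.mul_mem (T.inv_mem (hNT m.2)) hy)]
        rfl
      simp only [h2]
      have h3 := congrFun hua ⟨x⁻¹ * t * x, hy⟩
      unfold act at h3
      rw [h3]
      have h4 := ha t (⟨x, hx⟩ : T)⁻¹
      rw [← h4]
      congr 1
      apply Subtype.ext
      simp
    · rw [if_neg hx]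
      by_cases hy : x⁻¹ * t * x ∈ T
      · have h2 : ∀ m : N, extendByZero T a ((m : G)⁻¹ * (x⁻¹ * t * x)) =
            a ((⟨m, hNT m.2⟩ : T)⁻¹ * ⟨x⁻¹ * t * x, hy⟩) := by
          intro m
          rw [extendByZero_of_mem T a (T.mul_mem (T.inv_mem (hNT m.2)) hy)]
          rfl
        simp only [h2]
        change act N T hNT (conjFun N u x) a ⟨x⁻¹ * t * x, hy⟩ = 0
        rw [← hua, act_act, horth x hx, act_zero]
        rfl
      · apply Finset.sum_eq_zero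
        intro m _
        rw [extendByZero_of_not_mem, mul_zero]
        intro hc
        apply hy
        have := T.mul_mem (hNT m.2) hc
        rwa [mul_inv_cancel_left] at this
  unfold act
  have h5 : ∀ n : N, u n * indFun T a (((⟨n, hNT n.2⟩ : T)⁻¹ * t : T) : G) =
      (Nat.card T : ℂ)⁻¹ * ∑ x : G, u n * extendByZero T a (x⁻¹ * ((n : G)⁻¹ * t) * x) := by
    intro n
    unfold indFun
    rw [Finset.mul_sum, Finset.mul_sum, Finset.mul_sum]
    apply Finset.sum_congr rfl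
    intro x _
    simp only [Subgroup.coe_mul, Subgroup.coe_inv]
    ring
  simp only [h5]
  rw [← Finset.mul_sum, Finset.sum_comm]
  simp only [hS]
  rw [sum_ite_eq_sum_sub T (fun _ => a t), Finset.sum_const, Finset.card_univ, nsmul_eq_mul,
    ← Nat.card_eq_fintype_card, ← mul_assoc, inv_mul_cancel₀, one_mul]
  exact_mod_cast (Nat.card_pos (α := T)).ne'

theorem W_conjFun' (θ : IrrCharacter N) (a : N → ℂ) (x : G) :
    W (θ : N → ℂ) (conjFun N a x) = W (cj N θ x⁻¹ : N → ℂ) a := by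
  change _ = W (conjFun N (θ : N → ℂ) x⁻¹) a
  rw [W_conjFun, inv_inv]

theorem mem_T_of_two {M : Ideal AlgInt} [M.IsPrime] {b : Set (IrrCharacter N)} (hb : IsPBlock M b)
    (hT : ∀ g : G, g ∈ T ↔ ∀ θ ∈ b, cj N θ g ∈ b) {θ : IrrCharacter N} {x : G} (h1 : θ ∈ b)
    (h2 : cj N θ x ∈ b) : x ∈ T := by
  rw [hT]
  intro θ' hθ'
  by_contra hc
  exact block_closed hb _ h2 _ hc (sameBlock_cj N (sameBlock_of_mem hb h1 hθ') x)

theorem cj_mem_iff {b : Set (IrrCharacter N)}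
    (hT : ∀ g : G, g ∈ T ↔ ∀ θ ∈ b, cj N θ g ∈ b) {x : G} (hx : x ∈ T) (θ : IrrCharacter N) :
    cj N θ x ∈ b ↔ θ ∈ b := by
  constructor
  · intro h
    have := (hT x⁻¹).mp (T.inv_mem hx) _ h
    rwa [cj_cj, mul_inv_cancel, cj_one] at this
  · exact fun h => (hT x).mp hx θ h

theorem hinv_blockCoeff {b : Set (IrrCharacter N)}
    (hT : ∀ g : G, g ∈ T ↔ ∀ θ ∈ b, cj N θ g ∈ b) :
    ∀ x ∈ T, conjFun N (blockCoeff b) x = blockCoeff b := by
  classical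
  intro x hx
  apply eq_of_W (conjFun_isClass N (blockCoeff_isClass b) x) (blockCoeff_isClass b)
  intro ψ hψ
  obtain ⟨ψ', hψ'⟩ : ∃ ψ' : IrrCharacter N, (ψ' : N → ℂ) = ψ := ⟨⟨ψ, hψ⟩, rfl⟩
  rw [← hψ', W_conjFun', W_blockCoeff, W_blockCoeff]
  simp only [cj_mem_iff N T hT (T.inv_mem hx)]

theorem horth_blockCoeff {M : Ideal AlgInt} [M.IsPrime] {b : Set (IrrCharacter N)}
    (hb : IsPBlock M b) (hT : ∀ g : G, g ∈ T ↔ ∀ θ ∈ b, cj N θ g ∈ b) :
    ∀ x, x ∉ T → cv (conjFun N (blockCoeff b) x) (blockCoeff b) = 0 := by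
  classical
  intro x hx
  apply eq_zero_of_W (cv_isClass (conjFun_isClass N (blockCoeff_isClass b) x) (blockCoeff_isClass b))
  intro ψ hψ
  obtain ⟨ψ', hψ'⟩ : ∃ ψ' : IrrCharacter N, (ψ' : N → ℂ) = ψ := ⟨⟨ψ, hψ⟩, rfl⟩
  rw [← hψ', W_cv ψ'.2 (conjFun_isClass N (blockCoeff_isClass b) x), W_conjFun', W_blockCoeff,
    W_blockCoeff]
  by_cases h1 : ψ' ∈ b
  · rw [if_neg, zero_mul]
    intro h2
    apply hx
    have := T.inv_mem (mem_T_of_two N T hb hT h1 h2)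
    rwa [inv_inv] at this
  · rw [if_neg h1, mul_zero]

theorem uT_isClass {u : N → ℂ} (hinv : ∀ x ∈ T, conjFun N u x = u) :
    IsClassFunction T (uT N T u) := by
  intro t s
  unfold uT
  by_cases ht : (t : G) ∈ N
  · have h1 : ((s * t * s⁻¹ : T) : G) ∈ N := by
      simp only [Subgroup.coe_mul, Subgroup.coe_inv]
      exact hN.conj_mem _ ht _
    rw [ext0_mem N u ht, ext0_mem N u h1]
    have := congrFun (hinv s s.2) ⟨t, ht⟩
    rw [conjFun_apply] at this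
    rw [← this]
    rfl
  · have h1 : ((s * t * s⁻¹ : T) : G) ∉ N := by
      intro hc
      apply ht
      simp only [Subgroup.coe_mul, Subgroup.coe_inv] at hc
      have := hN.conj_mem _ hc (s : G)⁻¹
      simpa [mul_assoc] using this
    rw [ext0_notMem N u ht, ext0_notMem N u h1]

theorem cv_uT_uT (hNT' : N ≤ T) (u v : N → ℂ) : cv (uT N T u) (uT N T v) = uT N T (cv u v) := by
  rw [cv_uT N T hNT']
  funext t
  unfold act uT
  by_cases ht : (t : G) ∈ N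
  · rw [ext0_mem N _ ht]
    unfold cv
    apply Finset.sum_congr rfl
    intro n _
    have h1 : (((⟨n, hNT' n.2⟩ : T)⁻¹ * t : T) : G) ∈ N := by
      simp only [Subgroup.coe_mul, Subgroup.coe_inv]
      exact N.mul_mem (N.inv_mem n.2) ht
    rw [ext0_mem N v h1]
    rfl
  · rw [ext0_notMem N _ ht]
    apply Finset.sum_eq_zero
    intro n _
    rw [ext0_notMem N v, mul_zero]
    intro hc
    apply ht
    simp only [Subgroup.coe_mul, Subgroup.coe_inv] at hc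
    have := N.mul_mem n.2 hc
    rwa [mul_inv_cancel_left] at this

/-- `ψ` lies over `S` -/
def Over (hNT : N ≤ T) (ψ : T → ℂ) (S : Set (IrrCharacter N)) : Prop :=
  ∃ θ ∈ S, classInner (fun n : N => ψ ⟨(n : G), hNT n.2⟩) (θ : N → ℂ) ≠ 0

theorem W_uT_blockCoeff [Fintype (IrrCharacter N)] (ψ : IrrCharacter T) (S : Set (IrrCharacter N))
    [DecidablePred (· ∈ S)] :
    W (ψ : T → ℂ) (uT N T (blockCoeff S)) =
      (∑ θ ∈ Finset.univ.filter (fun θ => θ ∈ S),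
        classInner (fun n : N => (ψ : T → ℂ) ⟨(n : G), hNT n.2⟩) (θ : N → ℂ) * (θ : N → ℂ) 1) /
        (ψ : T → ℂ) 1 := by
  unfold W
  rw [sum_uT N T hNT]
  have hch : IsCharacter N (fun n : N => (ψ : T → ℂ) ⟨(n : G), hNT n.2⟩) :=
    isCharacter_comp (Subgroup.inclusion hNT) (IsIrrCharacter.isCharacter ψ.2)
  have := sum_blockCoeff_mul S (IsCharacter.isClassFunction hch) 1
  simp only [mul_one] at this
  rw [← this]

theorem W_uT_ne_zero_iff (ψ : IrrCharacter T) (S : Set (IrrCharacter N)) :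
    W (ψ : T → ℂ) (uT N T (blockCoeff S)) ≠ 0 ↔ Over N T hNT (ψ : T → ℂ) S := by
  classical
  haveI := Fintype.ofFinite (IrrCharacter N)
  have hψ1 := Cfsg.Agent.Lib.Helper2.BlockKer.irr_one_ne_zero ψ.2
  have hch : IsCharacter N (fun n : N => (ψ : T → ℂ) ⟨(n : G), hNT n.2⟩) :=
    isCharacter_comp (Subgroup.inclusion hNT) (IsIrrCharacter.isCharacter ψ.2)
  obtain ⟨m, hm, -⟩ := exists_mult hch
  rw [W_uT_blockCoeff N T hNT]
  have h1 : ∑ θ ∈ Finset.univ.filter (fun θ => θ ∈ S),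
      classInner (fun n : N => (ψ : T → ℂ) ⟨(n : G), hNT n.2⟩) (θ : N → ℂ) * (θ : N → ℂ) 1 =
      ((∑ θ ∈ Finset.univ.filter (fun θ => θ ∈ S), m θ * charDegree (θ : N → ℂ) : ℕ) : ℂ) := by
    push_cast
    apply Finset.sum_congr rfl
    intro θ _
    rw [hm, charDegree_cast (IsIrrCharacter.isCharacter θ.2)]
  rw [h1]
  constructor
  · intro h
    have h2 : (∑ θ ∈ Finset.univ.filter (fun θ => θ ∈ S), m θ * charDegree (θ : N → ℂ)) ≠ 0 := by
      intro h0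
      rw [h0] at h
      simp at h
    obtain ⟨θ, hθ, hne⟩ := Finset.exists_ne_zero_of_sum_ne_zero h2
    refine ⟨θ, (Finset.mem_filter.mp hθ).2, ?_⟩
    rw [hm]
    intro h0
    apply hne
    have : m θ = 0 := by exact_mod_cast h0
    rw [this, zero_mul]
  · rintro ⟨θ, hθ, hne⟩
    apply div_ne_zero _ hψ1
    have h2 : m θ ≠ 0 := by
      intro h0
      apply hne
      rw [hm, h0]
      simp
    have h3 : 0 < ∑ θ ∈ Finset.univ.filter (fun θ => θ ∈ S), m θ * charDegree (θ : N → ℂ) := by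
      apply Finset.sum_pos'
      · intro i _; exact Nat.zero_le _
      · exact ⟨θ, Finset.mem_filter.mpr ⟨Finset.mem_univ _, hθ⟩,
          Nat.mul_pos (Nat.pos_of_ne_zero h2) (charDegree_pos θ.2)⟩
    exact_mod_cast h3.ne'

theorem W_eps {b : Set (IrrCharacter N)}
    (hT : ∀ g : G, g ∈ T ↔ ∀ θ ∈ b, cj N θ g ∈ b) (ψ : IrrCharacter T)
    (h : Over N T hNT (ψ : T → ℂ) b) : W (ψ : T → ℂ) (uT N T (blockCoeff b)) = 1 := by
  have h1 := (W_uT_ne_zero_iff N T hNT ψ b).mpr h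
  have h2 := W_cv ψ.2 (uT_isClass N T (hinv_blockCoeff N T hT)) (b := uT N T (blockCoeff b))
  rw [cv_uT_uT N T hNT, cv_blockCoeff] at h2
  exact (mul_left_cancel₀ h1 (by rw [mul_one]; exact h2)).symm

theorem W_indFun (ψ : T → ℂ) (hψ : ψ 1 ≠ 0) {a : G → ℂ} (ha : IsClassFunction G a) :
    W (indFun T ψ) a = W ψ (fun t : T => a t) := by
  have hcl : IsClassFunction G (fun g => conj (a g)) := by
    intro g h
    simp only
    rw [ha g h]
  have h1 := frobenius_reciprocity T ψ (fun g => conj (a g)) hcl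
  simp only [classInner, Complex.conj_conj] at h1
  unfold W
  rw [indFun_one]
  have hG : (Nat.card G : ℂ) ≠ 0 := by exact_mod_cast (Nat.card_pos (α := G)).ne'
  have hH : (Nat.card T : ℂ) ≠ 0 := by exact_mod_cast (Nat.card_pos (α := T)).ne'
  have hi : (T.index : ℂ) ≠ 0 := by exact_mod_cast (Subgroup.index_ne_zero_of_finite (H := T))
  have e1 : (Nat.card G : ℂ) = (T.index : ℂ) * (Nat.card T : ℂ) := by
    rw [← Subgroup.index_mul_card T]
    push_cast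
    rfl
  have h2 : ∑ k, a k * indFun T ψ k =
      (Nat.card G : ℂ) * ((Nat.card G : ℂ)⁻¹ * ∑ g, indFun T ψ g * a g) := by
    rw [← mul_assoc, mul_inv_cancel₀ hG, one_mul]
    apply Finset.sum_congr rfl
    intro k _
    ring
  rw [h2, h1, e1]
  have h3 : ∑ g : T, ψ g * a g = ∑ g : T, a g * ψ g := by
    apply Finset.sum_congr rfl
    intro k _
    ring
  rw [h3]
  field_simp

theorem act_eq_self {b : Set (IrrCharacter N)}
    (hT : ∀ g : G, g ∈ T ↔ ∀ θ ∈ b, cj N θ g ∈ b) {a : T → ℂ} (ha : IsClassFunction T a)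
    (hsupp : ∀ ψ' : IrrCharacter T, W (ψ' : T → ℂ) a ≠ 0 → Over N T hNT (ψ' : T → ℂ) b) :
    act N T hNT (blockCoeff b) a = a := by
  rw [← cv_uT N T hNT]
  have hcl := uT_isClass N T (hinv_blockCoeff N T hT)
  apply eq_of_W (cv_isClass hcl ha) ha
  intro ψ hψ
  obtain ⟨ψ', hψ'⟩ : ∃ ψ' : IrrCharacter T, (ψ' : T → ℂ) = ψ := ⟨⟨ψ, hψ⟩, rfl⟩
  rw [← hψ', W_cv ψ'.2 hcl]
  by_cases h0 : W (ψ' : T → ℂ) a = 0
  · rw [h0, mul_zero]
  · rw [W_eps N T hNT hT ψ' (hsupp ψ' h0), one_mul]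

theorem W_ind_restrict {M : Ideal AlgInt} [M.IsPrime] {b : Set (IrrCharacter N)}
    (hb : IsPBlock M b) (hT : ∀ g : G, g ∈ T ↔ ∀ θ ∈ b, cj N θ g ∈ b) {a : T → ℂ}
    (ha : IsClassFunction T a)
    (hsupp : ∀ ψ' : IrrCharacter T, W (ψ' : T → ℂ) a ≠ 0 → Over N T hNT (ψ' : T → ℂ) b)
    (ψ : IrrCharacter T) (hψ : Over N T hNT (ψ : T → ℂ) b) :
    W (ψ : T → ℂ) (fun t : T => indFun T a t) = W (ψ : T → ℂ) a := by
  have h1 := key N T hNT (blockCoeff b) (hinv_blockCoeff N T hT) (horth_blockCoeff N T hb hT) a ha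
    (act_eq_self N T hNT hT ha hsupp)
  rw [← cv_uT N T hNT] at h1
  have h2 := congrArg (W (ψ : T → ℂ)) h1
  rwa [W_cv ψ.2 (uT_isClass N T (hinv_blockCoeff N T hT)), W_eps N T hNT hT ψ hψ, one_mul] at h2

theorem indFun_eI (ψ : T → ℂ) (g : G) :
    indFun T (eI ψ) g = (Nat.card T : ℂ)⁻¹ * ψ 1 * conj (indFun T ψ g) := by
  unfold indFun
  rw [map_mul, map_inv₀, Complex.conj_natCast, map_sum, Finset.mul_sum, Finset.mul_sum,
    Finset.mul_sum]
  apply Finset.sum_congr rfl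
  intro x _
  by_cases hx : x⁻¹ * g * x ∈ T
  · rw [extendByZero_of_mem T _ hx, extendByZero_of_mem T _ hx]
    unfold eI
    ring
  · rw [extendByZero_of_not_mem T _ hx, extendByZero_of_not_mem T _ hx]
    simp

theorem eI_supp {b : Set (IrrCharacter N)} (ψ : IrrCharacter T)
    (hψ : Over N T hNT (ψ : T → ℂ) b) :
    ∀ ψ' : IrrCharacter T, W (ψ' : T → ℂ) (eI (ψ : T → ℂ)) ≠ 0 → Over N T hNT (ψ' : T → ℂ) b := by
  classical
  intro ψ' h
  rw [W_eI ψ.2 ψ'.2] at h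
  by_cases he : (ψ' : T → ℂ) = ψ
  · rw [he]; exact hψ
  · rw [if_neg he] at h
    exact absurd rfl h

theorem indFun_irr {M : Ideal AlgInt} [M.IsPrime] {b : Set (IrrCharacter N)}
    (hb : IsPBlock M b) (hT : ∀ g : G, g ∈ T ↔ ∀ θ ∈ b, cj N θ g ∈ b)
    (ψ : IrrCharacter T) (hψ : Over N T hNT (ψ : T → ℂ) b) :
    IsIrrCharacter G (indFun T (ψ : T → ℂ)) := by
  classical
  have hch := isCharacter_indFun T (ψ : T → ℂ) (IsIrrCharacter.isCharacter ψ.2)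
  apply isIrrCharacter_of_norm_one hch
  have h1 := W_ind_restrict N T hNT hb hT (eI_isClass ψ.2) (eI_supp N T hNT ψ hψ) ψ hψ
  rw [W_eI ψ.2 ψ.2, if_pos rfl] at h1
  rw [frobenius_reciprocity T _ _ (IsCharacter.isClassFunction hch)]
  have hψ1 := Cfsg.Agent.Lib.Helper2.BlockKer.irr_one_ne_zero ψ.2
  unfold W at h1
  simp only [indFun_eI] at h1
  unfold classInner
  rw [div_eq_iff hψ1, one_mul] at h1
  have h2 : ∑ g : T, (Nat.card T : ℂ)⁻¹ * (ψ : T → ℂ) 1 * conj (indFun T (ψ : T → ℂ) g) *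
      (ψ : T → ℂ) g = (ψ : T → ℂ) 1 * ((Nat.card T : ℂ)⁻¹ *
      ∑ g : T, (ψ : T → ℂ) g * conj (indFun T (ψ : T → ℂ) g)) := by
    rw [Finset.mul_sum, Finset.mul_sum]
    apply Finset.sum_congr rfl
    intro g _
    ring
  rw [h2] at h1
  exact mul_left_cancel₀ hψ1 (by rw [mul_one]; exact h1)

theorem exists_ind {M : Ideal AlgInt} [M.IsPrime] {b : Set (IrrCharacter N)}
    (hb : IsPBlock M b) (hT : ∀ g : G, g ∈ T ↔ ∀ θ ∈ b, cj N θ g ∈ b)
    (χ : IrrCharacter G) {θ : IrrCharacter N} (hθ : θ ∈ b)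
    (hcon : classInner (fun n : N => (χ : G → ℂ) n) (θ : N → ℂ) ≠ 0) :
    ∃ ψ : IrrCharacter T, Over N T hNT (ψ : T → ℂ) b ∧ (χ : G → ℂ) = indFun T (ψ : T → ℂ) := by
  classical
  haveI := Fintype.ofFinite (IrrCharacter T)
  have hch : IsCharacter T (fun t : T => (χ : G → ℂ) t) :=
    isCharacter_restrict T (IsIrrCharacter.isCharacter χ.2)
  obtain ⟨k, hk, hsum⟩ := exists_mult hch
  have h1 : (fun n : N => (χ : G → ℂ) n) =
      ∑ ψ : IrrCharacter T, (k ψ : ℂ) • (fun n : N => (ψ : T → ℂ) ⟨(n : G), hNT n.2⟩) := by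
    funext n
    have := congrFun hsum ⟨(n : G), hNT n.2⟩
    simp only [Finset.sum_apply, Pi.smul_apply, smul_eq_mul] at this ⊢
    exact this
  rw [h1, classInner_sum_left] at hcon
  obtain ⟨ψ, -, hne⟩ := Finset.exists_ne_zero_of_sum_ne_zero hcon
  rw [classInner_smul_left] at hne
  have hk0 : (k ψ : ℂ) ≠ 0 := left_ne_zero_of_mul hne
  have hov : Over N T hNT (ψ : T → ℂ) b := ⟨θ, hθ, right_ne_zero_of_mul hne⟩
  refine ⟨ψ, hov, ?_⟩
  have hirr := indFun_irr N T hNT hb hT ψ hov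
  have h2 := frobenius_reciprocity T (ψ : T → ℂ) (χ : G → ℂ)
    (IsCharacter.isClassFunction (IsIrrCharacter.isCharacter χ.2))
  rw [← classInner_conj_symm (fun t : T => (χ : G → ℂ) t), hk, classInner_irr hirr χ.2] at h2
  by_contra hc
  rw [if_neg (fun h => hc h.symm)] at h2
  apply hk0
  have := congrArg conj h2
  simpa using this.symm

theorem indFun_mem_Rloc {M : Ideal AlgInt} [M.IsPrime] {a : T → ℂ} (ha : IsClassFunction T a)
    (haR : ∀ t, a t ∈ Rloc M) (g : G) : indFun T a g ∈ Rloc M := by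
  classical
  haveI := Fintype.ofFinite (G ⧸ T)
  have hinv : ∀ (y : G) (u : T), extendByZero T a ((u : G)⁻¹ * y * u) = extendByZero T a y := by
    intro y u
    by_cases hy : y ∈ T
    · have h1 : (u : G)⁻¹ * y * u ∈ T := T.mul_mem (T.mul_mem (T.inv_mem u.2) hy) u.2
      rw [extendByZero_of_mem T a hy, extendByZero_of_mem T a h1, ← ha ⟨y, hy⟩ u⁻¹]
      congr 1
      apply Subtype.ext
      simp
    · have h1 : (u : G)⁻¹ * y * u ∉ T := by
        intro hc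
        apply hy
        have := T.mul_mem (T.mul_mem u.2 hc) (T.inv_mem u.2)
        simpa [mul_assoc] using this
      rw [extendByZero_of_not_mem T a hy, extendByZero_of_not_mem T a h1]
  have hT0 : (Nat.card T : ℂ) ≠ 0 := by exact_mod_cast (Nat.card_pos (α := T)).ne'
  have h2 : indFun T a g = ∑ j : G ⧸ T, extendByZero T a (j.out⁻¹ * g * j.out) := by
    unfold indFun
    rw [sum_eq_sum_quot T]
    have h3 : ∀ j : G ⧸ T, ∑ u : T, extendByZero T a ((j.out * (u : G))⁻¹ * g * (j.out * u)) =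
        (Nat.card T : ℂ) * extendByZero T a (j.out⁻¹ * g * j.out) := by
      intro j
      have h4 : ∀ u : T, extendByZero T a ((j.out * (u : G))⁻¹ * g * (j.out * u)) =
          extendByZero T a (j.out⁻¹ * g * j.out) := by
        intro u
        rw [← hinv (j.out⁻¹ * g * j.out) u]
        congr 1
        group
      simp only [h4]
      rw [Finset.sum_const, Finset.card_univ, nsmul_eq_mul, ← Nat.card_eq_fintype_card]
    simp only [h3]
    rw [← Finset.mul_sum, ← mul_assoc, inv_mul_cancel₀ hT0, one_mul]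
  rw [h2]
  apply Subring.sum_mem
  intro j _
  by_cases hy : j.out⁻¹ * g * j.out ∈ T
  · rw [extendByZero_of_mem T a hy]; exact haR _
  · rw [extendByZero_of_not_mem T a hy]; exact Subring.zero_mem _

theorem uT_mem_Rloc {M : Ideal AlgInt} [M.IsPrime] {u : N → ℂ} (hu : ∀ n, u n ∈ Rloc M) (t : T) :
    uT N T u t ∈ Rloc M := by
  unfold uT
  by_cases ht : (t : G) ∈ N
  · rw [ext0_mem N u ht]; exact hu _
  · rw [ext0_notMem N u ht]; exact Subring.zero_mem _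

theorem all_over {M : Ideal AlgInt} [M.IsPrime] {b : Set (IrrCharacter N)}
    (hb : IsPBlock M b) (hT : ∀ g : G, g ∈ T ↔ ∀ θ ∈ b, cj N θ g ∈ b)
    {B' : Set (IrrCharacter T)} (hB' : IsPBlock M B')
    (hcov : ∃ ψ ∈ B', Over N T hNT (ψ : T → ℂ) b) : ∀ ψ ∈ B', Over N T hNT (ψ : T → ℂ) b := by
  obtain ⟨ψ₀, hψ₀, hov⟩ := hcov
  intro ψ hψ
  by_contra hc
  have h1 := W_sub_mem_Iloc (sameBlock_of_mem hB' hψ hψ₀)
    (uT_isClass N T (hinv_blockCoeff N T hT))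
    (uT_mem_Rloc N T (fun n => blockCoeff_mem_Rloc b (block_closed hb) n))
  rw [W_eps N T hNT hT ψ₀ hov] at h1
  have h2 : W (ψ : T → ℂ) (uT N T (blockCoeff b)) = 0 := by
    by_contra h0
    exact hc ((W_uT_ne_zero_iff N T hNT ψ b).mp h0)
  rw [h2, zero_sub] at h1
  apply one_notMem_Iloc (M := M)
  have := Submodule.neg_mem (Iloc M) h1
  rwa [neg_neg] at this

theorem over_of_orb {b : Set (IrrCharacter N)} (χ : IrrCharacter G) {θ : IrrCharacter N}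
    (hθ : θ ∈ orb N b) (hcon : classInner (fun n : N => (χ : G → ℂ) n) (θ : N → ℂ) ≠ 0) :
    ∃ θ1 ∈ b, classInner (fun n : N => (χ : G → ℂ) n) (θ1 : N → ℂ) ≠ 0 := by
  obtain ⟨g, θ1, hθ1, rfl⟩ := hθ
  refine ⟨θ1, hθ1, ?_⟩
  rw [← classInner_restrict_conjFun N
    (IsCharacter.isClassFunction (IsIrrCharacter.isCharacter χ.2)) (θ1 : N → ℂ) g]
  exact hcon

theorem blockCoeff_supp {M : Ideal AlgInt} [M.IsPrime] {b : Set (IrrCharacter N)}
    (hb : IsPBlock M b) (hT : ∀ g : G, g ∈ T ↔ ∀ θ ∈ b, cj N θ g ∈ b)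
    {B' : Set (IrrCharacter T)} (hB' : IsPBlock M B')
    (hcov : ∃ ψ ∈ B', Over N T hNT (ψ : T → ℂ) b) :
    ∀ ψ' : IrrCharacter T, W (ψ' : T → ℂ) (blockCoeff B') ≠ 0 → Over N T hNT (ψ' : T → ℂ) b := by
  classical
  intro ψ' h
  rw [W_blockCoeff] at h
  by_cases hm : ψ' ∈ B'
  · exact all_over N T hNT hb hT hB' hcov ψ' hm
  · rw [if_neg hm] at h
    exact absurd rfl h

theorem fr_a {M : Ideal AlgInt} [M.IsPrime] {b : Set (IrrCharacter N)}
    (hb : IsPBlock M b) (hT : ∀ g : G, g ∈ T ↔ ∀ θ ∈ b, cj N θ g ∈ b)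
    {B' : Set (IrrCharacter T)} (hB' : IsPBlock M B')
    (hcov : ∃ ψ ∈ B', Over N T hNT (ψ : T → ℂ) b) :
    ∃ B : Set (IrrCharacter G), IsInducedBlock M T B' B ∧ Covers N B b ∧
      (∀ ψ ∈ B', IsIrrCharacter G (indFun T (ψ : T → ℂ))) ∧
      ∀ χ : IrrCharacter G, χ ∈ B ↔ ∃ ψ ∈ B', (χ : G → ℂ) = indFun T (ψ : T → ℂ) := by
  classical
  have hall := all_over N T hNT hb hT hB' hcov
  have hirr : ∀ ψ ∈ B', IsIrrCharacter G (indFun T (ψ : T → ℂ)) :=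
    fun ψ hψ => indFun_irr N T hNT hb hT ψ (hall ψ hψ)
  obtain ⟨ψ₀, hψ₀, hov₀⟩ := hcov
  obtain ⟨χ₀, hχ₀⟩ : ∃ χ₀ : IrrCharacter G, (χ₀ : G → ℂ) = indFun T (ψ₀ : T → ℂ) :=
    ⟨⟨_, hirr ψ₀ hψ₀⟩, rfl⟩
  have hne : ∀ ψ : IrrCharacter T, (ψ : T → ℂ) 1 ≠ 0 :=
    fun ψ => Cfsg.Agent.Lib.Helper2.BlockKer.irr_one_ne_zero ψ.2
  have hmem : ∀ ψ ∈ B', ∀ χ : IrrCharacter G, (χ : G → ℂ) = indFun T (ψ : T → ℂ) →
      χ ∈ blockOf M (χ₀ : G → ℂ) := by
    intro ψ hψ χ hχ x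
    rw [← W_cl χ₀.2, ← W_cl χ.2, hχ₀, hχ, W_indFun T _ (hne _) (cl_isClass x),
      W_indFun T _ (hne _) (cl_isClass x)]
    exact W_sub_mem_Iloc (sameBlock_of_mem hB' hψ₀ hψ) (restrict_isClass T (cl_isClass x))
      (fun t => cl_mem_Rloc _ _)
  have hB : IsPBlock M (blockOf M (χ₀ : G → ℂ)) := ⟨χ₀, rfl⟩
  have hχ₀B : χ₀ ∈ blockOf M (χ₀ : G → ℂ) := sameBlock_refl (M := M) _
  have hcovB : Covers N (blockOf M (χ₀ : G → ℂ)) b := by
    obtain ⟨θ, hθ⟩ := exists_constituent_restrict N χ₀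
    have h1 := W_fo N b hθ
    rw [hχ₀, W_indFun T _ (hne _) (fo_isClass N b)] at h1
    have h2 : W (ψ₀ : T → ℂ) (fun t : T => fo N b t) ≠ 0 := by
      apply (W_uT_ne_zero_iff N T hNT ψ₀ (orb N b)).mpr
      obtain ⟨θ', hθ', hc'⟩ := hov₀
      exact ⟨θ', mem_orb_self N hθ', hc'⟩
    rw [h1] at h2
    have h3 : θ ∈ orb N b := by
      by_contra hc
      rw [if_neg hc] at h2
      exact h2 rfl
    obtain ⟨θ1, hθ1, hc1⟩ := over_of_orb N χ₀ h3 hθ
    exact ⟨χ₀, hχ₀B, θ1, hθ1, hc1⟩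
  refine ⟨blockOf M (χ₀ : G → ℂ), ⟨hB', hB, ?_⟩, hcovB, hirr, ?_⟩
  · intro ξ hξ χ hχ g
    obtain ⟨χ1, hχ1⟩ : ∃ χ1 : IrrCharacter G, (χ1 : G → ℂ) = indFun T (ξ : T → ℂ) :=
      ⟨⟨_, hirr ξ hξ⟩, rfl⟩
    rw [inducedCentralChar_eq_W, ← W_indFun T _ (hne _) (cl_isClass g), ← hχ1, W_cl χ1.2]
    exact sameBlock_of_mem hB (hmem ξ hξ χ1 hχ1) hχ g
  · intro χ
    constructor
    · intro hχ
      obtain ⟨χ', hχ', θ', hθ', hc'⟩ := hcovB
      obtain ⟨θ, hθ⟩ := exists_constituent_restrict N χ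
      have h1 := mem_orb_of_sameBlock N hb (sameBlock_of_mem hB hχ' hχ) hθ' hc' hθ
      obtain ⟨θ1, hθ1, hc1⟩ := over_of_orb N χ h1 hθ
      obtain ⟨ψ, hov, hψ⟩ := exists_ind N T hNT hb hT χ hθ1 hc1
      refine ⟨ψ, ?_, hψ⟩
      by_contra hc
      have hsupp := blockCoeff_supp N T hNT hb hT hB' ⟨ψ₀, hψ₀, hov₀⟩
      have hA1 := indFun_isClassFunction T (blockCoeff B')
      have hA2 := indFun_mem_Rloc (M := M) T (blockCoeff_isClass B')
        (fun t => blockCoeff_mem_Rloc B' (block_closed hB') t)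
      have h2 := W_sub_mem_Iloc (sameBlock_of_mem hB hχ hχ₀B) hA1 hA2
      rw [hψ, hχ₀, W_indFun T _ (hne _) hA1, W_indFun T _ (hne _) hA1,
        W_ind_restrict N T hNT hb hT (blockCoeff_isClass B') hsupp ψ hov,
        W_ind_restrict N T hNT hb hT (blockCoeff_isClass B') hsupp ψ₀ hov₀,
        W_blockCoeff, W_blockCoeff, if_neg hc, if_pos hψ₀, zero_sub] at h2
      apply one_notMem_Iloc (M := M)
      have := Submodule.neg_mem (Iloc M) h2
      rwa [neg_neg] at this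
    · rintro ⟨ψ, hψ, hχ⟩
      exact hmem ψ hψ χ hχ

theorem fr_b {M : Ideal AlgInt} [M.IsPrime] {b : Set (IrrCharacter N)}
    (hb : IsPBlock M b) (hT : ∀ g : G, g ∈ T ↔ ∀ θ ∈ b, cj N θ g ∈ b)
    {B'₁ B'₂ : Set (IrrCharacter T)} (hB'₁ : IsPBlock M B'₁) (hB'₂ : IsPBlock M B'₂)
    (hcov₁ : ∃ ψ ∈ B'₁, Over N T hNT (ψ : T → ℂ) b)
    (hcov₂ : ∃ ψ ∈ B'₂, Over N T hNT (ψ : T → ℂ) b) {B : Set (IrrCharacter G)}
    (h₁ : IsInducedBlock M T B'₁ B) (h₂ : IsInducedBlock M T B'₂ B) : B'₁ = B'₂ := by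
  classical
  obtain ⟨ψ₁, hψ₁, hov₁⟩ := hcov₁
  obtain ⟨ψ₂, hψ₂, hov₂⟩ := hcov₂
  obtain ⟨χ, hχ⟩ := block_nonempty h₁.2.1
  have hsupp := blockCoeff_supp N T hNT hb hT hB'₁ ⟨ψ₁, hψ₁, hov₁⟩
  have hA1 := indFun_isClassFunction T (blockCoeff B'₁)
  have hA2 := indFun_mem_Rloc (M := M) T (blockCoeff_isClass B'₁)
    (fun t => blockCoeff_mem_Rloc B'₁ (block_closed hB'₁) t)
  have e1 := induced_W h₁ hψ₁ hχ hA1 hA2
  have e2 := induced_W h₂ hψ₂ hχ hA1 hA2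
  rw [W_ind_restrict N T hNT hb hT (blockCoeff_isClass B'₁) hsupp ψ₁ hov₁, W_blockCoeff,
    if_pos hψ₁] at e1
  rw [W_ind_restrict N T hNT hb hT (blockCoeff_isClass B'₁) hsupp ψ₂ hov₂, W_blockCoeff] at e2
  by_cases hm : ψ₂ ∈ B'₁
  · exact block_eq_of_mem hB'₁ hB'₂ hm hψ₂
  · exfalso
    rw [if_neg hm] at e2
    apply one_notMem_Iloc (M := M)
    have := Submodule.sub_mem (Iloc M) e1 e2
    simpa using this

theorem fr_c {M : Ideal AlgInt} [M.IsPrime] {b : Set (IrrCharacter N)}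
    (hb : IsPBlock M b) (hT : ∀ g : G, g ∈ T ↔ ∀ θ ∈ b, cj N θ g ∈ b)
    {B : Set (IrrCharacter G)} (hB : IsPBlock M B) (hcov : Covers N B b) :
    ∃ B' : Set (IrrCharacter T), IsPBlock M B' ∧ (∃ ψ ∈ B', Over N T hNT (ψ : T → ℂ) b) ∧
      IsInducedBlock M T B' B := by
  obtain ⟨χ, hχ, θ, hθ, hcon⟩ := hcov
  obtain ⟨ψ, hov, hψ⟩ := exists_ind N T hNT hb hT χ hθ hcon
  have hψB : ψ ∈ blockOf M (ψ : T → ℂ) := sameBlock_refl (M := M) _
  obtain ⟨B₁, hind, -, -, hiff⟩ := fr_a N T hNT hb hT (B' := blockOf M (ψ : T → ℂ)) ⟨ψ, rfl⟩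
    ⟨ψ, hψB, hov⟩
  have h1 : χ ∈ B₁ := (hiff χ).mpr ⟨ψ, hψB, hψ⟩
  have h2 : B₁ = B := block_eq_of_mem hind.2.1 hB h1 hχ
  exact ⟨_, ⟨ψ, rfl⟩, ⟨ψ, hψB, hov⟩, h2 ▸ hind⟩

end Cfsg.Agent.Lib.Helper2.BlockFR
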