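import Mathlib
import Cfsg.Prelude.Def_Blocks
import Cfsg.Agent.Lib.Helper2.BlockFong
import Cfsg.Agent.Lib.Helper2.BlockN
import Cfsg.Agent.Lib.Helper2.BlockMisc
import Cfsg.Agent.Lib.Helper2.BlockAvg
import Cfsg.Agent.Lib.Helper2.BlockCong
import Cfsg.Agent.Lib.Helper2.BlockSM7
import Cfsg.Agent.Lib.Helper2.BlockSM3
import Cfsg.Agent.Lib.Helper2.BlockPr
import Cfsg.Agent.Lib.Helper2.BlockSM5
import Cfsg.Agent.S0906

set_option autoImplicit false
set_option linter.unusedSectionVars false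
set_option linter.unusedVariables false
set_option linter.style.haveILetI false

/-! Miscellaneous consequences of the block library. -/

namespace Cfsg.Agent.Lib.Helper2.BlockInd

open Cfsg Cfsg.Agent.Lib.Helper7.CharIrr Cfsg.Agent.Lib.Helper7.CharOrth
  Cfsg.Agent.Lib.Helper7.CharIntegral Cfsg.Agent.Lib.Helper7.CharMore
  Cfsg.Agent.Lib.Helper7.CharClassAlg Cfsg.Agent.Lib.Helper7.CharComplete
  Cfsg.Agent.Lib.Helper7.CharDeg Cfsg.Agent.Lib.Helper7.CharGalois
  Cfsg.Agent.Lib.Helper7.CharClassAlg2 Cfsg.Agent.Lib.Helper7.CharBurnside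
  Cfsg.Agent.Lib.Helper7.CharNormal Cfsg.Agent.Lib.Helper7.CharClifford
  Cfsg.Agent.Lib.Helper7.CharInd Cfsg.Agent.Lib.Helper7.CharMisc
  Cfsg.Agent.Lib.Helper2.LocRing
  Cfsg.Agent.Lib.Helper2.BlockZ Cfsg.Agent.Lib.Helper2.BlockDef Cfsg.Agent.Lib.Helper2.BlockOrth
  Cfsg.Agent.Lib.Helper2.BlockSM4 Cfsg.Agent.Lib.Helper2.BlockSub Cfsg.Agent.Lib.Helper2.BlockBr2
  Cfsg.Agent.Lib.Helper2.BlockCov Cfsg.Agent.Lib.Helper2.BlockKer
  Cfsg.Agent.Lib.Helper2.BlockCov2 Cfsg.Agent.Lib.Helper2.BlockLam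
  Cfsg.Agent.Lib.Helper2.BlockFMT Cfsg.Agent.Lib.Helper2.BlockGr3
  Cfsg.Agent.Lib.Helper2.BlockFong Cfsg.Agent.Lib.Helper2.BlockN
  Cfsg.Agent.Lib.Helper2.BlockMisc Cfsg.Agent.Lib.Helper2.BlockAvg Cfsg.Agent.Lib.Helper2.BlockCong
  Cfsg.Agent.Lib.Helper2.BlockSM7 Cfsg.Agent.Lib.Helper2.BlockSM3 Cfsg.Agent.Lib.Helper2.BlockPr
  Cfsg.Agent.Lib.Helper2.BlockSM5
open scoped ComplexConjugate

variable {G : Type*} [Group G] [Fintype G]

theorem val_eq_of_unit {M : Ideal AlgInt} {p : ℕ} (hM : IsPModular p M) {n d : ℕ} (hd : d ≠ 0)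
    {r : ℂ} (hr : (n : ℂ) = d * r) (h1 : MemLocalRing M r) (h2 : ¬ MemLocalIdeal M r) :
    n ≠ 0 ∧ n.factorization p = d.factorization p := by
  haveI := hM.2.1.isPrime
  have hd' : (d : ℂ) ≠ 0 := by exact_mod_cast hd
  have hr0 : r ≠ 0 := ne_zero_of_notMem_Iloc (M := M) h2
  have hn : n ≠ 0 := by
    rintro rfl
    simp only [Nat.cast_zero] at hr
    exact (mul_ne_zero hd' hr0) hr.symm
  have hn' : (n : ℂ) ≠ 0 := by exact_mod_cast hn
  refine ⟨hn, ?_⟩
  rcases lt_trichotomy (n.factorization p) (d.factorization p) with h | h | h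
  · exfalso
    apply one_notMem_Iloc (M := M)
    have := mul_mem_Iloc' (div_mem_Iloc hM hd hn h) (show r ∈ Rloc M from h1)
    rwa [hr, div_mul_eq_mul_div, mul_comm, div_self (mul_ne_zero hr0 hd')] at this
  · exact h
  · exfalso
    apply h2
    have := div_mem_Iloc hM hn hd h
    rwa [hr, mul_div_cancel_left₀ _ hd'] at this

theorem val_lt_of_mem {M : Ideal AlgInt} {p : ℕ} (hM : IsPModular p M) {n d : ℕ} (hd : d ≠ 0)
    {r : ℂ} (hr : (n : ℂ) = d * r) (h : MemLocalIdeal M r) :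
    n = 0 ∨ d.factorization p < n.factorization p := by
  haveI := hM.2.1.isPrime
  have hd' : (d : ℂ) ≠ 0 := by exact_mod_cast hd
  by_cases hn : n = 0
  · exact Or.inl hn
  right
  by_contra hc
  push Not at hc
  have hn' : (n : ℂ) ≠ 0 := by exact_mod_cast hn
  have hr0 : r ≠ 0 := by
    rintro rfl
    rw [mul_zero] at hr
    exact hn' hr
  apply one_notMem_Iloc (M := M)
  have := mul_mem_Iloc (div_mem_Rloc hM hd hn hc) (show r ∈ Iloc M from h)
  rwa [hr, div_mul_eq_mul_div, mul_comm, div_self (mul_ne_zero hr0 hd')] at this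

theorem blockPart_eq_filter [Fintype (IrrCharacter G)] (B : Set (IrrCharacter G))
    [DecidablePred (· ∈ B)] {ϑ : G → ℂ} (hϑ : IsClassFunction G ϑ) (g : G) :
    blockPart B ϑ g =
      ∑ χ ∈ Finset.univ.filter (fun χ => χ ∈ B), classInner ϑ χ * (χ : G → ℂ) g := by
  rw [blockPart_eq_sum B hϑ, sum_blockCoeff_mul B hϑ]

theorem blockPart_ind_one (H : Subgroup G) [Fintype H] (ξ : IrrCharacter H)
    (B : Set (IrrCharacter G)) :
    blockPart B (indFun H (ξ : H → ℂ)) 1 =
      indFun H (ξ : H → ℂ) 1 * W (ξ : H → ℂ) (fun h : H => blockCoeff B h) := by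
  have hcl : IsClassFunction G (fun g => conj (blockCoeff B g)) := by
    intro g h
    simp only
    rw [blockCoeff_isClass B g h]
  have h1 := frobenius_reciprocity H (ξ : H → ℂ) (fun g => conj (blockCoeff B g)) hcl
  simp only [classInner, Complex.conj_conj] at h1
  rw [blockPart_eq_sum B (indFun_isClassFunction H _), indFun_one, W]
  simp only [mul_one]
  have hG : (Nat.card G : ℂ) ≠ 0 := by exact_mod_cast (Nat.card_pos (α := G)).ne'
  have hH : (Nat.card H : ℂ) ≠ 0 := by exact_mod_cast (Nat.card_pos (α := H)).ne'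
  have hξ := Cfsg.Agent.Lib.Helper2.BlockKer.irr_one_ne_zero ξ.2
  have e1 : (Nat.card G : ℂ) = (H.index : ℂ) * (Nat.card H : ℂ) := by
    rw [← Subgroup.index_mul_card H]
    push_cast
    rfl
  have h2 : ∑ k, blockCoeff B k * indFun H (ξ : H → ℂ) k =
      (Nat.card G : ℂ) * ((Nat.card G : ℂ)⁻¹ * ∑ g, indFun H (ξ : H → ℂ) g * blockCoeff B g) := by
    rw [← mul_assoc, mul_inv_cancel₀ hG, one_mul]
    apply Finset.sum_congr rfl
    intro k _
    ring
  rw [h2, h1, e1]
  have h3 : ∑ g : H, (ξ : H → ℂ) g * blockCoeff B g = ∑ g : H, blockCoeff B g * (ξ : H → ℂ) g := by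
    apply Finset.sum_congr rfl
    intro k _
    ring
  rw [h3]
  field_simp

theorem ind_blockPart {M : Ideal AlgInt} {p : ℕ} [Fact p.Prime] (hM : IsPModular p M)
    (H : Subgroup G) [Fintype H] {b : Set (IrrCharacter H)} {B₀ : Set (IrrCharacter G)}
    (hind : IsInducedBlock M H b B₀) (ξ : IrrCharacter H) (hξ : ξ ∈ b) :
    (∃ n : ℕ, blockPart B₀ (indFun H (ξ : H → ℂ)) 1 = (n : ℂ) ∧ n ≠ 0 ∧
      n.factorization p = (charDegree (indFun H (ξ : H → ℂ))).factorization p) ∧
    ∀ B : Set (IrrCharacter G), IsPBlock M B → B ≠ B₀ →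
      ∃ n : ℕ, blockPart B (indFun H (ξ : H → ℂ)) 1 = (n : ℂ) ∧
        (n = 0 ∨ (charDegree (indFun H (ξ : H → ℂ))).factorization p < n.factorization p) := by
  classical
  haveI := hM.2.1.isPrime
  haveI := Fintype.ofFinite (IrrCharacter G)
  have hchar := isCharacter_indFun H (ξ : H → ℂ) (IsIrrCharacter.isCharacter ξ.2)
  obtain ⟨m, hm, -⟩ := exists_mult hchar
  have hnat : ∀ B : Set (IrrCharacter G), blockPart B (indFun H (ξ : H → ℂ)) 1 =
      ((∑ χ ∈ Finset.univ.filter (fun χ => χ ∈ B), m χ * charDegree (χ : G → ℂ) : ℕ) : ℂ) := by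
    intro B
    rw [blockPart_eq_filter B (indFun_isClassFunction H _)]
    push_cast
    apply Finset.sum_congr rfl
    intro χ _
    rw [hm, charDegree_cast (IsIrrCharacter.isCharacter χ.2)]
  have hd : charDegree (indFun H (ξ : H → ℂ)) ≠ 0 := by
    intro h0
    have h1 := charDegree_cast hchar
    rw [h0, indFun_one] at h1
    have h2 : (H.index : ℂ) ≠ 0 := by exact_mod_cast (Subgroup.index_ne_zero_of_finite (H := H))
    exact mul_ne_zero h2 (Cfsg.Agent.Lib.Helper2.BlockKer.irr_one_ne_zero ξ.2) (by simpa using h1.symm)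
  obtain ⟨χ0, hχ0⟩ := block_nonempty hind.2.1
  have hW : ∀ B : Set (IrrCharacter G), IsPBlock M B →
      W (ξ : H → ℂ) (fun h : H => blockCoeff B h) - W (χ0 : G → ℂ) (blockCoeff B) ∈ Iloc M :=
    fun B hB => induced_W hind hξ hχ0 (blockCoeff_isClass B)
      (fun g => blockCoeff_mem_Rloc B (block_closed hB) g)
  have hWR : ∀ B : Set (IrrCharacter G), IsPBlock M B →
      W (ξ : H → ℂ) (fun h : H => blockCoeff B h) ∈ Rloc M :=
    fun B hB => W_mem_Rloc ξ (restrict_isClass H (blockCoeff_isClass B))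
      (fun g => blockCoeff_mem_Rloc B (block_closed hB) g)
  have hrel : ∀ B : Set (IrrCharacter G),
      ((∑ χ ∈ Finset.univ.filter (fun χ => χ ∈ B), m χ * charDegree (χ : G → ℂ) : ℕ) : ℂ) =
      (charDegree (indFun H (ξ : H → ℂ)) : ℂ) * W (ξ : H → ℂ) (fun h : H => blockCoeff B h) := by
    intro B
    rw [← hnat, blockPart_ind_one, charDegree_cast hchar]
  constructor
  · have h1 := hW B₀ hind.2.1
    rw [W_blockCoeff, if_pos hχ0] at h1
    have h2 : W (ξ : H → ℂ) (fun h : H => blockCoeff B₀ h) ∉ Iloc M := by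
      intro hc
      apply one_notMem_Iloc (M := M)
      have := Submodule.sub_mem (Iloc M) hc h1
      rwa [sub_sub_cancel] at this
    obtain ⟨h3, h4⟩ := val_eq_of_unit hM hd (hrel B₀) (hWR B₀ hind.2.1) h2
    exact ⟨_, hnat B₀, h3, h4⟩
  · intro B hB hne
    have h1 := hW B hB
    rw [W_blockCoeff, if_neg (fun h => hne (block_eq_of_mem hB hind.2.1 h hχ0)), sub_zero] at h1
    exact ⟨_, hnat B, val_lt_of_mem hM hd (hrel B) h1⟩

theorem defect_add_sInf {M : Ideal AlgInt} {p : ℕ} [Fact p.Prime] (hM : IsPModular p M)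
    {B : Set (IrrCharacter G)} (hB : IsPBlock M B) :
    blockDefect p B +
      sInf ((fun χ : IrrCharacter G => (charDegree (χ : G → ℂ)).factorization p) '' B) =
      (Nat.card G).factorization p := by
  obtain ⟨g, hg⟩ := Cfsg.Agent.S0906.result p M hM B hB
  rw [blockDefect_eq hM hB g hg, sInf_eq hM hB g hg,
    ← Subgroup.index_mul_card (Subgroup.centralizer ({g} : Set G)),
    Nat.factorization_mul Subgroup.index_ne_zero_of_finite Nat.card_pos.ne']
  simp only [Finsupp.add_apply]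
  omega

theorem ind_height_zero {M : Ideal AlgInt} {p : ℕ} [Fact p.Prime] (hM : IsPModular p M)
    (H : Subgroup G) [Fintype H] {b : Set (IrrCharacter H)} {B : Set (IrrCharacter G)}
    (hind : IsInducedBlock M H b B) (hdef : blockDefect p b = blockDefect p B)
    (ζ : IrrCharacter H) (hζ : ζ ∈ b) (hζ0 : blockHeight p b (ζ : H → ℂ) = 0) :
    ∃ χ ∈ B, blockHeight p B (χ : G → ℂ) = 0 ∧ ∃ a : ℕ,
      classInner (indFun H (ζ : H → ℂ)) (χ : G → ℂ) = (a : ℂ) ∧ ¬ p ∣ a := by
  classical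
  haveI := hM.2.1.isPrime
  haveI := Fintype.ofFinite (IrrCharacter G)
  have hp : p.Prime := hM.1
  have hchar := isCharacter_indFun H (ζ : H → ℂ) (IsIrrCharacter.isCharacter ζ.2)
  obtain ⟨m, hm, -⟩ := exists_mult hchar
  obtain ⟨⟨n, hn1, hn2, hn3⟩, -⟩ := ind_blockPart hM H hind ζ hζ
  have hn : n = ∑ χ ∈ Finset.univ.filter (fun χ => χ ∈ B), m χ * charDegree (χ : G → ℂ) := by
    have : (n : ℂ) =
        ((∑ χ ∈ Finset.univ.filter (fun χ => χ ∈ B), m χ * charDegree (χ : G → ℂ) : ℕ) : ℂ) := by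
      rw [← hn1, blockPart_eq_filter B (indFun_isClassFunction H _)]
      push_cast
      apply Finset.sum_congr rfl
      intro χ _
      rw [hm, charDegree_cast (IsIrrCharacter.isCharacter χ.2)]
    exact_mod_cast this
  have hdeg : charDegree (indFun H (ζ : H → ℂ)) = H.index * charDegree (ζ : H → ℂ) := by
    have : (charDegree (indFun H (ζ : H → ℂ)) : ℂ) = ((H.index * charDegree (ζ : H → ℂ) : ℕ) : ℂ) := by
      rw [charDegree_cast hchar, indFun_one]
      push_cast
      rw [charDegree_cast (IsIrrCharacter.isCharacter ζ.2)]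
    exact_mod_cast this
  have e1 := defect_add_sInf hM hind.2.1
  have e2 := defect_add_sInf hM hind.1
  have e3 : sInf ((fun χ : IrrCharacter H => (charDegree (χ : H → ℂ)).factorization p) '' b) ≤
      (charDegree (ζ : H → ℂ)).factorization p := Nat.sInf_le (Set.mem_image_of_mem _ hζ)
  unfold blockHeight at hζ0
  have e4 := congrArg (fun n => n.factorization p) (Subgroup.index_mul_card H)
  rw [Nat.factorization_mul Subgroup.index_ne_zero_of_finite Nat.card_pos.ne'] at e4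
  simp only [Finsupp.add_apply] at e4
  rw [hdeg, Nat.factorization_mul Subgroup.index_ne_zero_of_finite (charDegree_pos ζ.2).ne'] at hn3
  simp only [Finsupp.add_apply] at hn3
  obtain ⟨s, hs⟩ : ∃ s, s =
    sInf ((fun χ : IrrCharacter G => (charDegree (χ : G → ℂ)).factorization p) '' B) := ⟨_, rfl⟩
  rw [← hs] at e1
  have hns : n.factorization p = s := by omega
  by_contra hc
  push Not at hc
  have hdvd : p ^ (s + 1) ∣ n := by
    rw [hn]
    apply Finset.dvd_sum
    intro χ hχ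
    have hχB := (Finset.mem_filter.mp hχ).2
    have h1 : s ≤ (charDegree (χ : G → ℂ)).factorization p := by
      rw [hs]
      exact Nat.sInf_le (Set.mem_image_of_mem _ hχB)
    by_cases h0 : blockHeight p B (χ : G → ℂ) = 0
    · have h2 := hc χ hχB h0 (m χ) (hm χ)
      rw [pow_succ, mul_comm]
      exact Nat.mul_dvd_mul h2
        ((hp.pow_dvd_iff_le_factorization (charDegree_pos χ.2).ne').mpr h1)
    · apply Dvd.dvd.mul_left
      apply (hp.pow_dvd_iff_le_factorization (charDegree_pos χ.2).ne').mpr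
      unfold blockHeight at h0
      rw [← hs] at h0
      omega
  have := (hp.pow_dvd_iff_le_factorization hn2).mp hdvd
  omega

end Cfsg.Agent.Lib.Helper2.BlockInd
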