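import Mathlib
import Cfsg.Prelude.Def_Blocks
import Cfsg.Agent.Lib.Helper2.BlockFong
import Cfsg.Agent.Lib.Helper2.BlockN
import Cfsg.Agent.Lib.Helper2.BlockMisc
import Cfsg.Agent.Lib.Helper2.BlockAvg
import Cfsg.Agent.Lib.Helper2.BlockCong
import Cfsg.Agent.Lib.Helper2.BlockSM7
import Cfsg.Agent.Lib.Helper2.BlockSM3
import Cfsg.Agent.Lib.Helper2.BlockPr
import Cfsg.Agent.Lib.Helper2.BlockSM5
import Cfsg.Agent.S0906
import Cfsg.Agent.Lib.Helper2.BlockInd
import Cfsg.Agent.Lib.Helper2.BlockReg3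
import Cfsg.Agent.Lib.Helper2.BlockBr
import Cfsg.Agent.S0917
import Cfsg.Agent.Lib.Helper2.BlockFR

set_option autoImplicit false
set_option linter.unusedSectionVars false
set_option linter.unusedVariables false
set_option linter.style.haveILetI false

/-! Miscellaneous consequences of the block library. -/

namespace Cfsg.Agent.Lib.Helper2.BlockFR2

open Cfsg Cfsg.Agent.Lib.Helper7.CharIrr Cfsg.Agent.Lib.Helper7.CharOrth
  Cfsg.Agent.Lib.Helper7.CharIntegral Cfsg.Agent.Lib.Helper7.CharMore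
  Cfsg.Agent.Lib.Helper7.CharClassAlg Cfsg.Agent.Lib.Helper7.CharComplete
  Cfsg.Agent.Lib.Helper7.CharDeg Cfsg.Agent.Lib.Helper7.CharGalois
  Cfsg.Agent.Lib.Helper7.CharClassAlg2 Cfsg.Agent.Lib.Helper7.CharBurnside
  Cfsg.Agent.Lib.Helper7.CharNormal Cfsg.Agent.Lib.Helper7.CharClifford
  Cfsg.Agent.Lib.Helper7.CharInd Cfsg.Agent.Lib.Helper7.CharMisc
  Cfsg.Agent.Lib.Helper2.LocRing
  Cfsg.Agent.Lib.Helper2.BlockZ Cfsg.Agent.Lib.Helper2.BlockDef Cfsg.Agent.Lib.Helper2.BlockOrth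
  Cfsg.Agent.Lib.Helper2.BlockSM4 Cfsg.Agent.Lib.Helper2.BlockSub Cfsg.Agent.Lib.Helper2.BlockBr2
  Cfsg.Agent.Lib.Helper2.BlockCov Cfsg.Agent.Lib.Helper2.BlockKer
  Cfsg.Agent.Lib.Helper2.BlockCov2 Cfsg.Agent.Lib.Helper2.BlockLam
  Cfsg.Agent.Lib.Helper2.BlockFMT Cfsg.Agent.Lib.Helper2.BlockGr3
  Cfsg.Agent.Lib.Helper2.BlockFong Cfsg.Agent.Lib.Helper2.BlockN
  Cfsg.Agent.Lib.Helper2.BlockMisc Cfsg.Agent.Lib.Helper2.BlockAvg Cfsg.Agent.Lib.Helper2.BlockCong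
  Cfsg.Agent.Lib.Helper2.BlockSM7 Cfsg.Agent.Lib.Helper2.BlockSM3 Cfsg.Agent.Lib.Helper2.BlockPr
  Cfsg.Agent.Lib.Helper2.BlockSM5 Cfsg.Agent.Lib.Helper2.BlockInd Cfsg.Agent.Lib.Helper2.BlockReg
  Cfsg.Agent.Lib.Helper2.BlockReg2 Cfsg.Agent.Lib.Helper2.BlockReg3 Cfsg.Agent.Lib.Helper2.BlockBr
  Cfsg.Agent.Lib.Helper2.BlockFR
open scoped ComplexConjugate

variable {G : Type*} [Group G] [Fintype G] (N : Subgroup G) [hN : N.Normal] [Fintype N]
  (T : Subgroup G) [Fintype T] (hNT : N ≤ T)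

theorem hT_iff {b : Set (IrrCharacter N)}
    (hT : ∀ g : G, g ∈ T ↔ ∀ θ ∈ b, ∀ θ' : IrrCharacter N,
      (∀ n : N, (θ' : N → ℂ) n = (θ : N → ℂ) ⟨g * n * g⁻¹, hN.conj_mem n n.2 g⟩) → θ' ∈ b) :
    ∀ g : G, g ∈ T ↔ ∀ θ ∈ b, cj N θ g ∈ b := by
  intro g
  rw [hT]
  constructor
  · intro h θ hθ
    exact h θ hθ _ (fun n => rfl)
  · intro h θ hθ θ' hθ'
    have : θ' = cj N θ g := Subtype.ext (funext hθ')
    rw [this]
    exact h θ hθ

theorem induced_unique {M : Ideal AlgInt} [M.IsPrime] {H : Subgroup G} [Fintype H] {b : Set (IrrCharacter H)}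
    {B B₁ : Set (IrrCharacter G)} (h : IsInducedBlock M H b B) (h₁ : IsInducedBlock M H b B₁) :
    B = B₁ := by
  obtain ⟨ξ, hξ⟩ := block_nonempty h.1
  obtain ⟨χ, hχ⟩ := block_nonempty h.2.1
  obtain ⟨χ1, hχ1⟩ := block_nonempty h₁.2.1
  have hs : SameBlock M (χ : G → ℂ) (χ1 : G → ℂ) := fun g =>
    sub_mem_Iloc_trans (M := M) (sub_mem_Iloc_symm (M := M) (h.2.2 ξ hξ χ hχ g))
      (h₁.2.2 ξ hξ χ1 hχ1 g)
  have : χ1 ∈ B := by
    by_contra hc
    exact block_closed h.2.1 χ hχ χ1 hc hs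
  exact block_eq_of_mem h.2.1 h₁.2.1 this hχ1

theorem charDegree_indFun (ψ : IrrCharacter T) :
    charDegree (indFun T (ψ : T → ℂ)) = T.index * charDegree (ψ : T → ℂ) := by
  have hchar := isCharacter_indFun T (ψ : T → ℂ) (IsIrrCharacter.isCharacter ψ.2)
  have : (charDegree (indFun T (ψ : T → ℂ)) : ℂ) = ((T.index * charDegree (ψ : T → ℂ) : ℕ) : ℂ) := by
    rw [charDegree_cast hchar, indFun_one]
    push_cast
    rw [charDegree_cast (IsIrrCharacter.isCharacter ψ.2)]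
  exact_mod_cast this

theorem fr_defect {M : Ideal AlgInt} {p : ℕ} [Fact p.Prime] (hM : IsPModular p M)
    {b : Set (IrrCharacter N)} (hb : IsPBlock M b)
    (hT : ∀ g : G, g ∈ T ↔ ∀ θ ∈ b, cj N θ g ∈ b)
    {B' : Set (IrrCharacter T)} (hB' : IsPBlock M B')
    (hcov : ∃ ψ ∈ B', Over N T hNT (ψ : T → ℂ) b) {B : Set (IrrCharacter G)}
    (hind : IsInducedBlock M T B' B) :
    (∀ D : Subgroup T, IsDefectGroup p M B' D → IsDefectGroup p M B (D.map T.subtype)) ∧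
    ∀ ψ ∈ B', ∃ χ ∈ B, (χ : G → ℂ) = indFun T (ψ : T → ℂ) ∧
      blockHeight p B (χ : G → ℂ) = blockHeight p B' (ψ : T → ℂ) := by
  haveI := hM.2.1.isPrime
  obtain ⟨B₁, hind₁, -, hirr, hiff⟩ := fr_a N T hNT hb hT hB' hcov
  have hBB : B = B₁ := induced_unique hind hind₁
  subst hBB
  have hval : ∀ ψ : IrrCharacter T, (charDegree (indFun T (ψ : T → ℂ))).factorization p =
      T.index.factorization p + (charDegree (ψ : T → ℂ)).factorization p := by
    intro ψ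
    rw [charDegree_indFun, Nat.factorization_mul Subgroup.index_ne_zero_of_finite
      (charDegree_pos ψ.2).ne']
    rfl
  obtain ⟨ψ₀, hψ₀⟩ := block_nonempty hB'
  obtain ⟨χ₀, hχ₀⟩ := block_nonempty hind.2.1
  have hsInf : sInf ((fun χ : IrrCharacter G => (charDegree (χ : G → ℂ)).factorization p) '' B) =
      T.index.factorization p +
        sInf ((fun ψ : IrrCharacter T => (charDegree (ψ : T → ℂ)).factorization p) '' B') := by
    apply le_antisymm
    · obtain ⟨ψm, hψm, hm⟩ := Nat.sInf_mem (s := (fun ψ : IrrCharacter T =>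
        (charDegree (ψ : T → ℂ)).factorization p) '' B') ⟨_, Set.mem_image_of_mem _ hψ₀⟩
      rw [← hm]
      simp only
      rw [← hval]
      have hmem : (⟨_, hirr ψm hψm⟩ : IrrCharacter G) ∈ B := (hiff _).mpr ⟨ψm, hψm, rfl⟩
      exact Nat.sInf_le (Set.mem_image_of_mem
        (fun χ : IrrCharacter G => (charDegree (χ : G → ℂ)).factorization p) hmem)
    · apply le_csInf ⟨_, Set.mem_image_of_mem _ hχ₀⟩
      rintro _ ⟨χ, hχ, rfl⟩
      obtain ⟨ψ, hψ, he⟩ := (hiff χ).mp hχ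
      simp only
      rw [he, hval]
      exact Nat.add_le_add_left (Nat.sInf_le (Set.mem_image_of_mem _ hψ)) _
  have e4 := congrArg (fun n => n.factorization p) (Subgroup.index_mul_card T)
  rw [Nat.factorization_mul Subgroup.index_ne_zero_of_finite Nat.card_pos.ne'] at e4
  simp only [Finsupp.add_apply] at e4
  have hdef : blockDefect p B = blockDefect p B' := by
    unfold blockDefect
    rw [hsInf]
    omega
  constructor
  · intro D hD
    obtain ⟨E, hE, hle⟩ := Cfsg.Agent.S0917.result p M hM T B' hB' B hind.2.1 hind D hD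
    have h1 := card_defectGroup hM hind.2.1 hE
    have h2 := card_defectGroup hM hB' hD
    have h3 : Nat.card (D.map T.subtype) = Nat.card D :=
      Nat.card_congr (Subgroup.equivMapOfInjective _ _ (Subgroup.subtype_injective _)).symm.toEquiv
    have h4 : D.map T.subtype = E := by
      apply Subgroup.eq_of_le_of_card_ge hle
      rw [h1, h3, h2, hdef]
    rw [h4]
    exact hE
  · intro ψ hψ
    refine ⟨⟨_, hirr ψ hψ⟩, (hiff _).mpr ⟨ψ, hψ, rfl⟩, rfl, ?_⟩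
    unfold blockHeight
    rw [hsInf]
    simp only
    rw [hval]
    omega

end Cfsg.Agent.Lib.Helper2.BlockFR2
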