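import Mathlib
import Cfsg.Prelude.Def_Blocks
import Cfsg.Agent.Lib.Helper2.BlockFong
import Cfsg.Agent.Lib.Helper2.BlockN
import Cfsg.Agent.Lib.Helper2.BlockMisc
import Cfsg.Agent.Lib.Helper2.BlockAvg
import Cfsg.Agent.Lib.Helper2.BlockCong
import Cfsg.Agent.Lib.Helper2.BlockSM7
import Cfsg.Agent.Lib.Helper2.BlockSM3
import Cfsg.Agent.Lib.Helper2.BlockPr
import Cfsg.Agent.Lib.Helper2.BlockSM5
import Cfsg.Agent.S0906
import Cfsg.Agent.Lib.Helper2.BlockInd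
import Cfsg.Agent.Lib.Helper2.BlockReg3
import Cfsg.Agent.Lib.Helper2.BlockBr
import Cfsg.Agent.S0917
import Cfsg.Agent.Lib.Helper2.BlockFR
import Cfsg.Agent.Lib.Helper2.BlockFR2
import Cfsg.Agent.Lib.Helper2.BlockExt2
import Cfsg.Agent.Lib.Helper7.BInd1

set_option autoImplicit false
set_option linter.unusedSectionVars false
set_option linter.unusedVariables false
set_option linter.style.haveILetI false

/-! Miscellaneous consequences of the block library. -/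

namespace Cfsg.Agent.Lib.Helper2.BlockFR3

open Cfsg Cfsg.Agent.Lib.Helper7.CharIrr Cfsg.Agent.Lib.Helper7.CharOrth
  Cfsg.Agent.Lib.Helper7.CharIntegral Cfsg.Agent.Lib.Helper7.CharMore
  Cfsg.Agent.Lib.Helper7.CharClassAlg Cfsg.Agent.Lib.Helper7.CharComplete
  Cfsg.Agent.Lib.Helper7.CharDeg Cfsg.Agent.Lib.Helper7.CharGalois
  Cfsg.Agent.Lib.Helper7.CharClassAlg2 Cfsg.Agent.Lib.Helper7.CharBurnside
  Cfsg.Agent.Lib.Helper7.CharNormal Cfsg.Agent.Lib.Helper7.CharClifford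
  Cfsg.Agent.Lib.Helper7.CharInd Cfsg.Agent.Lib.Helper7.CharMisc
  Cfsg.Agent.Lib.Helper2.LocRing
  Cfsg.Agent.Lib.Helper2.BlockZ Cfsg.Agent.Lib.Helper2.BlockDef Cfsg.Agent.Lib.Helper2.BlockOrth
  Cfsg.Agent.Lib.Helper2.BlockSM4 Cfsg.Agent.Lib.Helper2.BlockSub Cfsg.Agent.Lib.Helper2.BlockBr2
  Cfsg.Agent.Lib.Helper2.BlockCov Cfsg.Agent.Lib.Helper2.BlockKer
  Cfsg.Agent.Lib.Helper2.BlockCov2 Cfsg.Agent.Lib.Helper2.BlockLam
  Cfsg.Agent.Lib.Helper2.BlockFMT Cfsg.Agent.Lib.Helper2.BlockGr3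
  Cfsg.Agent.Lib.Helper2.BlockFong Cfsg.Agent.Lib.Helper2.BlockN
  Cfsg.Agent.Lib.Helper2.BlockMisc Cfsg.Agent.Lib.Helper2.BlockAvg Cfsg.Agent.Lib.Helper2.BlockCong
  Cfsg.Agent.Lib.Helper2.BlockSM7 Cfsg.Agent.Lib.Helper2.BlockSM3 Cfsg.Agent.Lib.Helper2.BlockPr
  Cfsg.Agent.Lib.Helper2.BlockSM5 Cfsg.Agent.Lib.Helper2.BlockInd Cfsg.Agent.Lib.Helper2.BlockReg
  Cfsg.Agent.Lib.Helper2.BlockReg2 Cfsg.Agent.Lib.Helper2.BlockReg3 Cfsg.Agent.Lib.Helper2.BlockBr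
  Cfsg.Agent.Lib.Helper2.BlockFR Cfsg.Agent.Lib.Helper2.BlockFR2 Cfsg.Agent.Lib.Helper2.BlockExt
open scoped ComplexConjugate

variable {G : Type*} [Group G] [Fintype G] (N : Subgroup G) [hN : N.Normal] [Fintype N]
  (T : Subgroup G) [Fintype T] (hNT : N ≤ T)

open Cfsg.Agent.Lib.Helper7.BInd1 (trSet tr_mem_trSet trSet_isPBlock blockDefect_trSet)

theorem defect_le_of_covers {M : Ideal AlgInt} {p : ℕ} (hM : IsPModular p M)
    {b : Set (IrrCharacter N)} (hb : IsPBlock M b)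
    (hinv : ∀ g : G, ∀ θ ∈ b, cj N θ g ∈ b) {B : Set (IrrCharacter G)} (hB : IsPBlock M B)
    (hcov : Covers N B b) :
    blockDefect p B ≤ blockDefect p b + N.index.factorization p := by
  obtain ⟨x, -, hx, hcard⟩ := exists_good N hM hb hinv hB hcov
  rw [← hcard]
  exact defect_le_of_centralChar hM hB _ hx

theorem cj_tr [Fintype (N.subgroupOf T)] (θ : IrrCharacter N) (g : T) :
    cj (N.subgroupOf T) (tr (Subgroup.subgroupOfEquivOfLe hNT) θ) g =
      tr (Subgroup.subgroupOfEquivOfLe hNT) (cj N θ (g : G)) := by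
  apply Subtype.ext
  funext n
  rw [cj_apply, tr_apply, tr_apply, cj_apply]
  apply congrArg
  apply Subtype.ext
  simp

theorem hinv_tr [Fintype (N.subgroupOf T)] {b : Set (IrrCharacter N)}
    (hT : ∀ g : G, g ∈ T ↔ ∀ θ ∈ b, cj N θ g ∈ b) :
    ∀ g : T, ∀ θ' ∈ trSet (Subgroup.subgroupOfEquivOfLe hNT) b,
      cj (N.subgroupOf T) θ' g ∈ trSet (Subgroup.subgroupOfEquivOfLe hNT) b := by
  intro g θ' hθ'
  have h1 : θ' = tr (Subgroup.subgroupOfEquivOfLe hNT)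
      (tr (Subgroup.subgroupOfEquivOfLe hNT).symm θ') := (tr_tr_symm _ θ').symm
  rw [h1, cj_tr]
  exact tr_mem_trSet _ ((hT g).mp g.2 _ hθ')

theorem classInner_tr [Fintype (N.subgroupOf T)] (ψ : T → ℂ) (θ : IrrCharacter N) :
    classInner (fun n : N.subgroupOf T => ψ n)
      (tr (Subgroup.subgroupOfEquivOfLe hNT) θ : N.subgroupOf T → ℂ) =
      classInner (fun n : N => ψ ⟨(n : G), hNT n.2⟩) (θ : N → ℂ) := by
  rw [← classInner_comp_equiv (Subgroup.subgroupOfEquivOfLe hNT)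
    (fun n : N => ψ ⟨(n : G), hNT n.2⟩) (θ : N → ℂ)]
  rfl

theorem covers_tr_iff [Fintype (N.subgroupOf T)] {b : Set (IrrCharacter N)}
    {B' : Set (IrrCharacter T)} :
    Covers (N.subgroupOf T) B' (trSet (Subgroup.subgroupOfEquivOfLe hNT) b) ↔
      ∃ ψ ∈ B', Over N T hNT (ψ : T → ℂ) b := by
  constructor
  · rintro ⟨ψ, hψ, θ', hθ', hcon⟩
    refine ⟨ψ, hψ, tr (Subgroup.subgroupOfEquivOfLe hNT).symm θ', hθ', ?_⟩
    rw [← classInner_tr N T hNT, tr_tr_symm]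
    exact hcon
  · rintro ⟨ψ, hψ, θ, hθ, hcon⟩
    refine ⟨ψ, hψ, tr (Subgroup.subgroupOfEquivOfLe hNT) θ, tr_mem_trSet _ hθ, ?_⟩
    rw [classInner_tr N T hNT]
    exact hcon

theorem T_defect_le {M : Ideal AlgInt} {p : ℕ} (hM : IsPModular p M)
    {b : Set (IrrCharacter N)} (hb : IsPBlock M b)
    (hT : ∀ g : G, g ∈ T ↔ ∀ θ ∈ b, cj N θ g ∈ b)
    {B' : Set (IrrCharacter T)} (hB' : IsPBlock M B')
    (hcov : ∃ ψ ∈ B', Over N T hNT (ψ : T → ℂ) b) :
    blockDefect p B' ≤ blockDefect p b + (N.relIndex T).factorization p := by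
  haveI := hM.2.1.isPrime
  haveI := Fintype.ofFinite (N.subgroupOf T)
  have := defect_le_of_covers (N.subgroupOf T) hM
    (trSet_isPBlock (Subgroup.subgroupOfEquivOfLe hNT) hb) (hinv_tr N T hNT hT) hB'
    ((covers_tr_iff N T hNT).mpr hcov)
  rwa [blockDefect_trSet] at this

theorem T_exists_large {M : Ideal AlgInt} {p : ℕ} (hM : IsPModular p M)
    {b : Set (IrrCharacter N)} (hb : IsPBlock M b)
    (hT : ∀ g : G, g ∈ T ↔ ∀ θ ∈ b, cj N θ g ∈ b) :
    ∃ B' : Set (IrrCharacter T), IsPBlock M B' ∧ (∃ ψ ∈ B', Over N T hNT (ψ : T → ℂ) b) ∧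
      blockDefect p b + (N.relIndex T).factorization p ≤ blockDefect p B' := by
  haveI := hM.2.1.isPrime
  haveI := Fintype.ofFinite (N.subgroupOf T)
  obtain ⟨B', hB', hcov, hle⟩ := exists_large (N.subgroupOf T) hM
    (trSet_isPBlock (Subgroup.subgroupOfEquivOfLe hNT) hb) (hinv_tr N T hNT hT)
  rw [blockDefect_trSet] at hle
  exact ⟨B', hB', (covers_tr_iff N T hNT).mp hcov, hle⟩

theorem defect_eq_of_fr {M : Ideal AlgInt} {p : ℕ} [Fact p.Prime] (hM : IsPModular p M)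
    {b : Set (IrrCharacter N)} (hb : IsPBlock M b)
    (hT : ∀ g : G, g ∈ T ↔ ∀ θ ∈ b, cj N θ g ∈ b)
    {B' : Set (IrrCharacter T)} (hB' : IsPBlock M B')
    (hcov : ∃ ψ ∈ B', Over N T hNT (ψ : T → ℂ) b) {B : Set (IrrCharacter G)}
    (hind : IsInducedBlock M T B' B) : blockDefect p B = blockDefect p B' := by
  obtain ⟨D, hD⟩ := Cfsg.Agent.Lib.Helper2.BlockExt2.exists_defectGroup hM hB'
  have h1 := (fr_defect N T hNT hM hb hT hB' hcov hind).1 D hD
  have h2 := card_defectGroup hM hind.2.1 h1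
  have h3 := card_defectGroup hM hB' hD
  have h4 : Nat.card (D.map T.subtype) = Nat.card D :=
    Nat.card_congr (Subgroup.equivMapOfInjective _ _ (Subgroup.subtype_injective _)).symm.toEquiv
  rw [h4, h3] at h2
  exact (Nat.pow_right_injective hM.1.two_le h2).symm

theorem G_defect_le (hNT : N ≤ T) {M : Ideal AlgInt} {p : ℕ} [Fact p.Prime] (hM : IsPModular p M)
    {b : Set (IrrCharacter N)} (hb : IsPBlock M b)
    (hT : ∀ g : G, g ∈ T ↔ ∀ θ ∈ b, cj N θ g ∈ b)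
    {B : Set (IrrCharacter G)} (hB : IsPBlock M B) (hcov : Covers N B b) :
    blockDefect p B ≤ blockDefect p b + (N.relIndex T).factorization p := by
  haveI := hM.2.1.isPrime
  obtain ⟨B', hB', hcov', hind⟩ := fr_c N T hNT hb hT hB hcov
  rw [defect_eq_of_fr N T hNT hM hb hT hB' hcov' hind]
  exact T_defect_le N T hNT hM hb hT hB' hcov'

theorem G_exists_large (hNT : N ≤ T) {M : Ideal AlgInt} {p : ℕ} [Fact p.Prime] (hM : IsPModular p M)
    {b : Set (IrrCharacter N)} (hb : IsPBlock M b)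
    (hT : ∀ g : G, g ∈ T ↔ ∀ θ ∈ b, cj N θ g ∈ b) :
    ∃ B : Set (IrrCharacter G), IsPBlock M B ∧ Covers N B b ∧
      blockDefect p b + (N.relIndex T).factorization p ≤ blockDefect p B := by
  haveI := hM.2.1.isPrime
  obtain ⟨B', hB', hcov', hle⟩ := T_exists_large N T hNT hM hb hT
  obtain ⟨B, hind, hcov, -, -⟩ := fr_a N T hNT hb hT hB' hcov'
  refine ⟨B, hind.2.1, hcov, ?_⟩
  rw [defect_eq_of_fr N T hNT hM hb hT hB' hcov' hind]
  exact hle

theorem induced_of_covers {M : Ideal AlgInt} [M.IsPrime]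
    (hout : ∀ y, y ∉ N → ∀ χ : IrrCharacter G, centralChar (χ : G → ℂ) y ∈ Iloc M)
    {B : Set (IrrCharacter G)} (hB : IsPBlock M B) {b : Set (IrrCharacter N)} (hb : IsPBlock M b)
    (hcov : Covers N B b) : IsInducedBlock M N b B := by
  refine ⟨hb, hB, ?_⟩
  intro ξ hξ χ hχ g
  by_cases hg : g ∈ N
  · exact sub_mem_Iloc_symm (M := M) (passman_mp _ hB hb hcov χ hχ ξ hξ ⟨g, hg⟩)
  · have h1 : inducedCentralChar N (ξ : N → ℂ) g = 0 := by
      unfold inducedCentralChar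
      have h2 : {h : N | IsConj g (h : G)} = ∅ := by
        ext h
        simp only [Set.mem_ofPred_eq, Set.mem_empty_iff_false, iff_false]
        intro hc
        obtain ⟨c, hc⟩ := isConj_iff.mp hc
        apply hg
        have h3 := hN.conj_mem _ h.2 c⁻¹
        rw [← hc] at h3
        have e : c⁻¹ * (c * g * c⁻¹) * c⁻¹⁻¹ = g := by group
        rwa [e] at h3
      rw [h2, finsum_mem_empty]
    rw [h1, zero_sub]
    exact (Iloc M).neg_mem (hout g hg χ)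

theorem covers_unique_of_hout {M : Ideal AlgInt} [M.IsPrime]
    (hout : ∀ y, y ∉ N → ∀ χ : IrrCharacter G, centralChar (χ : G → ℂ) y ∈ Iloc M)
    {B B₁ : Set (IrrCharacter G)} (hB : IsPBlock M B) (hB₁ : IsPBlock M B₁)
    {b : Set (IrrCharacter N)} (hb : IsPBlock M b)
    (hcov : Covers N B b) (hcov₁ : Covers N B₁ b) : B = B₁ :=
  induced_unique (induced_of_covers N hout hB hb hcov) (induced_of_covers N hout hB₁ hb hcov₁)

end Cfsg.Agent.Lib.Helper2.BlockFR3
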