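import Mathlib
import Cfsg.Prelude.Def_Blocks
import Cfsg.Agent.Lib.Helper2.BlockFong
import Cfsg.Agent.Lib.Helper2.BlockN
import Cfsg.Agent.Lib.Helper2.BlockMisc
import Cfsg.Agent.Lib.Helper2.BlockAvg
import Cfsg.Agent.Lib.Helper2.BlockCong
import Cfsg.Agent.Lib.Helper2.BlockSM7
import Cfsg.Agent.Lib.Helper2.BlockSM3
import Cfsg.Agent.Lib.Helper2.BlockPr
import Cfsg.Agent.Lib.Helper2.BlockSM5
import Cfsg.Agent.S0906
import Cfsg.Agent.Lib.Helper2.BlockInd
import Cfsg.Agent.Lib.Helper2.BlockReg3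
import Cfsg.Agent.Lib.Helper2.BlockBr
import Cfsg.Agent.S0917
import Cfsg.Agent.Lib.Helper2.BlockFR
import Cfsg.Agent.Lib.Helper2.BlockFR2
import Cfsg.Agent.Lib.Helper2.BlockExt2
import Cfsg.Agent.Lib.Helper7.BInd1
import Cfsg.Agent.Lib.Helper2.BlockFR3
import Cfsg.Agent.Lib.Helper1.Cores
import Cfsg.Agent.S0912
import Cfsg.Agent.S0920

set_option autoImplicit false
set_option linter.unusedSectionVars false
set_option linter.unusedVariables false
set_option linter.style.haveILetI false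

/-! Miscellaneous consequences of the block library. -/

namespace Cfsg.Agent.Lib.Helper2.BlockFR4

open Cfsg Cfsg.Agent.Lib.Helper7.CharIrr Cfsg.Agent.Lib.Helper7.CharOrth
  Cfsg.Agent.Lib.Helper7.CharIntegral Cfsg.Agent.Lib.Helper7.CharMore
  Cfsg.Agent.Lib.Helper7.CharClassAlg Cfsg.Agent.Lib.Helper7.CharComplete
  Cfsg.Agent.Lib.Helper7.CharDeg Cfsg.Agent.Lib.Helper7.CharGalois
  Cfsg.Agent.Lib.Helper7.CharClassAlg2 Cfsg.Agent.Lib.Helper7.CharBurnside
  Cfsg.Agent.Lib.Helper7.CharNormal Cfsg.Agent.Lib.Helper7.CharClifford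
  Cfsg.Agent.Lib.Helper7.CharInd Cfsg.Agent.Lib.Helper7.CharMisc
  Cfsg.Agent.Lib.Helper2.LocRing
  Cfsg.Agent.Lib.Helper2.BlockZ Cfsg.Agent.Lib.Helper2.BlockDef Cfsg.Agent.Lib.Helper2.BlockOrth
  Cfsg.Agent.Lib.Helper2.BlockSM4 Cfsg.Agent.Lib.Helper2.BlockSub Cfsg.Agent.Lib.Helper2.BlockBr2
  Cfsg.Agent.Lib.Helper2.BlockCov Cfsg.Agent.Lib.Helper2.BlockKer
  Cfsg.Agent.Lib.Helper2.BlockCov2 Cfsg.Agent.Lib.Helper2.BlockLam
  Cfsg.Agent.Lib.Helper2.BlockFMT Cfsg.Agent.Lib.Helper2.BlockGr3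
  Cfsg.Agent.Lib.Helper2.BlockFong Cfsg.Agent.Lib.Helper2.BlockN
  Cfsg.Agent.Lib.Helper2.BlockMisc Cfsg.Agent.Lib.Helper2.BlockAvg Cfsg.Agent.Lib.Helper2.BlockCong
  Cfsg.Agent.Lib.Helper2.BlockSM7 Cfsg.Agent.Lib.Helper2.BlockSM3 Cfsg.Agent.Lib.Helper2.BlockPr
  Cfsg.Agent.Lib.Helper2.BlockSM5 Cfsg.Agent.Lib.Helper2.BlockInd Cfsg.Agent.Lib.Helper2.BlockReg
  Cfsg.Agent.Lib.Helper2.BlockReg2 Cfsg.Agent.Lib.Helper2.BlockReg3 Cfsg.Agent.Lib.Helper2.BlockBr
  Cfsg.Agent.Lib.Helper2.BlockFR Cfsg.Agent.Lib.Helper2.BlockFR2 Cfsg.Agent.Lib.Helper2.BlockExt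
  Cfsg.Agent.Lib.Helper2.BlockFR3 Cfsg.Agent.Lib.Helper2.BlockExt2
open scoped ComplexConjugate

variable {G : Type*} [Group G] [Fintype G]

open Cfsg.Agent.Lib.Helper7.BInd1 (trSet tr_mem_trSet trSet_isPBlock blockDefect_trSet induced_trans)

theorem stab_inv (N : Subgroup G) [hN : N.Normal] [Fintype N] {M : Ideal AlgInt} [M.IsPrime]
    {b : Set (IrrCharacter N)} (hb : IsPBlock M b) (g : G)
    (h : ∀ θ ∈ b, cj N θ g⁻¹ ∈ b) : ∀ θ ∈ b, cj N θ g ∈ b := by
  obtain ⟨θ₀, hθ₀⟩ := block_nonempty hb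
  have h2 := h θ₀ hθ₀
  have h3 : cj N (cj N θ₀ g⁻¹) g = θ₀ := by rw [cj_cj, inv_mul_cancel, cj_one]
  have h4 : cj N (cj N θ₀ g⁻¹) g ∈ b := by rw [h3]; exact hθ₀
  intro θ hθ
  by_contra hc
  exact block_closed hb _ h4 _ hc (sameBlock_cj N (sameBlock_of_mem hb h2 hθ) g)

theorem cj_self (N : Subgroup G) [hN : N.Normal] [Fintype N] (θ : IrrCharacter N) {g : G}
    (hg : g ∈ N) : cj N θ g = θ := by
  apply Subtype.ext
  funext n
  rw [cj_apply]
  exact IsCharacter.isClassFunction (IsIrrCharacter.isCharacter θ.2) n ⟨g, hg⟩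

theorem ext_defect {M : Ideal AlgInt} {p : ℕ} [Fact p.Prime] (hM : IsPModular p M)
    (P : Subgroup G) (hP : IsPGroup p P) (H : Subgroup G) [Fintype H]
    (hH : H = P ⊔ Subgroup.centralizer (P : Set G)) (b : Set (IrrCharacter H)) (hb : IsPBlock M b)
    (hbP : IsDefectGroup p M b (P.subgroupOf H)) (B : Set (IrrCharacter G))
    (hind : IsInducedBlock M H b B) (T : Subgroup G)
    (hT : ∀ g : G, g ∈ T ↔ (g ∈ Subgroup.normalizer (P : Set G) ∧ ∀ θ ∈ b,
      ∀ θ' : IrrCharacter H, (∀ h h' : H, (h' : G) = g * h * g⁻¹ →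
        (θ' : H → ℂ) h' = (θ : H → ℂ) h) → θ' ∈ b)) :
    IsDefectGroup p M B P ↔ ¬ p ∣ H.relIndex T := by
  classical
  haveI := hM.2.1.isPrime
  have hHN : H ≤ Subgroup.normalizer (P : Set G) := by rw [hH]; exact sup_le_normalizer P
  haveI hnorm : (H.subgroupOf (Subgroup.normalizer (P : Set G))).Normal := by
    rw [hH]; exact normal_sup_subgroupOf P
  have hCle : Subgroup.centralizer ((P.subgroupOf (Subgroup.normalizer (P : Set G)) :
      Subgroup (Subgroup.normalizer (P : Set G))) : Set (Subgroup.normalizer (P : Set G))) ≤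
      H.subgroupOf (Subgroup.normalizer (P : Set G)) := by
    rw [hH]; exact centralizer_subgroupOf_le P
  have hPH : P ≤ H := by rw [hH]; exact le_sup_left
  have hTN : T ≤ Subgroup.normalizer (P : Set G) := fun g hg => ((hT g).mp hg).1
  haveI := Fintype.ofFinite (H.subgroupOf (Subgroup.normalizer (P : Set G)))
  haveI := Fintype.ofFinite (T.subgroupOf (Subgroup.normalizer (P : Set G)))
  have hb₁ := trSet_isPBlock (M := M) (Subgroup.subgroupOfEquivOfLe hHN) hb
  have hT₁ : ∀ g : Subgroup.normalizer (P : Set G),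
      g ∈ T.subgroupOf (Subgroup.normalizer (P : Set G)) ↔
      ∀ θ₁ ∈ trSet (Subgroup.subgroupOfEquivOfLe hHN) b,
        cj (H.subgroupOf (Subgroup.normalizer (P : Set G))) θ₁ g ∈
          trSet (Subgroup.subgroupOfEquivOfLe hHN) b := by
    intro g
    rw [Subgroup.mem_subgroupOf, hT]
    constructor
    · rintro ⟨-, h⟩
      apply stab_inv _ hb₁
      intro θ₁ hθ₁
      apply h _ hθ₁
      intro h₀ h₀' hh
      rw [tr_apply, tr_apply, cj_apply]
      apply congrArg
      apply Subtype.ext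
      apply Subtype.ext
      simp only [Subgroup.coe_mul, Subgroup.coe_inv, inv_inv]
      have e1 : (((Subgroup.subgroupOfEquivOfLe hHN).symm h₀' :
          H.subgroupOf (Subgroup.normalizer (P : Set G))) : G) = h₀' := rfl
      have e2 : (((Subgroup.subgroupOfEquivOfLe hHN).symm h₀ :
          H.subgroupOf (Subgroup.normalizer (P : Set G))) : G) = h₀ := rfl
      rw [e1, e2, hh]
      group
    · intro h
      refine ⟨g.2, ?_⟩
      intro θ hθ θ' hθ'
      have h1 := stab_inv _ hb₁ g⁻¹ (by rw [inv_inv]; exact h) _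
        (tr_mem_trSet (Subgroup.subgroupOfEquivOfLe hHN) hθ)
      have h2 : θ' = tr (Subgroup.subgroupOfEquivOfLe hHN).symm
          (cj (H.subgroupOf (Subgroup.normalizer (P : Set G)))
            (tr (Subgroup.subgroupOfEquivOfLe hHN) θ) g⁻¹) := by
        apply Subtype.ext
        funext h₀
        rw [tr_apply, cj_apply, tr_apply]
        apply hθ'
        simp only [Subgroup.subgroupOfEquivOfLe_apply_coe, Subgroup.coe_mul, Subgroup.coe_inv, inv_inv]
        have e1 : (((Subgroup.subgroupOfEquivOfLe hHN).symm h₀ :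
            H.subgroupOf (Subgroup.normalizer (P : Set G))) : G) = h₀ := rfl
        rw [e1]
        group
      rw [h2]
      exact h1
  have hH₁T₁ : H.subgroupOf (Subgroup.normalizer (P : Set G)) ≤
      T.subgroupOf (Subgroup.normalizer (P : Set G)) := by
    intro g hg
    rw [hT₁]
    intro θ₁ hθ₁
    rw [cj_self _ θ₁ hg]
    exact hθ₁
  haveI hP₁n : (P.subgroupOf (Subgroup.normalizer (P : Set G))).Normal :=
    Subgroup.normal_in_normalizer
  have hP₁ : IsPGroup p (P.subgroupOf (Subgroup.normalizer (P : Set G))) := hP.comap_subtype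
  have hout₁ : ∀ y ∉ H.subgroupOf (Subgroup.normalizer (P : Set G)),
      ∀ χ : IrrCharacter (Subgroup.normalizer (P : Set G)), centralChar χ y ∈ Iloc M :=
    fun y hy χ => centralChar_mem_Iloc_of_normal' hM _ hP₁ y (fun h => hy (hCle h)) χ
  obtain ⟨B₁, hB₁, hcov, hge⟩ := G_exists_large (H.subgroupOf (Subgroup.normalizer (P : Set G)))
    (T.subgroupOf (Subgroup.normalizer (P : Set G))) hH₁T₁ hM hb₁ hT₁
  have hle := G_defect_le (H.subgroupOf (Subgroup.normalizer (P : Set G)))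
    (T.subgroupOf (Subgroup.normalizer (P : Set G))) hH₁T₁ hM hb₁ hT₁ hB₁ hcov
  have hd : blockDefect p B₁ = blockDefect p b + (H.relIndex T).factorization p := by
    rw [blockDefect_trSet, Subgroup.relIndex_subgroupOf hTN] at hge hle
    omega
  have hind₁ := induced_of_covers (H.subgroupOf (Subgroup.normalizer (P : Set G))) hout₁ hB₁ hb₁ hcov
  have hind₂ : IsInducedBlock M (Subgroup.normalizer (P : Set G)) B₁ B :=
    induced_trans hHN hind₁ hind
  have hcP : Nat.card P = p ^ blockDefect p b := by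
    rw [← card_defectGroup hM hb hbP]
    exact (Nat.card_congr (Subgroup.subgroupOfEquivOfLe hPH).toEquiv).symm
  have hcP₁ : Nat.card (P.subgroupOf (Subgroup.normalizer (P : Set G))) = Nat.card P :=
    Nat.card_congr (Subgroup.subgroupOfEquivOfLe Subgroup.le_normalizer).toEquiv
  have hrel : H.relIndex T ≠ 0 := by
    have : (H.subgroupOf T).FiniteIndex := inferInstance
    exact this.index_ne_zero
  have hpp : p.Prime := Fact.out
  have hiff : ¬ p ∣ H.relIndex T ↔ (H.relIndex T).factorization p = 0 := by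
    rw [Nat.factorization_eq_zero_iff]
    constructor
    · intro h; exact Or.inr (Or.inl h)
    · rintro (h | h | h)
      · exact absurd hpp h
      · exact h
      · exact absurd h hrel
  rw [hiff]
  constructor
  · intro hPB
    have h1 := defectGroup_of_induced hM hPB (Subgroup.normalizer (P : Set G))
      Subgroup.le_normalizer hP₁n hind₂
    have h2 := card_defectGroup hM hB₁ h1
    rw [hcP₁, hcP, hd] at h2
    have h3 := Nat.pow_right_injective hpp.two_le h2
    omega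
  · intro hnd
    obtain ⟨D, hD⟩ := exists_defectGroup hM hB₁
    have h1 : P.subgroupOf (Subgroup.normalizer (P : Set G)) ≤ D :=
      (Cfsg.Agent.Lib.Helper1.le_pCore hP₁n hP₁).trans (Cfsg.Agent.S0912.result p M hM B₁ hB₁ D hD)
    have h2 := card_defectGroup hM hB₁ hD
    have h3 : P.subgroupOf (Subgroup.normalizer (P : Set G)) = D := by
      apply Subgroup.eq_of_le_of_card_ge h1
      rw [h2, hcP₁, hcP, hd, hnd, add_zero]
    obtain ⟨B₂, hB₂, hB₂D, hB₂ind⟩ := (Cfsg.Agent.S0920.result p M hM P hP).1 B₁ hB₁ (h3 ▸ hD)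
    rw [induced_unique hind₂ hB₂ind]
    exact hB₂D

end Cfsg.Agent.Lib.Helper2.BlockFR4
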