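import Mathlib
import Cfsg.Prelude.Def_Blocks
import Cfsg.Agent.Lib.Helper2.BlockFong
import Cfsg.Agent.Lib.Helper2.BlockN
import Cfsg.Agent.Lib.Helper2.BlockMisc
import Cfsg.Agent.Lib.Helper2.BlockAvg
import Cfsg.Agent.Lib.Helper2.BlockCong
import Cfsg.Agent.Lib.Helper2.BlockSM7
import Cfsg.Agent.Lib.Helper2.BlockSM3
import Cfsg.Agent.Lib.Helper2.BlockPr
import Cfsg.Agent.Lib.Helper2.BlockSM5
import Cfsg.Agent.S0906
import Cfsg.Agent.Lib.Helper2.BlockInd
import Cfsg.Agent.Lib.Helper2.BlockReg3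
import Cfsg.Agent.Lib.Helper2.BlockBr
import Cfsg.Agent.S0917
import Cfsg.Agent.Lib.Helper2.BlockFR
import Cfsg.Agent.Lib.Helper2.BlockFR2
import Cfsg.Agent.Lib.Helper2.BlockExt2
import Cfsg.Agent.Lib.Helper7.BInd1
import Cfsg.Agent.Lib.Helper2.BlockFR3
import Cfsg.Agent.Lib.Helper1.Cores
import Cfsg.Agent.S0912
import Cfsg.Agent.S0920
import Cfsg.Agent.Lib.Helper2.BlockFR4
import Cfsg.Agent.Lib.Helper7.BPair3
import Cfsg.Prelude.Def_BrauerPairs

set_option autoImplicit false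
set_option linter.unusedSectionVars false
set_option linter.unusedVariables false
set_option linter.style.haveILetI false

/-! Miscellaneous consequences of the block library. -/

namespace Cfsg.Agent.Lib.Helper2.BlockBC

open Cfsg Cfsg.Agent.Lib.Helper7.CharIrr Cfsg.Agent.Lib.Helper7.CharOrth
  Cfsg.Agent.Lib.Helper7.CharIntegral Cfsg.Agent.Lib.Helper7.CharMore
  Cfsg.Agent.Lib.Helper7.CharClassAlg Cfsg.Agent.Lib.Helper7.CharComplete
  Cfsg.Agent.Lib.Helper7.CharDeg Cfsg.Agent.Lib.Helper7.CharGalois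
  Cfsg.Agent.Lib.Helper7.CharClassAlg2 Cfsg.Agent.Lib.Helper7.CharBurnside
  Cfsg.Agent.Lib.Helper7.CharNormal Cfsg.Agent.Lib.Helper7.CharClifford
  Cfsg.Agent.Lib.Helper7.CharInd Cfsg.Agent.Lib.Helper7.CharMisc
  Cfsg.Agent.Lib.Helper2.LocRing
  Cfsg.Agent.Lib.Helper2.BlockZ Cfsg.Agent.Lib.Helper2.BlockDef Cfsg.Agent.Lib.Helper2.BlockOrth
  Cfsg.Agent.Lib.Helper2.BlockSM4 Cfsg.Agent.Lib.Helper2.BlockSub Cfsg.Agent.Lib.Helper2.BlockBr2
  Cfsg.Agent.Lib.Helper2.BlockCov Cfsg.Agent.Lib.Helper2.BlockKer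
  Cfsg.Agent.Lib.Helper2.BlockCov2 Cfsg.Agent.Lib.Helper2.BlockLam
  Cfsg.Agent.Lib.Helper2.BlockFMT Cfsg.Agent.Lib.Helper2.BlockGr3
  Cfsg.Agent.Lib.Helper2.BlockFong Cfsg.Agent.Lib.Helper2.BlockN
  Cfsg.Agent.Lib.Helper2.BlockMisc Cfsg.Agent.Lib.Helper2.BlockAvg Cfsg.Agent.Lib.Helper2.BlockCong
  Cfsg.Agent.Lib.Helper2.BlockSM7 Cfsg.Agent.Lib.Helper2.BlockSM3 Cfsg.Agent.Lib.Helper2.BlockPr
  Cfsg.Agent.Lib.Helper2.BlockSM5 Cfsg.Agent.Lib.Helper2.BlockInd Cfsg.Agent.Lib.Helper2.BlockReg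
  Cfsg.Agent.Lib.Helper2.BlockReg2 Cfsg.Agent.Lib.Helper2.BlockReg3 Cfsg.Agent.Lib.Helper2.BlockBr
  Cfsg.Agent.Lib.Helper2.BlockFR Cfsg.Agent.Lib.Helper2.BlockFR2 Cfsg.Agent.Lib.Helper2.BlockExt
  Cfsg.Agent.Lib.Helper2.BlockFR3 Cfsg.Agent.Lib.Helper2.BlockExt2
open scoped ComplexConjugate

variable {G : Type*} [Group G] [Fintype G]

open Cfsg.Agent.Lib.Helper7.BInd1 (trSet tr_mem_trSet trSet_isPBlock blockDefect_trSet induced_trans)


/-- two idempotents modulo the maximal ideal with congruent central character values agree. -/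
theorem idem_congr {M : Ideal AlgInt} [M.IsPrime] {a : G → ℂ} (ha : IsClassFunction G a)
    (ha' : ∀ g, a g ∈ Rloc M) (hid : ∀ g, cv a a g - a g ∈ Iloc M)
    (b : Set (IrrCharacter G)) (hb : IsPBlock M b)
    (hW : ∀ ξ : IrrCharacter G, W ξ a - W ξ (blockCoeff b) ∈ Iloc M) :
    ∀ g, a g - blockCoeff b g ∈ Iloc M := by
  classical
  have hf := blockCoeff_isClass b
  have hf' := blockCoeff_mem_Rloc (M := M) b (block_closed hb)
  have hdf : IsClassFunction G (dl - blockCoeff b) := isClassFunction_sub dl_isClass hf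
  have hda : IsClassFunction G (dl - a) := isClassFunction_sub dl_isClass ha
  have hcaa : IsClassFunction G (cv a a - a) := isClassFunction_sub (cv_isClass ha ha) ha
  have hWf : ∀ ψ : G → ℂ, ∀ hψ : IsIrrCharacter G ψ,
      W ψ (blockCoeff b) = if (⟨ψ, hψ⟩ : IrrCharacter G) ∈ b then 1 else 0 :=
    fun ψ hψ => W_blockCoeff b ⟨ψ, hψ⟩
  -- u
  have hu : ∀ g, cv a (dl - blockCoeff b) g ∈ Iloc M := by
    apply idem_mem_Iloc (M := M) (cv_isClass ha hdf)
    · exact cv_mem_Rloc ha' (fun g => Subring.sub_mem _ (dl_mem_Rloc g) (hf' g))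
    · have h1 : cv (cv a (dl - blockCoeff b)) (cv a (dl - blockCoeff b)) -
          cv a (dl - blockCoeff b) = cv (cv a a - a) (dl - blockCoeff b) := by
        apply eq_of_W (isClassFunction_sub (cv_isClass (cv_isClass ha hdf) (cv_isClass ha hdf))
          (cv_isClass ha hdf)) (cv_isClass hcaa hdf)
        intro ψ hψ
        rw [W_sub, W_cv hψ (cv_isClass ha hdf), W_cv hψ ha, W_cv hψ hcaa, W_sub, W_sub,
          W_cv hψ ha, W_dl (Cfsg.Agent.Lib.Helper2.BlockKer.irr_one_ne_zero hψ), hWf ψ hψ]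
        split_ifs <;> ring
      intro g
      have h2 := congrFun h1 g
      rw [Pi.sub_apply] at h2
      rw [h2]
      exact cv_mem_Iloc hid (fun g => Subring.sub_mem _ (dl_mem_Rloc g) (hf' g)) g
    · intro ξ
      have h3 := hW ξ
      rw [W_cv ξ.2 ha, W_sub, W_dl (Cfsg.Agent.Lib.Helper2.BlockKer.irr_one_ne_zero ξ.2)]
      rw [W_blockCoeff] at h3 ⊢
      split_ifs at h3 ⊢
      · rw [sub_self, mul_zero]; exact (Iloc M).zero_mem
      · rw [sub_zero] at h3 ⊢; rw [mul_one]; exact h3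
  have hv : ∀ g, cv (dl - a) (blockCoeff b) g ∈ Iloc M := by
    apply idem_mem_Iloc (M := M) (cv_isClass hda hf)
    · exact cv_mem_Rloc (fun g => Subring.sub_mem _ (dl_mem_Rloc g) (ha' g)) hf'
    · have h1 : cv (cv (dl - a) (blockCoeff b)) (cv (dl - a) (blockCoeff b)) -
          cv (dl - a) (blockCoeff b) = cv (cv a a - a) (blockCoeff b) := by
        apply eq_of_W (isClassFunction_sub (cv_isClass (cv_isClass hda hf) (cv_isClass hda hf))
          (cv_isClass hda hf)) (cv_isClass hcaa hf)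
        intro ψ hψ
        rw [W_sub, W_cv hψ (cv_isClass hda hf), W_cv hψ hda, W_cv hψ hcaa, W_sub, W_sub,
          W_cv hψ ha, W_dl (Cfsg.Agent.Lib.Helper2.BlockKer.irr_one_ne_zero hψ), hWf ψ hψ]
        split_ifs <;> ring
      intro g
      have h2 := congrFun h1 g
      rw [Pi.sub_apply] at h2
      rw [h2]
      exact cv_mem_Iloc hid hf' g
    · intro ξ
      have h3 := hW ξ
      rw [W_cv ξ.2 hda, W_sub, W_dl (Cfsg.Agent.Lib.Helper2.BlockKer.irr_one_ne_zero ξ.2)]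
      rw [W_blockCoeff] at h3 ⊢
      split_ifs at h3 ⊢
      · rw [mul_one]; exact sub_mem_Iloc_symm h3
      · rw [mul_zero]; exact (Iloc M).zero_mem
  have h4 : a - blockCoeff b = cv a (dl - blockCoeff b) - cv (dl - a) (blockCoeff b) := by
    apply eq_of_W (isClassFunction_sub ha hf)
      (isClassFunction_sub (cv_isClass ha hdf) (cv_isClass hda hf))
    intro ψ hψ
    rw [W_sub, W_sub, W_cv hψ ha, W_cv hψ hda, W_sub, W_sub,
      W_dl (Cfsg.Agent.Lib.Helper2.BlockKer.irr_one_ne_zero hψ)]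
    ring
  intro g
  have h5 := congrFun h4 g
  rw [Pi.sub_apply, Pi.sub_apply] at h5
  rw [h5]
  exact (Iloc M).sub_mem (hu g) (hv g)

theorem br_idem {M : Ideal AlgInt} {p : ℕ} (hM : IsPModular p M) {P K : Subgroup G}
    [Fintype K] (hP : IsPGroup p P) (hCK : Subgroup.centralizer (P : Set G) ≤ K)
    {B : Set (IrrCharacter G)} (hB : IsPBlock M B) (k : K) :
    haveI := hM.2.1.isPrime
    cv (br P K (blockCoeff B)) (br P K (blockCoeff B)) k - br P K (blockCoeff B) k ∈ Iloc M := by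
  haveI := hM.2.1.isPrime
  have heR := blockCoeff_mem_Rloc (M := M) B (block_closed hB)
  have h2 := br_cv hM hP hCK (blockCoeff_isClass B) (blockCoeff_isClass B) heR heR k
  rw [cv_blockCoeff] at h2
  exact sub_mem_Iloc_symm h2

/-- If `b` is the only block of `K` inducing `B`, the Brauer map sends the idempotent of `B` to
that of `b`. -/
theorem br_congr {M : Ideal AlgInt} {p : ℕ} (hM : IsPModular p M) {P K : Subgroup G}
    [Fintype K] (hP : IsPGroup p P) (hPK : P ≤ K) (hCK : Subgroup.centralizer (P : Set G) ≤ K)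
    (hKN : K ≤ Subgroup.normalizer (P : Set G)) {B : Set (IrrCharacter G)} (hB : IsPBlock M B)
    {b : Set (IrrCharacter K)} (hind : IsInducedBlock M K b B)
    (huniq : ∀ b₂ : Set (IrrCharacter K), IsInducedBlock M K b₂ B → b₂ = b) (k : K) :
    haveI := hM.2.1.isPrime
    br P K (blockCoeff B) k - blockCoeff b k ∈ Iloc M := by
  classical
  haveI := hM.2.1.isPrime
  have heR := blockCoeff_mem_Rloc (M := M) B (block_closed hB)
  apply idem_congr (M := M) (br_isClass hKN (blockCoeff_isClass B)) (br_mem_Rloc P K heR)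
    (br_idem hM hP hCK hB) b hind.1
  intro ξ
  obtain ⟨B', hind', hB'⟩ := exists_isInducedBlock hM hP hPK hCK hKN
    (b := blockOf M (ξ : K → ℂ)) ⟨ξ, rfl⟩
  obtain ⟨χ', hχ'⟩ := block_nonempty hind'.2.1
  have hξξ : ξ ∈ blockOf M (ξ : K → ℂ) := sameBlock_refl (M := M) _
  have h1 := hB' ξ hξξ χ' hχ' _ (blockCoeff_isClass B) heR
  rw [W_blockCoeff] at h1
  rw [W_blockCoeff]
  split_ifs at h1 with h2
  · have h3 : B = B' := block_eq_of_mem hB hind'.2.1 h2 hχ'
    have h4 := huniq _ (h3 ▸ hind')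
    rw [if_pos (h4 ▸ hξξ)]
    exact h1
  · have h5 : ξ ∉ b := by
      intro h6
      have h7 : blockOf M (ξ : K → ℂ) = b := block_eq_of_mem ⟨ξ, rfl⟩ hind.1 hξξ h6
      rw [h7] at hind'
      exact h2 (induced_unique hind hind' ▸ hχ')
    rw [if_neg h5]
    exact h1

theorem cv_blockCoeff_ne {M : Ideal AlgInt} [M.IsPrime] {B B' : Set (IrrCharacter G)}
    (hB : IsPBlock M B) (hB' : IsPBlock M B') (hne : B ≠ B') :
    cv (blockCoeff B) (blockCoeff B') = 0 := by
  classical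
  apply eq_zero_of_W (cv_isClass (blockCoeff_isClass B) (blockCoeff_isClass B'))
  intro ψ hψ
  rw [W_cv hψ (blockCoeff_isClass B)]
  have h1 := W_blockCoeff B ⟨ψ, hψ⟩
  have h2 := W_blockCoeff B' ⟨ψ, hψ⟩
  simp only at h1 h2
  rw [h1, h2]
  split_ifs with h3 h4
  · exact absurd (block_eq_of_mem hB hB' h3 h4) hne
  · simp
  · simp
  · simp

theorem mem_centralizer_of_defectGroup {M : Ideal AlgInt} {p : ℕ} {B : Set (IrrCharacter G)}
    {P : Subgroup G} (hPB : IsDefectGroup p M B P) :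
    ∃ g ∈ Subgroup.centralizer (P : Set G), ¬ MemLocalIdeal M (blockCoeff B g) := by
  obtain ⟨g, hg, S, rfl⟩ := hPB
  refine ⟨g, ?_, hg.2.1⟩
  rw [Subgroup.mem_centralizer_iff]
  intro q hq
  obtain ⟨q', _, rfl⟩ := Subgroup.mem_map.mp hq
  have := Subgroup.mem_centralizer_iff.mp q'.2 g (Set.mem_singleton g)
  exact this.symm

/-- Blocks whose idempotents agree on the centralizer of a defect group are equal. -/
theorem eq_of_congr {M : Ideal AlgInt} {p : ℕ} (hM : IsPModular p M) {P : Subgroup G}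
    (hP : IsPGroup p P) {B B' : Set (IrrCharacter G)} (hB : IsPBlock M B) (hB' : IsPBlock M B')
    (hPB : IsDefectGroup p M B P)
    (h : ∀ x ∈ Subgroup.centralizer (P : Set G),
      MemLocalIdeal M (blockCoeff B x - blockCoeff B' x)) : B = B' := by
  classical
  haveI := hM.2.1.isPrime
  by_contra hne
  obtain ⟨g, hg, hgB⟩ := mem_centralizer_of_defectGroup hPB
  apply hgB
  have heR := blockCoeff_mem_Rloc (M := M) B (block_closed hB)
  have heR' := blockCoeff_mem_Rloc (M := M) B' (block_closed hB')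
  haveI := Fintype.ofFinite (⊤ : Subgroup G)
  have h1 := br_cv hM (H := ⊤) hP le_top (blockCoeff_isClass B) (blockCoeff_isClass B') heR heR'
    ⟨g, Subgroup.mem_top g⟩
  rw [cv_blockCoeff_ne hB hB' hne] at h1
  have h2 := br_idem hM (K := ⊤) hP le_top hB ⟨g, Subgroup.mem_top g⟩
  have h3 : cv (br P ⊤ (blockCoeff B)) (br P ⊤ (blockCoeff B) - br P ⊤ (blockCoeff B'))
      ⟨g, Subgroup.mem_top g⟩ ∈ Iloc M := by
    unfold cv
    apply Submodule.sum_mem
    intro x _
    apply mul_mem_Iloc (br_mem_Rloc P ⊤ heR x)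
    rw [Pi.sub_apply, br_apply, br_apply]
    split_ifs with h4
    · exact h _ h4
    · rw [sub_zero]; exact (Iloc M).zero_mem
  have h5 : cv (br P ⊤ (blockCoeff B)) (br P ⊤ (blockCoeff B) - br P ⊤ (blockCoeff B'))
      ⟨g, Subgroup.mem_top g⟩ = cv (br P ⊤ (blockCoeff B)) (br P ⊤ (blockCoeff B))
      ⟨g, Subgroup.mem_top g⟩ - cv (br P ⊤ (blockCoeff B)) (br P ⊤ (blockCoeff B'))
      ⟨g, Subgroup.mem_top g⟩ := by
    unfold cv
    rw [← Finset.sum_sub_distrib]
    apply Finset.sum_congr rfl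
    intro x _
    rw [Pi.sub_apply, mul_sub]
  rw [h5] at h3
  have h6 : br P ⊤ (0 : G → ℂ) ⟨g, Subgroup.mem_top g⟩ = 0 := by
    rw [br_apply]; simp
  rw [h6, zero_sub] at h1
  have h7 : br P ⊤ (blockCoeff B) ⟨g, Subgroup.mem_top g⟩ = blockCoeff B g := by
    rw [br_apply, if_pos hg]
  rw [h7] at h2
  have h8 := (Iloc M).sub_mem ((Iloc M).sub_mem h3 h2) h1
  have h9 : blockCoeff B g = cv (br P ⊤ (blockCoeff B)) (br P ⊤ (blockCoeff B))
      ⟨g, Subgroup.mem_top g⟩ - cv (br P ⊤ (blockCoeff B)) (br P ⊤ (blockCoeff B'))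
      ⟨g, Subgroup.mem_top g⟩ - (cv (br P ⊤ (blockCoeff B)) (br P ⊤ (blockCoeff B))
      ⟨g, Subgroup.mem_top g⟩ - blockCoeff B g) -
      -cv (br P ⊤ (blockCoeff B)) (br P ⊤ (blockCoeff B')) ⟨g, Subgroup.mem_top g⟩ := by ring
  rw [h9]
  exact h8

theorem fmt_down {M : Ideal AlgInt} {p : ℕ} [Fact p.Prime] (hM : IsPModular p M)
    {P K : Subgroup G} [Fintype K] (hP : IsPGroup p P)
    (hK : K = Subgroup.normalizer (P : Set G)) {B : Set (IrrCharacter G)} (hB : IsPBlock M B)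
    (hPB : IsDefectGroup p M B P) :
    ∃ b : Set (IrrCharacter K), IsPBlock M b ∧ IsDefectGroup p M b (P.subgroupOf K) ∧
      ∀ k : K, (k : G) ∈ Subgroup.centralizer (P : Set G) →
        MemLocalIdeal M (blockCoeff B k - blockCoeff b k) := by
  classical
  subst hK
  obtain ⟨b, ⟨hb, hbP, hind⟩, hu⟩ := (Cfsg.Agent.S0920.result p M hM P hP).2 B hB hPB
  refine ⟨b, hb, hbP, ?_⟩
  intro k hk
  have h1 := br_congr hM hP Subgroup.le_normalizer (le_sup_right.trans (sup_le_normalizer P))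
    le_rfl hB hind (fun b₂ h₂ => hu b₂ ⟨h₂.1, defectGroup_of_induced hM hPB _
      Subgroup.le_normalizer Subgroup.normal_in_normalizer h₂, h₂⟩) k
  rw [br_apply, if_pos hk] at h1
  exact h1

theorem fmt_up {M : Ideal AlgInt} {p : ℕ} [Fact p.Prime] (hM : IsPModular p M)
    {P K : Subgroup G} [Fintype K] (hP : IsPGroup p P)
    (hK : K = Subgroup.normalizer (P : Set G)) {b : Set (IrrCharacter K)} (hb : IsPBlock M b)
    (hbP : IsDefectGroup p M b (P.subgroupOf K)) :
    ∃ B : Set (IrrCharacter G), IsPBlock M B ∧ IsDefectGroup p M B P ∧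
      ∀ k : K, (k : G) ∈ Subgroup.centralizer (P : Set G) →
        MemLocalIdeal M (blockCoeff B k - blockCoeff b k) := by
  classical
  subst hK
  obtain ⟨B, hB, hPB, hind⟩ := (Cfsg.Agent.S0920.result p M hM P hP).1 b hb hbP
  obtain ⟨b₀, -, hu⟩ := (Cfsg.Agent.S0920.result p M hM P hP).2 B hB hPB
  have hb0 : b = b₀ := hu b ⟨hb, hbP, hind⟩
  refine ⟨B, hB, hPB, ?_⟩
  intro k hk
  have h1 := br_congr hM hP Subgroup.le_normalizer (le_sup_right.trans (sup_le_normalizer P))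
    le_rfl hB hind (fun b₂ h₂ => (hu b₂ ⟨h₂.1, defectGroup_of_induced hM hPB _
      Subgroup.le_normalizer Subgroup.normal_in_normalizer h₂, h₂⟩).trans hb0.symm) k
  rw [br_apply, if_pos hk] at h1
  exact h1

section Transport

variable {A K : Type*} [Group A] [Group K] [Fintype A] [Fintype K]

theorem defectGroup_trSet {M : Ideal AlgInt} {p : ℕ} [Fact p.Prime] (hM : IsPModular p M)
    (e : K ≃* A) {β : Set (IrrCharacter A)} (hβ : IsPBlock M β) {D : Subgroup A}
    (hD : IsDefectGroup p M β D) {D' : Subgroup K} (hn : D'.Normal) (hp : IsPGroup p D')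
    (hc : Nat.card D' = Nat.card D) : IsDefectGroup p M (trSet e β) D' := by
  haveI := hM.2.1.isPrime
  have hβ' := trSet_isPBlock (M := M) e hβ
  obtain ⟨E, hE⟩ := exists_defectGroup hM hβ'
  have h1 : D' ≤ E :=
    (Cfsg.Agent.Lib.Helper1.le_pCore hn hp).trans (Cfsg.Agent.S0912.result p M hM _ hβ' E hE)
  have h2 := card_defectGroup hM hβ' hE
  have h3 := card_defectGroup hM hβ hD
  have h4 : D' = E := by
    apply Subgroup.eq_of_le_of_card_ge h1
    rw [h2, hc, h3, blockDefect_trSet]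
  rw [h4]
  exact hE

theorem blockCoeff_trSet (e : K ≃* A) (β : Set (IrrCharacter A)) (k : K) :
    blockCoeff (trSet e β) k = blockCoeff β (e k) := by
  classical
  have h : (fun k => blockCoeff β (e k)) = blockCoeff (trSet e β) := by
    apply eq_of_W (isClass_comp e (blockCoeff_isClass _)) (blockCoeff_isClass _)
    intro χ hχ
    have h1 := W_tr e ((tr e.symm ⟨χ, hχ⟩ : IrrCharacter A) : A → ℂ) (blockCoeff β)
    have h2 : (fun k => ((tr e.symm ⟨χ, hχ⟩ : IrrCharacter A) : A → ℂ) (e k)) = χ := by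
      funext k
      rw [tr_apply]
      simp
    rw [h2] at h1
    rw [h1, W_blockCoeff]
    have h3 := W_blockCoeff (trSet e β) ⟨χ, hχ⟩
    simp only at h3
    rw [h3]
    rfl
  exact (congrFun h k).symm

end Transport

theorem mem_cent_sub {P H : Subgroup G} (hPH : P ≤ H) (h : H) :
    h ∈ Subgroup.centralizer ((P.subgroupOf H : Subgroup H) : Set H) ↔
      (h : G) ∈ Subgroup.centralizer (P : Set G) := by
  rw [Subgroup.mem_centralizer_iff, Subgroup.mem_centralizer_iff]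
  constructor
  · intro h1 q hq
    exact congrArg Subtype.val (h1 ⟨q, hPH hq⟩ (Subgroup.mem_subgroupOf.mpr hq))
  · intro h1 q hq
    exact Subtype.ext (h1 q (Subgroup.mem_subgroupOf.mp hq))

theorem card_aux {P H : Subgroup G} (hH : Subgroup.normalizer (P : Set G) ≤ H) :
    Nat.card ((P.subgroupOf H).subgroupOf ((Subgroup.normalizer (P : Set G)).subgroupOf H)) =
      Nat.card (P.subgroupOf (Subgroup.normalizer (P : Set G))) := by
  have hPH : P ≤ H := Subgroup.le_normalizer.trans hH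
  have hle : P.subgroupOf H ≤ (Subgroup.normalizer (P : Set G)).subgroupOf H := by
    rw [Subgroup.subgroupOf_normalizer_eq hPH]; exact Subgroup.le_normalizer
  exact (Nat.card_congr (Subgroup.subgroupOfEquivOfLe hle).toEquiv).trans
    ((Nat.card_congr (Subgroup.subgroupOfEquivOfLe hPH).toEquiv).trans
      (Nat.card_congr (Subgroup.subgroupOfEquivOfLe Subgroup.le_normalizer).toEquiv).symm)

theorem corr_down {M : Ideal AlgInt} {p : ℕ} [Fact p.Prime] (hM : IsPModular p M)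
    {P H : Subgroup G} [Fintype H] (hP : IsPGroup p P)
    (hH : Subgroup.normalizer (P : Set G) ≤ H) {B : Set (IrrCharacter G)} (hB : IsPBlock M B)
    (hPB : IsDefectGroup p M B P) :
    ∃ c : Set (IrrCharacter H), IsPBlock M c ∧ IsDefectGroup p M c (P.subgroupOf H) ∧
      ∀ x : G, x ∈ Subgroup.centralizer (P : Set G) →
        MemLocalIdeal M (blockCoeff B x - subgroupBlockCoeff H c x) := by
  classical
  haveI := hM.2.1.isPrime
  have hPH : P ≤ H := Subgroup.le_normalizer.trans hH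
  have hK' : (Subgroup.normalizer (P : Set G)).subgroupOf H =
      Subgroup.normalizer ((P.subgroupOf H : Subgroup H) : Set H) :=
    Subgroup.subgroupOf_normalizer_eq hPH
  haveI := Fintype.ofFinite (Subgroup.normalizer (P : Set G))
  haveI := Fintype.ofFinite ((Subgroup.normalizer (P : Set G)).subgroupOf H)
  obtain ⟨b, hb, hbP, hc₁⟩ := fmt_down hM hP rfl hB hPB
  have hPH' : IsPGroup p (P.subgroupOf H) := hP.comap_subtype
  have hb'P := defectGroup_trSet hM (Subgroup.subgroupOfEquivOfLe hH) hb hbP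
    (D' := (P.subgroupOf H).subgroupOf ((Subgroup.normalizer (P : Set G)).subgroupOf H))
    (Subgroup.normal_subgroupOf_of_le_normalizer hK'.le) hPH'.comap_subtype (card_aux hH)
  obtain ⟨c, hc, hcP, hc₂⟩ := fmt_up hM hPH' hK' (trSet_isPBlock _ hb) hb'P
  refine ⟨c, hc, hcP, ?_⟩
  intro x hx
  have hxN : x ∈ Subgroup.normalizer (P : Set G) :=
    (le_sup_right.trans (sup_le_normalizer P)) hx
  have h1 := hc₁ ⟨x, hxN⟩ hx
  have h2 := hc₂ ⟨⟨x, hH hxN⟩, Subgroup.mem_subgroupOf.mpr hxN⟩ ((mem_cent_sub hPH _).mpr hx)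
  rw [blockCoeff_trSet] at h2
  have h3 : subgroupBlockCoeff H c x = blockCoeff c ⟨x, hH hxN⟩ :=
    Cfsg.Agent.Lib.Helper7.BPair3.subgroupBlockCoeff_of_mem H c ⟨x, hH hxN⟩
  rw [h3]
  exact sub_mem_Iloc_trans h1 (sub_mem_Iloc_symm h2)

theorem corr_up {M : Ideal AlgInt} {p : ℕ} [Fact p.Prime] (hM : IsPModular p M)
    {P H : Subgroup G} [Fintype H] (hP : IsPGroup p P)
    (hH : Subgroup.normalizer (P : Set G) ≤ H) {c : Set (IrrCharacter H)} (hc : IsPBlock M c)
    (hcP : IsDefectGroup p M c (P.subgroupOf H)) :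
    ∃ B : Set (IrrCharacter G), IsPBlock M B ∧ IsDefectGroup p M B P ∧
      ∀ x : G, x ∈ Subgroup.centralizer (P : Set G) →
        MemLocalIdeal M (blockCoeff B x - subgroupBlockCoeff H c x) := by
  classical
  haveI := hM.2.1.isPrime
  have hPH : P ≤ H := Subgroup.le_normalizer.trans hH
  have hK' : (Subgroup.normalizer (P : Set G)).subgroupOf H =
      Subgroup.normalizer ((P.subgroupOf H : Subgroup H) : Set H) :=
    Subgroup.subgroupOf_normalizer_eq hPH
  haveI := Fintype.ofFinite (Subgroup.normalizer (P : Set G))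
  haveI := Fintype.ofFinite ((Subgroup.normalizer (P : Set G)).subgroupOf H)
  have hPH' : IsPGroup p (P.subgroupOf H) := hP.comap_subtype
  obtain ⟨b', hb', hb'P, hc₂⟩ := fmt_down hM hPH' hK' hc hcP
  have hbP := defectGroup_trSet hM (Subgroup.subgroupOfEquivOfLe hH).symm hb' hb'P
    (D' := P.subgroupOf (Subgroup.normalizer (P : Set G)))
    Subgroup.normal_in_normalizer hP.comap_subtype (card_aux hH).symm
  obtain ⟨B, hB, hPB, hc₁⟩ := fmt_up hM hP rfl (trSet_isPBlock _ hb') hbP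
  refine ⟨B, hB, hPB, ?_⟩
  intro x hx
  have hxN : x ∈ Subgroup.normalizer (P : Set G) :=
    (le_sup_right.trans (sup_le_normalizer P)) hx
  have h1 := hc₁ ⟨x, hxN⟩ hx
  have h2 := hc₂ ⟨⟨x, hH hxN⟩, Subgroup.mem_subgroupOf.mpr hxN⟩ ((mem_cent_sub hPH _).mpr hx)
  rw [blockCoeff_trSet] at h1
  have h3 : subgroupBlockCoeff H c x = blockCoeff c ⟨x, hH hxN⟩ :=
    Cfsg.Agent.Lib.Helper7.BPair3.subgroupBlockCoeff_of_mem H c ⟨x, hH hxN⟩
  rw [h3]
  exact sub_mem_Iloc_trans h1 (sub_mem_Iloc_symm h2)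

theorem brauer_corr {M : Ideal AlgInt} {p : ℕ} [Fact p.Prime] (hM : IsPModular p M)
    (P H : Subgroup G) (hP : IsPGroup p P) (hH : Subgroup.normalizer (P : Set G) ≤ H) :
    (∀ B : Set (IrrCharacter G), IsPBlock M B → IsDefectGroup p M B P →
      ∃! c : Set (IrrCharacter H), IsPBlock M c ∧ IsDefectGroup p M c (P.subgroupOf H) ∧
        ∀ x : G, x ∈ Subgroup.centralizer (P : Set G) →
          MemLocalIdeal M (blockCoeff B x - subgroupBlockCoeff H c x)) ∧
    (∀ c : Set (IrrCharacter H), IsPBlock M c → IsDefectGroup p M c (P.subgroupOf H) →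
      ∃! B : Set (IrrCharacter G), IsPBlock M B ∧ IsDefectGroup p M B P ∧
        ∀ x : G, x ∈ Subgroup.centralizer (P : Set G) →
          MemLocalIdeal M (blockCoeff B x - subgroupBlockCoeff H c x)) := by
  classical
  haveI := hM.2.1.isPrime
  haveI := Fintype.ofFinite H
  have hPH : P ≤ H := Subgroup.le_normalizer.trans hH
  have hPH' : IsPGroup p (P.subgroupOf H) := hP.comap_subtype
  constructor
  · intro B hB hPB
    obtain ⟨c, hc, hcP, hcc⟩ := corr_down hM hP hH hB hPB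
    refine ⟨c, ⟨hc, hcP, hcc⟩, ?_⟩
    rintro c₂ ⟨hc₂, hc₂P, hcc₂⟩
    apply eq_of_congr hM hPH' hc₂ hc hc₂P
    intro h hh
    have hh' := (mem_cent_sub hPH h).mp hh
    have h1 := hcc h hh'
    have h2 := hcc₂ h hh'
    rw [Cfsg.Agent.Lib.Helper7.BPair3.subgroupBlockCoeff_of_mem] at h1 h2
    exact sub_mem_Iloc_trans (sub_mem_Iloc_symm h2) h1
  · intro c hc hcP
    obtain ⟨B, hB, hPB, hcc⟩ := corr_up hM hP hH hc hcP
    refine ⟨B, ⟨hB, hPB, hcc⟩, ?_⟩
    rintro B₂ ⟨hB₂, hB₂P, hcc₂⟩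
    apply eq_of_congr hM hP hB₂ hB hB₂P
    intro x hx
    exact sub_mem_Iloc_trans (hcc₂ x hx) (sub_mem_Iloc_symm (hcc x hx))

end Cfsg.Agent.Lib.Helper2.BlockBC
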