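import Mathlib
import Cfsg.Prelude.Def_Blocks
import Cfsg.Agent.Lib.Helper2.BlockFong
import Cfsg.Agent.Lib.Helper2.BlockN
import Cfsg.Agent.Lib.Helper2.BlockMisc
import Cfsg.Agent.Lib.Helper2.BlockAvg
import Cfsg.Agent.Lib.Helper2.BlockCong
import Cfsg.Agent.Lib.Helper2.BlockSM7
import Cfsg.Agent.Lib.Helper2.BlockSM3
import Cfsg.Agent.Lib.Helper2.BlockPr
import Cfsg.Agent.Lib.Helper2.BlockSM5
import Cfsg.Agent.S0906
import Cfsg.Agent.Lib.Helper2.BlockInd
import Cfsg.Agent.Lib.Helper2.BlockReg3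
import Cfsg.Agent.Lib.Helper2.BlockBr
import Cfsg.Agent.S0917
import Cfsg.Agent.Lib.Helper2.BlockFR
import Cfsg.Agent.Lib.Helper2.BlockFR2
import Cfsg.Agent.Lib.Helper2.BlockExt2
import Cfsg.Agent.Lib.Helper7.BInd1
import Cfsg.Agent.Lib.Helper2.BlockFR3
import Cfsg.Agent.Lib.Helper1.Cores
import Cfsg.Agent.S0912
import Cfsg.Agent.S0920
import Cfsg.Agent.Lib.Helper2.BlockFR4
import Cfsg.Agent.Lib.Helper7.BPair3
import Cfsg.Prelude.Def_BrauerPairs
import Cfsg.Agent.Lib.Helper2.BlockBC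
import Cfsg.Agent.Lib.Helper2.BlockFix
import Cfsg.Agent.Lib.Helper7.BPair1
import Cfsg.Agent.Lib.Helper7.BPair2

set_option autoImplicit false
set_option linter.unusedSectionVars false
set_option linter.unusedVariables false
set_option linter.style.haveILetI false

/-! Miscellaneous consequences of the block library. -/

namespace Cfsg.Agent.Lib.Helper2.BlockBP

open Cfsg Cfsg.Agent.Lib.Helper7.CharIrr Cfsg.Agent.Lib.Helper7.CharOrth
  Cfsg.Agent.Lib.Helper7.CharIntegral Cfsg.Agent.Lib.Helper7.CharMore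
  Cfsg.Agent.Lib.Helper7.CharClassAlg Cfsg.Agent.Lib.Helper7.CharComplete
  Cfsg.Agent.Lib.Helper7.CharDeg Cfsg.Agent.Lib.Helper7.CharGalois
  Cfsg.Agent.Lib.Helper7.CharClassAlg2 Cfsg.Agent.Lib.Helper7.CharBurnside
  Cfsg.Agent.Lib.Helper7.CharNormal Cfsg.Agent.Lib.Helper7.CharClifford
  Cfsg.Agent.Lib.Helper7.CharInd Cfsg.Agent.Lib.Helper7.CharMisc
  Cfsg.Agent.Lib.Helper2.LocRing
  Cfsg.Agent.Lib.Helper2.BlockZ Cfsg.Agent.Lib.Helper2.BlockDef Cfsg.Agent.Lib.Helper2.BlockOrth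
  Cfsg.Agent.Lib.Helper2.BlockSM4 Cfsg.Agent.Lib.Helper2.BlockSub Cfsg.Agent.Lib.Helper2.BlockBr2
  Cfsg.Agent.Lib.Helper2.BlockCov Cfsg.Agent.Lib.Helper2.BlockKer
  Cfsg.Agent.Lib.Helper2.BlockCov2 Cfsg.Agent.Lib.Helper2.BlockLam
  Cfsg.Agent.Lib.Helper2.BlockFMT Cfsg.Agent.Lib.Helper2.BlockGr3
  Cfsg.Agent.Lib.Helper2.BlockFong Cfsg.Agent.Lib.Helper2.BlockN
  Cfsg.Agent.Lib.Helper2.BlockMisc Cfsg.Agent.Lib.Helper2.BlockAvg Cfsg.Agent.Lib.Helper2.BlockCong
  Cfsg.Agent.Lib.Helper2.BlockSM7 Cfsg.Agent.Lib.Helper2.BlockSM3 Cfsg.Agent.Lib.Helper2.BlockPr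
  Cfsg.Agent.Lib.Helper2.BlockSM5 Cfsg.Agent.Lib.Helper2.BlockInd Cfsg.Agent.Lib.Helper2.BlockReg
  Cfsg.Agent.Lib.Helper2.BlockReg2 Cfsg.Agent.Lib.Helper2.BlockReg3 Cfsg.Agent.Lib.Helper2.BlockBr
  Cfsg.Agent.Lib.Helper2.BlockFR Cfsg.Agent.Lib.Helper2.BlockFR2 Cfsg.Agent.Lib.Helper2.BlockExt
  Cfsg.Agent.Lib.Helper2.BlockFR3 Cfsg.Agent.Lib.Helper2.BlockExt2
open Cfsg.Agent.Lib.Helper2.BlockBC Cfsg.Agent.Lib.Helper2.BlockFix
open Cfsg.Agent.Lib.Helper7.BPair1 (brauerOmega_eq_W br_centralizer exists_induced_centralizer isBrauerPairOf_iff)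
open Cfsg.Agent.Lib.Helper7.BPair2 (conjEquiv mem_normalizer_centralizer)
open scoped ComplexConjugate

variable {G : Type*} [Group G] [Fintype G]

open Cfsg.Agent.Lib.Helper7.BInd1 (trSet tr_mem_trSet trSet_isPBlock blockDefect_trSet induced_trans)



theorem cv_fixed' {M : Ideal AlgInt} {p : ℕ} (hM : IsPModular p M) (Q : Subgroup G)
    (hQ : IsPGroup p Q) {a b : G → ℂ} (ha : ∀ q ∈ Q, ∀ x, a (q * x * q⁻¹) = a x)
    (hb : ∀ q ∈ Q, ∀ x, b (q * x * q⁻¹) = b x)
    (ha' : haveI := hM.2.1.isPrime; ∀ x, a x ∈ Rloc M)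
    (hb' : haveI := hM.2.1.isPrime; ∀ x, b x ∈ Rloc M)
    (h : G) (hh : ∀ q ∈ Q, q * h = h * q)
    [DecidablePred fun x : G => ∀ q ∈ Q, q * x = x * q] :
    haveI := hM.2.1.isPrime
    cv a b h - ∑ x, (if ∀ q ∈ Q, q * x = x * q then a x * b (x⁻¹ * h) else 0) ∈ Iloc M := by
  haveI := hM.2.1.isPrime
  apply sum_fixed hM Q hQ (fun x => a x * b (x⁻¹ * h))
  · intro x
    exact Subring.mul_mem _ (ha' x) (hb' _)
  · intro q hq x
    have h1 : (q * x * q⁻¹)⁻¹ * h = q * (x⁻¹ * h) * q⁻¹ := by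
      have : q⁻¹ * h = h * q⁻¹ := by
        have := hh q hq
        calc q⁻¹ * h = q⁻¹ * (h * q) * q⁻¹ := by group
          _ = q⁻¹ * (q * h) * q⁻¹ := by rw [this]
          _ = h * q⁻¹ := by group
      calc (q * x * q⁻¹)⁻¹ * h = q * x⁻¹ * (q⁻¹ * h) := by group
        _ = q * x⁻¹ * (h * q⁻¹) := by rw [this]
        _ = q * (x⁻¹ * h) * q⁻¹ := by group
    simp only [h1, ha q hq x, hb q hq _]

theorem br_cv' {M : Ideal AlgInt} {p : ℕ} (hM : IsPModular p M) {P H : Subgroup G} [Fintype H]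
    (hP : IsPGroup p P) (hCH : Subgroup.centralizer (P : Set G) ≤ H)
    {a b : G → ℂ} (ha : ∀ q ∈ P, ∀ x, a (q * x * q⁻¹) = a x)
    (hb : ∀ q ∈ P, ∀ x, b (q * x * q⁻¹) = b x)
    (ha' : haveI := hM.2.1.isPrime; ∀ x, a x ∈ Rloc M)
    (hb' : haveI := hM.2.1.isPrime; ∀ x, b x ∈ Rloc M) (h : H) :
    haveI := hM.2.1.isPrime
    br P H (cv a b) h - cv (br P H a) (br P H b) h ∈ Iloc M := by
  classical
  haveI := hM.2.1.isPrime
  rw [br_apply]
  split_ifs with h1
  · have h2 := cv_fixed' hM P hP ha hb ha' hb' (h : G)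
      (fun q hq => Subgroup.mem_centralizer_iff.mp h1 q hq)
    convert h2 using 2
    unfold cv
    have h3 : ∀ x : G, (if ∀ q ∈ P, q * x = x * q then a x * b (x⁻¹ * h) else 0) =
        if x ∈ H then
          (if x ∈ Subgroup.centralizer (P : Set G) then a x * b (x⁻¹ * h) else 0) else 0 := by
      intro x
      by_cases hx : x ∈ Subgroup.centralizer (P : Set G)
      · have hx' : ∀ q ∈ P, q * x = x * q := fun q hq => Subgroup.mem_centralizer_iff.mp hx q hq
        rw [if_pos (hCH hx), if_pos hx, if_pos hx']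
      · have hx' : ¬ ∀ q ∈ P, q * x = x * q := fun h4 => hx (Subgroup.mem_centralizer_iff.mpr h4)
        rw [if_neg hx, if_neg hx']
        simp
    rw [Finset.sum_congr rfl (fun x _ => h3 x), sum_ite_eq_sum_sub H
      (fun x => if x ∈ Subgroup.centralizer (P : Set G) then a x * b (x⁻¹ * h) else 0)]
    apply Finset.sum_congr rfl
    intro x _
    rw [br_apply, br_apply]
    by_cases hx : (x : G) ∈ Subgroup.centralizer (P : Set G)
    · have h5 : ((x⁻¹ * h : H) : G) ∈ Subgroup.centralizer (P : Set G) :=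
        Subgroup.mul_mem _ (Subgroup.inv_mem _ hx) h1
      rw [if_pos hx, if_pos hx, if_pos h5]
      rfl
    · rw [if_neg hx, if_neg hx, zero_mul]
  · have h2 : cv (br P H a) (br P H b) h = 0 := by
      unfold cv
      apply Finset.sum_eq_zero
      intro x _
      rw [br_apply, br_apply]
      by_cases hx : (x : G) ∈ Subgroup.centralizer (P : Set G)
      · have h5 : ((x⁻¹ * h : H) : G) ∉ Subgroup.centralizer (P : Set G) := by
          intro h6
          apply h1
          have := Subgroup.mul_mem _ hx h6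
          simpa using this
        rw [if_neg h5, mul_zero]
      · rw [if_neg hx, zero_mul]
    rw [h2, sub_zero]
    exact (Iloc M).zero_mem

theorem sBC_eq_ext0 (K : Subgroup G) (f : Set (IrrCharacter K)) :
    subgroupBlockCoeff K f = ext0 K (blockCoeff f) := by
  funext g
  unfold subgroupBlockCoeff ext0
  rfl

theorem sBC_conj {M : Ideal AlgInt} [M.IsPrime] (K : Subgroup G) [Fintype K]
    {f : Set (IrrCharacter K)} (hf : IsPBlock M f) {x : G} (hx : StabilizesBlock K f x) (g : G) :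
    subgroupBlockCoeff K f (x * g * x⁻¹) = subgroupBlockCoeff K f g := by
  classical
  have hn := Subgroup.mem_normalizer_iff.mp hx.1
  by_cases hg : g ∈ K
  · have hg' : x * g * x⁻¹ ∈ K := (hn g).mp hg
    rw [sBC_eq_ext0, ext0_mem K _ hg, ext0_mem K _ hg']
    obtain ⟨χ, hχ⟩ := block_nonempty hf
    obtain ⟨χ', hχ', hc⟩ := hx.2 χ hχ
    have h1 : trSet (conjEquiv K x hx.1).symm f = f := by
      apply block_eq_of_mem (M := M) (trSet_isPBlock _ hf) hf (χ := χ) _ hχ
      change tr (conjEquiv K x hx.1).symm.symm χ ∈ f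
      have h2 : tr (conjEquiv K x hx.1).symm.symm χ = χ' := by
        apply Subtype.ext
        funext k
        rw [tr_apply]
        symm
        apply hc
        change (k : G) = x * (x⁻¹ * (k : G) * x) * x⁻¹
        group
      rw [h2]
      exact hχ'
    have h3 := blockCoeff_trSet (conjEquiv K x hx.1).symm f ⟨g, hg⟩
    rw [h1] at h3
    rw [h3]
    rfl
  · have hg' : x * g * x⁻¹ ∉ K := fun h => hg ((hn g).mpr h)
    rw [sBC_eq_ext0, ext0_notMem K _ hg, ext0_notMem K _ hg']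

/-- restriction of functions along an inclusion of subgroups -/
def rs {K L : Subgroup G} (hKL : K ≤ L) (w : L → ℂ) : K → ℂ := fun k => w ⟨k, hKL k.2⟩

theorem rs_isClass {K L : Subgroup G} (hKL : K ≤ L) {w : L → ℂ} (hw : IsClassFunction L w) :
    IsClassFunction K (rs hKL w) := by
  intro g h
  exact hw ⟨g, hKL g.2⟩ ⟨h, hKL h.2⟩

theorem br_ext0 {P L : Subgroup G} (hCL : Subgroup.centralizer (P : Set G) ≤ L) (w : L → ℂ) :
    br P (Subgroup.centralizer (P : Set G)) (ext0 L w) = rs hCL w := by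
  funext k
  rw [br_centralizer]
  exact ext0_mem L w (hCL k.2)

/-- a product with a block idempotent which is congruent to it under central characters -/
theorem cv_blockCoeff_congr {M : Ideal AlgInt} [M.IsPrime] {u : G → ℂ} (hu : IsClassFunction G u)
    (hu' : ∀ g, u g ∈ Rloc M) (hid : ∀ g, cv u u g - u g ∈ Iloc M)
    (f : Set (IrrCharacter G)) (hf : IsPBlock M f)
    (hW : ∀ η ∈ f, W (η : G → ℂ) u - 1 ∈ Iloc M) :
    ∀ g, cv u (blockCoeff f) g - blockCoeff f g ∈ Iloc M := by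
  classical
  have hfc := blockCoeff_isClass f
  have hf' := blockCoeff_mem_Rloc (M := M) f (block_closed hf)
  have hcuu : IsClassFunction G (cv u u - u) := isClassFunction_sub (cv_isClass hu hu) hu
  apply idem_congr (M := M) (cv_isClass hu hfc) (cv_mem_Rloc hu' hf') _ f hf
  · intro η
    rw [W_cv η.2 hu, W_blockCoeff]
    split_ifs with h
    · rw [mul_one]; exact hW η h
    · rw [mul_zero, sub_zero]; exact (Iloc M).zero_mem
  · have h1 : cv (cv u (blockCoeff f)) (cv u (blockCoeff f)) - cv u (blockCoeff f) =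
        cv (cv u u - u) (blockCoeff f) := by
      apply eq_of_W (isClassFunction_sub (cv_isClass (cv_isClass hu hfc) (cv_isClass hu hfc))
        (cv_isClass hu hfc)) (cv_isClass hcuu hfc)
      intro ψ hψ
      have hWf : W ψ (blockCoeff f) = if (⟨ψ, hψ⟩ : IrrCharacter G) ∈ f then 1 else 0 :=
        W_blockCoeff f ⟨ψ, hψ⟩
      rw [W_sub, W_cv hψ (cv_isClass hu hfc), W_cv hψ hu, W_cv hψ hcuu, W_sub, W_cv hψ hu, hWf]
      split_ifs <;> ring
    intro g
    have h2 := congrFun h1 g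
    rw [Pi.sub_apply] at h2
    rw [h2]
    exact cv_mem_Iloc hid hf' g

theorem pair_up {M : Ideal AlgInt} {p : ℕ} [Fact p.Prime] (hM : IsPModular p M)
    {Q P : Subgroup G} {f : Set (IrrCharacter (Subgroup.centralizer (Q : Set G)))}
    {e : Set (IrrCharacter (Subgroup.centralizer (P : Set G)))}
    (h : IsNormalSubpair p M Q f P e) {B : Set (IrrCharacter G)}
    (hB : IsBrauerPairOf p M B Q f) : IsBrauerPairOf p M B P e := by
  classical
  haveI := hM.2.1.isPrime
  obtain ⟨⟨hQ, hf⟩, ⟨hP, he⟩, hQP, hPN, hst, hom⟩ := h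
  obtain ⟨-, hBb, homB⟩ := hB
  refine ⟨⟨hP, he⟩, hBb, ?_⟩
  intro ξ hξ
  have hCC : Subgroup.centralizer (P : Set G) ≤ Subgroup.centralizer (Q : Set G) :=
    Subgroup.centralizer_le hQP
  have heR := blockCoeff_mem_Rloc (M := M) B (block_closed hBb)
  have hfR := blockCoeff_mem_Rloc (M := M) f (block_closed hf)
  obtain ⟨u, hu⟩ : ∃ u : Subgroup.centralizer (Q : Set G) → ℂ,
      u = fun c : Subgroup.centralizer (Q : Set G) => blockCoeff B (c : G) := ⟨_, rfl⟩
  have hbu : br Q (Subgroup.centralizer (Q : Set G)) (blockCoeff B) = u := by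
    rw [br_centralizer, hu]
  have huc : IsClassFunction (Subgroup.centralizer (Q : Set G)) u := by
    rw [hu]; exact restrict_isClass _ (blockCoeff_isClass B)
  have huR : ∀ c, u c ∈ Rloc M := by
    intro c; rw [hu]; exact heR _
  have hid : ∀ c, cv u u c - u c ∈ Iloc M := by
    intro c
    have := br_idem hM hQ le_rfl hBb c
    rwa [hbu] at this
  have hv := cv_blockCoeff_congr (M := M) huc huR hid f hf (fun η hη => by
    have := homB η hη
    rw [brauerOmega_eq_W] at this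
    rw [hu]
    exact this)
  -- invariance
  have hinv1 : ∀ q ∈ P, ∀ x, ext0 (Subgroup.centralizer (Q : Set G)) u (q * x * q⁻¹) =
      ext0 (Subgroup.centralizer (Q : Set G)) u x := by
    intro q hq x
    by_cases hx : x ∈ Subgroup.centralizer (Q : Set G)
    · rw [ext0_mem _ _ hx, ext0_mem _ _ ((conj_mem_centralizer_iff (hPN hq)).mpr hx), hu]
      exact blockCoeff_isClass B x q
    · rw [ext0_notMem _ _ hx,
        ext0_notMem _ _ (fun h => hx ((conj_mem_centralizer_iff (hPN hq)).mp h))]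
  have hinv2 : ∀ q ∈ P, ∀ x, ext0 (Subgroup.centralizer (Q : Set G)) (blockCoeff f)
      (q * x * q⁻¹) = ext0 (Subgroup.centralizer (Q : Set G)) (blockCoeff f) x := by
    intro q hq x
    rw [← sBC_eq_ext0]
    exact sBC_conj _ hf (hst q hq) x
  have hR1 : ∀ x, ext0 (Subgroup.centralizer (Q : Set G)) u x ∈ Rloc M := by
    intro x
    by_cases hx : x ∈ Subgroup.centralizer (Q : Set G)
    · rw [ext0_mem _ _ hx]; exact huR _
    · rw [ext0_notMem _ _ hx]; exact Subring.zero_mem _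
  have hR2 : ∀ x, ext0 (Subgroup.centralizer (Q : Set G)) (blockCoeff f) x ∈ Rloc M := by
    intro x
    by_cases hx : x ∈ Subgroup.centralizer (Q : Set G)
    · rw [ext0_mem _ _ hx]; exact hfR _
    · rw [ext0_notMem _ _ hx]; exact Subring.zero_mem _
  have hmul := br_cv' hM hP (H := Subgroup.centralizer (P : Set G)) le_rfl hinv1 hinv2 hR1 hR2
  rw [cv_ext0, br_ext0 hCC, br_ext0 hCC, br_ext0 hCC] at hmul
  have hc1 := rs_isClass hCC huc
  have hc2 := rs_isClass hCC (blockCoeff_isClass f)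
  have hc3 := rs_isClass hCC (cv_isClass huc (blockCoeff_isClass f))
  -- (i)
  have hi : W (ξ : _ → ℂ) (rs hCC (cv u (blockCoeff f))) -
      W (ξ : _ → ℂ) (rs hCC u) * W (ξ : _ → ℂ) (rs hCC (blockCoeff f)) ∈ Iloc M := by
    rw [← W_cv ξ.2 hc1, ← W_sub]
    exact W_mem_Iloc ξ (isClassFunction_sub hc3 (cv_isClass hc1 hc2)) hmul
  -- (ii)
  have hii : W (ξ : _ → ℂ) (rs hCC (cv u (blockCoeff f))) -
      W (ξ : _ → ℂ) (rs hCC (blockCoeff f)) ∈ Iloc M := by
    rw [← W_sub]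
    exact W_mem_Iloc ξ (isClassFunction_sub hc3 hc2) (fun k => hv ⟨k, hCC k.2⟩)
  -- (iii)
  have hiii : W (ξ : _ → ℂ) (rs hCC (blockCoeff f)) - 1 ∈ Iloc M := by
    have := hom ξ hξ
    rw [brauerOmega_eq_W, sBC_eq_ext0] at this
    have h5 : (fun h : Subgroup.centralizer (P : Set G) =>
        ext0 (Subgroup.centralizer (Q : Set G)) (blockCoeff f) (h : G)) =
        rs hCC (blockCoeff f) := by
      funext k
      exact ext0_mem _ _ (hCC k.2)
    rwa [h5] at this
  have hWR : W (ξ : _ → ℂ) (rs hCC u) ∈ Rloc M := W_mem_Rloc ξ hc1 (fun k => huR _)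
  rw [brauerOmega_eq_W]
  have h6 : (fun h : Subgroup.centralizer (P : Set G) => blockCoeff B (h : G)) = rs hCC u := by
    funext k
    rw [hu]
    rfl
  rw [h6]
  have h7 := mul_mem_Iloc hWR hiii
  have h8 : W (ξ : _ → ℂ) (rs hCC u) - 1 =
      -(W (ξ : _ → ℂ) (rs hCC u) * (W (ξ : _ → ℂ) (rs hCC (blockCoeff f)) - 1)) -
      (W (ξ : _ → ℂ) (rs hCC (cv u (blockCoeff f))) -
        W (ξ : _ → ℂ) (rs hCC u) * W (ξ : _ → ℂ) (rs hCC (blockCoeff f))) +
      (W (ξ : _ → ℂ) (rs hCC (cv u (blockCoeff f))) - W (ξ : _ → ℂ) (rs hCC (blockCoeff f))) +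
      (W (ξ : _ → ℂ) (rs hCC (blockCoeff f)) - 1) := by ring
  rw [h8]
  exact (Iloc M).add_mem ((Iloc M).add_mem ((Iloc M).sub_mem ((Iloc M).neg_mem h7) hi) hii) hiii

theorem pair_unique {M : Ideal AlgInt} {p : ℕ} (hM : IsPModular p M) {P : Subgroup G}
    {e : Set (IrrCharacter (Subgroup.centralizer (P : Set G)))} {B B' : Set (IrrCharacter G)}
    (h : IsBrauerPairOf p M B P e) (h' : IsBrauerPairOf p M B' P e) : B = B' := by
  obtain ⟨B₀, h₀⟩ := exists_induced_centralizer hM h.1.1 h.1.2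
  rw [(isBrauerPairOf_iff hM h.1.1 h₀ B).mp h, (isBrauerPairOf_iff hM h.1.1 h₀ B').mp h']

theorem pair_exists {M : Ideal AlgInt} {p : ℕ} (hM : IsPModular p M) {P : Subgroup G}
    {e : Set (IrrCharacter (Subgroup.centralizer (P : Set G)))} (h : IsBrauerPair p M P e) :
    ∃ B : Set (IrrCharacter G), IsBrauerPairOf p M B P e := by
  obtain ⟨B₀, h₀⟩ := exists_induced_centralizer hM h.1 h.2
  exact ⟨B₀, (isBrauerPairOf_iff hM h.1 h₀ B₀).mpr rfl⟩

theorem pair_step_iff {M : Ideal AlgInt} {p : ℕ} [Fact p.Prime] (hM : IsPModular p M)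
    {Q P : Subgroup G} {f : Set (IrrCharacter (Subgroup.centralizer (Q : Set G)))}
    {e : Set (IrrCharacter (Subgroup.centralizer (P : Set G)))}
    (h : IsNormalSubpair p M Q f P e) (B : Set (IrrCharacter G)) :
    IsBrauerPairOf p M B Q f ↔ IsBrauerPairOf p M B P e := by
  constructor
  · exact pair_up hM h
  · intro hB
    obtain ⟨B', hB'⟩ := pair_exists hM h.1
    rw [pair_unique hM hB (pair_up hM h hB')]
    exact hB'

theorem pair_le_iff {M : Ideal AlgInt} {p : ℕ} [Fact p.Prime] (hM : IsPModular p M)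
    {a b : BrauerPairIdx G} (h : Relation.ReflTransGen (NormalSubpairRel p M) a b)
    (B : Set (IrrCharacter G)) :
    IsBrauerPairOf p M B a.1 a.2 ↔ IsBrauerPairOf p M B b.1 b.2 := by
  induction h with
  | refl => exact Iff.rfl
  | tail _ hbc ih => exact ih.trans (pair_step_iff hM hbc B)

end Cfsg.Agent.Lib.Helper2.BlockBP
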