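import Mathlib
import Cfsg.Prelude.Def_Blocks
import Cfsg.Agent.Lib.Helper2.BlockFong
import Cfsg.Agent.Lib.Helper2.BlockN
import Cfsg.Agent.Lib.Helper2.BlockMisc
import Cfsg.Agent.Lib.Helper2.BlockAvg
import Cfsg.Agent.Lib.Helper2.BlockCong
import Cfsg.Agent.Lib.Helper2.BlockSM7
import Cfsg.Agent.Lib.Helper2.BlockSM3
import Cfsg.Agent.Lib.Helper2.BlockPr
import Cfsg.Agent.Lib.Helper2.BlockSM5
import Cfsg.Agent.S0906
import Cfsg.Agent.Lib.Helper2.BlockInd
import Cfsg.Agent.Lib.Helper2.BlockReg3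
import Cfsg.Agent.Lib.Helper2.BlockBr
import Cfsg.Agent.S0917
import Cfsg.Agent.Lib.Helper2.BlockFR
import Cfsg.Agent.Lib.Helper2.BlockFR2
import Cfsg.Agent.Lib.Helper2.BlockExt2
import Cfsg.Agent.Lib.Helper7.BInd1
import Cfsg.Agent.Lib.Helper2.BlockFR3
import Cfsg.Agent.Lib.Helper1.Cores
import Cfsg.Agent.S0912
import Cfsg.Agent.S0920
import Cfsg.Agent.Lib.Helper2.BlockFR4
import Cfsg.Agent.Lib.Helper7.BPair3
import Cfsg.Prelude.Def_BrauerPairs
import Cfsg.Agent.Lib.Helper2.BlockBC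
import Cfsg.Agent.Lib.Helper2.BlockBP
import Cfsg.Agent.Lib.Helper2.BlockFix
import Cfsg.Agent.Lib.Helper7.BPair1
import Cfsg.Agent.Lib.Helper7.BPair2

set_option autoImplicit false
set_option linter.unusedSectionVars false
set_option linter.unusedVariables false
set_option linter.style.haveILetI false

/-! Miscellaneous consequences of the block library. -/

namespace Cfsg.Agent.Lib.Helper2.BlockBP2

open Cfsg Cfsg.Agent.Lib.Helper7.CharIrr Cfsg.Agent.Lib.Helper7.CharOrth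
  Cfsg.Agent.Lib.Helper7.CharIntegral Cfsg.Agent.Lib.Helper7.CharMore
  Cfsg.Agent.Lib.Helper7.CharClassAlg Cfsg.Agent.Lib.Helper7.CharComplete
  Cfsg.Agent.Lib.Helper7.CharDeg Cfsg.Agent.Lib.Helper7.CharGalois
  Cfsg.Agent.Lib.Helper7.CharClassAlg2 Cfsg.Agent.Lib.Helper7.CharBurnside
  Cfsg.Agent.Lib.Helper7.CharNormal Cfsg.Agent.Lib.Helper7.CharClifford
  Cfsg.Agent.Lib.Helper7.CharInd Cfsg.Agent.Lib.Helper7.CharMisc
  Cfsg.Agent.Lib.Helper2.LocRing
  Cfsg.Agent.Lib.Helper2.BlockZ Cfsg.Agent.Lib.Helper2.BlockDef Cfsg.Agent.Lib.Helper2.BlockOrth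
  Cfsg.Agent.Lib.Helper2.BlockSM4 Cfsg.Agent.Lib.Helper2.BlockSub Cfsg.Agent.Lib.Helper2.BlockBr2
  Cfsg.Agent.Lib.Helper2.BlockCov Cfsg.Agent.Lib.Helper2.BlockKer
  Cfsg.Agent.Lib.Helper2.BlockCov2 Cfsg.Agent.Lib.Helper2.BlockLam
  Cfsg.Agent.Lib.Helper2.BlockFMT Cfsg.Agent.Lib.Helper2.BlockGr3
  Cfsg.Agent.Lib.Helper2.BlockFong Cfsg.Agent.Lib.Helper2.BlockN
  Cfsg.Agent.Lib.Helper2.BlockMisc Cfsg.Agent.Lib.Helper2.BlockAvg Cfsg.Agent.Lib.Helper2.BlockCong
  Cfsg.Agent.Lib.Helper2.BlockSM7 Cfsg.Agent.Lib.Helper2.BlockSM3 Cfsg.Agent.Lib.Helper2.BlockPr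
  Cfsg.Agent.Lib.Helper2.BlockSM5 Cfsg.Agent.Lib.Helper2.BlockInd Cfsg.Agent.Lib.Helper2.BlockReg
  Cfsg.Agent.Lib.Helper2.BlockReg2 Cfsg.Agent.Lib.Helper2.BlockReg3 Cfsg.Agent.Lib.Helper2.BlockBr
  Cfsg.Agent.Lib.Helper2.BlockFR Cfsg.Agent.Lib.Helper2.BlockFR2 Cfsg.Agent.Lib.Helper2.BlockExt
  Cfsg.Agent.Lib.Helper2.BlockFR3 Cfsg.Agent.Lib.Helper2.BlockExt2
open Cfsg.Agent.Lib.Helper2.BlockBC Cfsg.Agent.Lib.Helper2.BlockFix Cfsg.Agent.Lib.Helper2.BlockBP Cfsg.Agent.Lib.Helper2.BlockFR4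
open Cfsg.Agent.Lib.Helper7.BPair1 (brauerOmega_eq_W br_centralizer exists_induced_centralizer isBrauerPairOf_iff)
open Cfsg.Agent.Lib.Helper7.BPair2 (conjEquiv mem_normalizer_centralizer)
open scoped ComplexConjugate

variable {G : Type*} [Group G] [Fintype G]

open Cfsg.Agent.Lib.Helper7.BInd1 (trSet tr_mem_trSet trSet_isPBlock blockDefect_trSet induced_trans)




theorem exists_stab_block {M : Ideal AlgInt} [M.IsPrime] (N : Subgroup G) [hN : N.Normal]
    [Fintype N] (T : Subgroup G) [Fintype T] (hNT : N ≤ T)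
    (hout : ∀ y, y ∉ N → ∀ χ : IrrCharacter G, centralChar (χ : G → ℂ) y ∈ Iloc M)
    {b : Set (IrrCharacter N)} (hb : IsPBlock M b)
    (hT : ∀ g : G, g ∈ T ↔ ∀ θ ∈ b, cj N θ g ∈ b)
    {B : Set (IrrCharacter G)} (hB : IsPBlock M B) (hcov : Covers N B b) :
    ∃ E : Set (IrrCharacter T), IsPBlock M E ∧ (∃ ψ ∈ E, Over N T hNT (ψ : T → ℂ) b) ∧
      IsInducedBlock M T E B ∧ blockCoeff E = uT N T (blockCoeff b) := by
  classical
  obtain ⟨E, hE, hov, hind⟩ := fr_c N T hNT hb hT hB hcov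
  refine ⟨E, hE, hov, hind, ?_⟩
  apply eq_of_W (blockCoeff_isClass E) (uT_isClass N T (hinv_blockCoeff N T hT))
  intro ψ hψ
  obtain ⟨ψ', hψ'⟩ : ∃ ψ' : IrrCharacter T, (ψ' : T → ℂ) = ψ := ⟨⟨ψ, hψ⟩, rfl⟩
  rw [← hψ', W_blockCoeff]
  by_cases hm : ψ' ∈ E
  · rw [if_pos hm, W_eps N T hNT hT ψ' (all_over N T hNT hb hT hE hov ψ' hm)]
  · rw [if_neg hm]
    by_contra hne
    have hov' := (W_uT_ne_zero_iff N T hNT ψ' b).mp (Ne.symm hne)
    have hrefl : ψ' ∈ blockOf M (ψ' : T → ℂ) := sameBlock_refl (M := M) _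
    obtain ⟨B₂, hind₂, hcov₂, -, -⟩ := fr_a N T hNT hb hT (B' := blockOf M (ψ' : T → ℂ))
      ⟨ψ', rfl⟩ ⟨ψ', hrefl, hov'⟩
    have h1 : B₂ = B := covers_unique_of_hout N hout hind₂.2.1 hB hb hcov₂ hcov
    rw [h1] at hind₂
    have h2 := fr_b N T hNT hb hT ⟨ψ', rfl⟩ hE ⟨ψ', hrefl, hov'⟩ hov hind₂ hind
    exact hm (h2 ▸ hrefl)

theorem exists_pair_above {M : Ideal AlgInt} {p : ℕ} [Fact p.Prime] (hM : IsPModular p M)
    {D : Subgroup G} (hD : IsPGroup p D) {a : G → ℂ}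
    (hinv : ∀ q ∈ D, ∀ x, a (q * x * q⁻¹) = a x)
    (hcl : IsClassFunction (Subgroup.centralizer (D : Set G))
      (fun k : Subgroup.centralizer (D : Set G) => a (k : G)))
    (haR : ∀ x, MemLocalRing M (a x)) (hid : cv a a = a) {x : G}
    (hx : x ∈ Subgroup.centralizer (D : Set G)) (hxa : ¬ MemLocalIdeal M (a x)) :
    ∃ g : Set (IrrCharacter (Subgroup.centralizer (D : Set G))), IsPBlock M g ∧
      ∀ ξ ∈ g, MemLocalIdeal M
        (brauerOmega D a (ξ : Subgroup.centralizer (D : Set G) → ℂ) - 1) := by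
  classical
  haveI := hM.2.1.isPrime
  obtain ⟨r, hr⟩ : ∃ r : Subgroup.centralizer (D : Set G) → ℂ,
      r = fun k : Subgroup.centralizer (D : Set G) => a (k : G) := ⟨_, rfl⟩
  have hbr : br D (Subgroup.centralizer (D : Set G)) a = r := by rw [br_centralizer, hr]
  have hrc : IsClassFunction (Subgroup.centralizer (D : Set G)) r := by rw [hr]; exact hcl
  have hrR : ∀ k, r k ∈ Rloc M := by intro k; rw [hr]; exact haR _
  have hrid : ∀ k, cv r r k - r k ∈ Iloc M := by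
    intro k
    have h1 := br_cv' hM hD (H := Subgroup.centralizer (D : Set G)) le_rfl hinv hinv haR haR k
    rw [hid, hbr] at h1
    exact sub_mem_Iloc_symm h1
  have hex : ∃ ξ₀ : IrrCharacter (Subgroup.centralizer (D : Set G)),
      W (ξ₀ : _ → ℂ) r ∉ Iloc M := by
    by_contra hcon
    push Not at hcon
    have h1 := idem_mem_Iloc (M := M) hrc hrR hrid hcon ⟨x, hx⟩
    rw [hr] at h1
    exact hxa h1
  obtain ⟨ξ₀, hξ₀⟩ := hex
  have hWR : W (ξ₀ : _ → ℂ) r ∈ Rloc M := W_mem_Rloc ξ₀ hrc hrR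
  have h2 : W (ξ₀ : _ → ℂ) r * (W (ξ₀ : _ → ℂ) r - 1) ∈ Iloc M := by
    have h3 := W_mem_Iloc ξ₀ (isClassFunction_sub (cv_isClass hrc hrc) hrc) hrid
    rw [W_sub, W_cv ξ₀.2 hrc] at h3
    have h4 : W (ξ₀ : _ → ℂ) r * (W (ξ₀ : _ → ℂ) r - 1) =
        W (ξ₀ : _ → ℂ) r * W (ξ₀ : _ → ℂ) r - W (ξ₀ : _ → ℂ) r := by ring
    rw [h4]
    exact h3
  have h5 : W (ξ₀ : _ → ℂ) r - 1 ∈ Iloc M := by
    rcases mem_or_mem_of_mul_mem_Iloc hWR h2 with h | h
    · exact absurd h hξ₀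
    · exact h
  refine ⟨blockOf M (ξ₀ : _ → ℂ), ⟨ξ₀, rfl⟩, ?_⟩
  intro ξ hξ
  rw [brauerOmega_eq_W, ← hr]
  have h6 := W_sub_mem_Iloc (M := M) hξ hrc hrR
  exact sub_mem_Iloc_trans (sub_mem_Iloc_symm h6) h5

/-- the stabilizer of a block of a normal subgroup -/
def stab {M : Ideal AlgInt} [M.IsPrime] (N : Subgroup G) [hN : N.Normal] [Fintype N]
    {b : Set (IrrCharacter N)} (hb : IsPBlock M b) : Subgroup G where
  carrier := {g | ∀ θ ∈ b, cj N θ g ∈ b}
  mul_mem' := by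
    intro a c ha hc θ hθ
    rw [← cj_cj]
    exact hc _ (ha θ hθ)
  one_mem' := by
    intro θ hθ
    rw [cj_one]
    exact hθ
  inv_mem' := by
    intro a ha
    exact stab_inv N hb a⁻¹ (by rw [inv_inv]; exact ha)

theorem mem_stab {M : Ideal AlgInt} [M.IsPrime] (N : Subgroup G) [hN : N.Normal] [Fintype N]
    {b : Set (IrrCharacter N)} (hb : IsPBlock M b) (g : G) :
    g ∈ stab N hb ↔ ∀ θ ∈ b, cj N θ g ∈ b := Iff.rfl

theorem le_stab {M : Ideal AlgInt} [M.IsPrime] (N : Subgroup G) [hN : N.Normal] [Fintype N]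
    {b : Set (IrrCharacter N)} (hb : IsPBlock M b) : N ≤ stab N hb := by
  intro g hg θ hθ
  rw [cj_self N θ hg]
  exact hθ

theorem max_pair_defect {M : Ideal AlgInt} {p : ℕ} [Fact p.Prime] (hM : IsPModular p M)
    {B : Set (IrrCharacter G)} {P : Subgroup G}
    {e : Set (IrrCharacter (Subgroup.centralizer (P : Set G)))}
    (hmax : IsMaximalBrauerPair p M B P e) : IsDefectGroup p M B P := by
  classical
  haveI := hM.2.1.isPrime
  obtain ⟨hBe, hmx⟩ := hmax
  have hP : IsPGroup p P := hBe.1.1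
  have he : IsPBlock M e := hBe.1.2
  have hCN : (Subgroup.centralizer (P : Set G)) ≤ (Subgroup.normalizer (P : Set G)) := le_sup_right.trans (sup_le_normalizer P)
  haveI hCnorm : ((Subgroup.centralizer (P : Set G)).subgroupOf (Subgroup.normalizer (P : Set G))).Normal :=
    Subgroup.normal_subgroupOf_of_le_normalizer (fun g hg => mem_normalizer_centralizer hg)
  have he₁ := trSet_isPBlock (M := M) (Subgroup.subgroupOfEquivOfLe hCN) he
  haveI hPnorm : (P.subgroupOf (Subgroup.normalizer (P : Set G))).Normal := Subgroup.normal_in_normalizer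
  have hP₁ : IsPGroup p (P.subgroupOf (Subgroup.normalizer (P : Set G))) := hP.comap_subtype
  have hout₁ : ∀ y, y ∉ (Subgroup.centralizer (P : Set G)).subgroupOf (Subgroup.normalizer (P : Set G)) → ∀ χ : IrrCharacter (Subgroup.normalizer (P : Set G)), centralChar (χ : (Subgroup.normalizer (P : Set G)) → ℂ) y ∈ Iloc M :=
    fun y hy χ => centralChar_mem_Iloc_of_normal' hM (P.subgroupOf (Subgroup.normalizer (P : Set G))) hP₁ y (fun h => hy
      (Subgroup.mem_subgroupOf.mpr ((mem_cent_sub Subgroup.le_normalizer y).mp h))) χ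
  obtain ⟨β, hβ, hcov⟩ := exists_covers ((Subgroup.centralizer (P : Set G)).subgroupOf (Subgroup.normalizer (P : Set G))) he₁
  haveI := Fintype.ofFinite (stab ((Subgroup.centralizer (P : Set G)).subgroupOf (Subgroup.normalizer (P : Set G))) he₁)
  obtain ⟨E, hE, hov, hindE, hEc⟩ := exists_stab_block ((Subgroup.centralizer (P : Set G)).subgroupOf (Subgroup.normalizer (P : Set G))) (stab ((Subgroup.centralizer (P : Set G)).subgroupOf (Subgroup.normalizer (P : Set G))) he₁) (le_stab ((Subgroup.centralizer (P : Set G)).subgroupOf (Subgroup.normalizer (P : Set G))) he₁)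
    hout₁ he₁ (mem_stab ((Subgroup.centralizer (P : Set G)).subgroupOf (Subgroup.normalizer (P : Set G))) he₁) hβ hcov
  obtain ⟨D₁, hD₁⟩ := exists_defectGroup hM hE
  have hD₂ := (fr_defect ((Subgroup.centralizer (P : Set G)).subgroupOf (Subgroup.normalizer (P : Set G))) (stab ((Subgroup.centralizer (P : Set G)).subgroupOf (Subgroup.normalizer (P : Set G))) he₁) (le_stab ((Subgroup.centralizer (P : Set G)).subgroupOf (Subgroup.normalizer (P : Set G))) he₁) hM he₁ (mem_stab ((Subgroup.centralizer (P : Set G)).subgroupOf (Subgroup.normalizer (P : Set G))) he₁)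
    hE hov hindE).1 D₁ hD₁
  have hindβ := induced_of_covers ((Subgroup.centralizer (P : Set G)).subgroupOf (Subgroup.normalizer (P : Set G))) hout₁ hβ he₁ hcov
  obtain ⟨B₀, h₀⟩ := exists_induced_centralizer hM hP he
  have hBB : B = B₀ := (isBrauerPairOf_iff hM hP h₀ B).mp hBe
  have hindB : IsInducedBlock M (Subgroup.normalizer (P : Set G)) β B := by
    rw [hBB]; exact induced_trans hCN hindβ h₀
  obtain ⟨D, hDdef⟩ : ∃ D : Subgroup G,
      D = (D₁.map (stab ((Subgroup.centralizer (P : Set G)).subgroupOf (Subgroup.normalizer (P : Set G))) he₁).subtype).map ((Subgroup.normalizer (P : Set G))).subtype := ⟨_, rfl⟩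
  have hDp : IsPGroup p D := by
    rw [hDdef]; exact (isPGroup_of_isDefectGroup hD₂).map _
  have hP₁D : P.subgroupOf (Subgroup.normalizer (P : Set G)) ≤ D₁.map (stab ((Subgroup.centralizer (P : Set G)).subgroupOf (Subgroup.normalizer (P : Set G))) he₁).subtype :=
    (Cfsg.Agent.Lib.Helper1.le_pCore hPnorm hP₁).trans (Cfsg.Agent.S0912.result p M hM β hβ _ hD₂)
  have hPD : P ≤ D := by
    intro q hq
    rw [hDdef]
    exact Subgroup.mem_map.mpr ⟨⟨q, Subgroup.le_normalizer hq⟩,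
      hP₁D (Subgroup.mem_subgroupOf.mpr hq), rfl⟩
  have hDN : D ≤ (Subgroup.normalizer (P : Set G)) := by
    rw [hDdef]; rintro _ ⟨y, -, rfl⟩; exact y.2
  have hDel : ∀ q ∈ D, ∃ q₁ : stab ((Subgroup.centralizer (P : Set G)).subgroupOf (Subgroup.normalizer (P : Set G))) he₁, q₁ ∈ D₁ ∧ ((q₁ : (Subgroup.normalizer (P : Set G))) : G) = q := by
    intro q hq
    rw [hDdef] at hq
    obtain ⟨y, hy, rfl⟩ := Subgroup.mem_map.mp hq
    obtain ⟨z, hz, rfl⟩ := Subgroup.mem_map.mp hy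
    exact ⟨z, hz, rfl⟩
  have hst : ∀ q ∈ D, StabilizesBlock (Subgroup.centralizer (P : Set G)) e q := by
    intro q hq
    obtain ⟨q₁, -, rfl⟩ := hDel q hq
    refine ⟨mem_normalizer_centralizer (q₁ : (Subgroup.normalizer (P : Set G))).2, ?_⟩
    intro χ hχ
    have h1 : cj ((Subgroup.centralizer (P : Set G)).subgroupOf (Subgroup.normalizer (P : Set G))) (tr (Subgroup.subgroupOfEquivOfLe hCN) χ) (q₁ : (Subgroup.normalizer (P : Set G)))⁻¹ ∈ trSet (Subgroup.subgroupOfEquivOfLe hCN) e :=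
      (stab ((Subgroup.centralizer (P : Set G)).subgroupOf (Subgroup.normalizer (P : Set G))) he₁).inv_mem q₁.2 _ (tr_mem_trSet (Subgroup.subgroupOfEquivOfLe hCN) hχ)
    refine ⟨tr (Subgroup.subgroupOfEquivOfLe hCN).symm (cj ((Subgroup.centralizer (P : Set G)).subgroupOf (Subgroup.normalizer (P : Set G))) (tr (Subgroup.subgroupOfEquivOfLe hCN) χ) (q₁ : (Subgroup.normalizer (P : Set G)))⁻¹), h1, ?_⟩
    intro k k' hk
    rw [tr_apply, cj_apply, tr_apply]
    apply congrArg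
    apply Subtype.ext
    simp only [Subgroup.subgroupOfEquivOfLe_apply_coe, Subgroup.coe_mul, Subgroup.coe_inv, inv_inv]
    have e1 : ((((Subgroup.subgroupOfEquivOfLe hCN).symm k' : (Subgroup.centralizer (P : Set G)).subgroupOf (Subgroup.normalizer (P : Set G))) : (Subgroup.normalizer (P : Set G))) : G) = k' := rfl
    rw [e1, hk]
    group
  obtain ⟨x₁, hx₁, hx₁E⟩ := mem_centralizer_of_defectGroup hD₁
  rw [hEc] at hx₁E
  have hx₁C : (x₁ : (Subgroup.normalizer (P : Set G))) ∈ (Subgroup.centralizer (P : Set G)).subgroupOf (Subgroup.normalizer (P : Set G)) := by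
    by_contra hc
    apply hx₁E
    unfold uT
    rw [ext0_notMem _ _ hc]
    exact (Iloc M).zero_mem
  have hval : uT ((Subgroup.centralizer (P : Set G)).subgroupOf (Subgroup.normalizer (P : Set G))) (stab ((Subgroup.centralizer (P : Set G)).subgroupOf (Subgroup.normalizer (P : Set G))) he₁) (blockCoeff (trSet (Subgroup.subgroupOfEquivOfLe hCN) e)) x₁ =
      subgroupBlockCoeff (Subgroup.centralizer (P : Set G)) e ((x₁ : (Subgroup.normalizer (P : Set G))) : G) := by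
    unfold uT
    rw [ext0_mem _ _ hx₁C, blockCoeff_trSet, sBC_eq_ext0,
      ext0_mem _ _ (Subgroup.mem_subgroupOf.mp hx₁C)]
    rfl
  have hxD : ((x₁ : (Subgroup.normalizer (P : Set G))) : G) ∈ Subgroup.centralizer (D : Set G) := by
    rw [Subgroup.mem_centralizer_iff]
    intro q hq
    obtain ⟨q₁, hq₁, rfl⟩ := hDel q hq
    have := Subgroup.mem_centralizer_iff.mp hx₁ q₁ hq₁
    exact congrArg (fun t : stab ((Subgroup.centralizer (P : Set G)).subgroupOf (Subgroup.normalizer (P : Set G))) he₁ => ((t : (Subgroup.normalizer (P : Set G))) : G)) this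
  have hCC' : Subgroup.centralizer (D : Set G) ≤ (Subgroup.centralizer (P : Set G)) := Subgroup.centralizer_le hPD
  have heR := blockCoeff_mem_Rloc (M := M) e (block_closed he)
  obtain ⟨g, hg, hgom⟩ := exists_pair_above hM hDp (a := subgroupBlockCoeff (Subgroup.centralizer (P : Set G)) e)
    (fun q hq x => sBC_conj _ he (hst q hq) x)
    (by
      rw [sBC_eq_ext0]
      have h2 := rs_isClass hCC' (blockCoeff_isClass e)
      have h3 : (fun k : Subgroup.centralizer (D : Set G) => ext0 (Subgroup.centralizer (P : Set G)) (blockCoeff e) (k : G)) =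
          rs hCC' (blockCoeff e) := by
        funext k
        exact ext0_mem _ _ (hCC' k.2)
      rw [h3]
      exact h2)
    (fun x => by
      rw [sBC_eq_ext0]
      by_cases hx : x ∈ (Subgroup.centralizer (P : Set G))
      · rw [ext0_mem _ _ hx]; exact heR _
      · rw [ext0_notMem _ _ hx]; exact (Rloc M).zero_mem)
    (by rw [sBC_eq_ext0, cv_ext0, cv_blockCoeff]) hxD (by rw [← hval]; exact hx₁E)
  have hns : IsNormalSubpair p M P e D g := ⟨⟨hP, he⟩, ⟨hDp, hg⟩, hPD, hDN, hst, hgom⟩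
  have hDP : D = P := hmx D g (pair_up hM hns hBe) (Relation.ReflTransGen.single hns)
  have hD₂P : D₁.map (stab ((Subgroup.centralizer (P : Set G)).subgroupOf (Subgroup.normalizer (P : Set G))) he₁).subtype = P.subgroupOf (Subgroup.normalizer (P : Set G)) := by
    apply le_antisymm _ hP₁D
    intro y hy
    rw [Subgroup.mem_subgroupOf]
    have h9 : (y : G) ∈ D := by
      rw [hDdef]
      exact Subgroup.mem_map_of_mem _ hy
    exact hDP.le h9
  rw [hD₂P] at hD₂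
  obtain ⟨B₂, hB₂, hB₂P, hB₂ind⟩ := (Cfsg.Agent.S0920.result p M hM P hP).1 β hβ hD₂
  rw [induced_unique hindB hB₂ind]
  exact hB₂P

end Cfsg.Agent.Lib.Helper2.BlockBP2
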