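import Mathlib
import Cfsg.Prelude.Def_Blocks
import Cfsg.Agent.Lib.Helper2.BlockFong
import Cfsg.Agent.Lib.Helper2.BlockN
import Cfsg.Agent.Lib.Helper2.BlockMisc
import Cfsg.Agent.Lib.Helper2.BlockAvg
import Cfsg.Agent.Lib.Helper2.BlockCong
import Cfsg.Agent.Lib.Helper2.BlockSM7
import Cfsg.Agent.Lib.Helper2.BlockSM3
import Cfsg.Agent.Lib.Helper2.BlockPr
import Cfsg.Agent.Lib.Helper2.BlockSM5
import Cfsg.Agent.S0906
import Cfsg.Agent.Lib.Helper2.BlockInd
import Cfsg.Agent.Lib.Helper2.BlockReg3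
import Cfsg.Agent.Lib.Helper2.BlockBr
import Cfsg.Agent.S0917
import Cfsg.Agent.Lib.Helper2.BlockFR
import Cfsg.Agent.Lib.Helper2.BlockFR2
import Cfsg.Agent.Lib.Helper2.BlockExt2
import Cfsg.Agent.Lib.Helper7.BInd1
import Cfsg.Agent.Lib.Helper2.BlockFR3
import Cfsg.Agent.Lib.Helper1.Cores
import Cfsg.Agent.S0912
import Cfsg.Agent.S0920
import Cfsg.Agent.Lib.Helper2.BlockFR4
import Cfsg.Agent.Lib.Helper7.BPair3
import Cfsg.Prelude.Def_BrauerPairs
import Cfsg.Agent.Lib.Helper2.BlockBC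
import Cfsg.Agent.Lib.Helper2.BlockBP
import Cfsg.Agent.Lib.Helper2.BlockBP2
import Cfsg.Agent.Lib.Helper2.BlockFix
import Cfsg.Agent.Lib.Helper7.BPair1
import Cfsg.Agent.Lib.Helper7.BPair2

set_option autoImplicit false
set_option linter.unusedSectionVars false
set_option linter.unusedVariables false
set_option linter.style.haveILetI false

/-! Miscellaneous consequences of the block library. -/

namespace Cfsg.Agent.Lib.Helper2.BlockBP3

open Cfsg Cfsg.Agent.Lib.Helper7.CharIrr Cfsg.Agent.Lib.Helper7.CharOrth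
  Cfsg.Agent.Lib.Helper7.CharIntegral Cfsg.Agent.Lib.Helper7.CharMore
  Cfsg.Agent.Lib.Helper7.CharClassAlg Cfsg.Agent.Lib.Helper7.CharComplete
  Cfsg.Agent.Lib.Helper7.CharDeg Cfsg.Agent.Lib.Helper7.CharGalois
  Cfsg.Agent.Lib.Helper7.CharClassAlg2 Cfsg.Agent.Lib.Helper7.CharBurnside
  Cfsg.Agent.Lib.Helper7.CharNormal Cfsg.Agent.Lib.Helper7.CharClifford
  Cfsg.Agent.Lib.Helper7.CharInd Cfsg.Agent.Lib.Helper7.CharMisc
  Cfsg.Agent.Lib.Helper2.LocRing
  Cfsg.Agent.Lib.Helper2.BlockZ Cfsg.Agent.Lib.Helper2.BlockDef Cfsg.Agent.Lib.Helper2.BlockOrth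
  Cfsg.Agent.Lib.Helper2.BlockSM4 Cfsg.Agent.Lib.Helper2.BlockSub Cfsg.Agent.Lib.Helper2.BlockBr2
  Cfsg.Agent.Lib.Helper2.BlockCov Cfsg.Agent.Lib.Helper2.BlockKer
  Cfsg.Agent.Lib.Helper2.BlockCov2 Cfsg.Agent.Lib.Helper2.BlockLam
  Cfsg.Agent.Lib.Helper2.BlockFMT Cfsg.Agent.Lib.Helper2.BlockGr3
  Cfsg.Agent.Lib.Helper2.BlockFong Cfsg.Agent.Lib.Helper2.BlockN
  Cfsg.Agent.Lib.Helper2.BlockMisc Cfsg.Agent.Lib.Helper2.BlockAvg Cfsg.Agent.Lib.Helper2.BlockCong
  Cfsg.Agent.Lib.Helper2.BlockSM7 Cfsg.Agent.Lib.Helper2.BlockSM3 Cfsg.Agent.Lib.Helper2.BlockPr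
  Cfsg.Agent.Lib.Helper2.BlockSM5 Cfsg.Agent.Lib.Helper2.BlockInd Cfsg.Agent.Lib.Helper2.BlockReg
  Cfsg.Agent.Lib.Helper2.BlockReg2 Cfsg.Agent.Lib.Helper2.BlockReg3 Cfsg.Agent.Lib.Helper2.BlockBr
  Cfsg.Agent.Lib.Helper2.BlockFR Cfsg.Agent.Lib.Helper2.BlockFR2 Cfsg.Agent.Lib.Helper2.BlockExt
  Cfsg.Agent.Lib.Helper2.BlockFR3 Cfsg.Agent.Lib.Helper2.BlockExt2
open Cfsg.Agent.Lib.Helper2.BlockBC Cfsg.Agent.Lib.Helper2.BlockFix Cfsg.Agent.Lib.Helper2.BlockBP Cfsg.Agent.Lib.Helper2.BlockFR4 Cfsg.Agent.Lib.Helper2.BlockBP2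
open Cfsg.Agent.Lib.Helper7.BPair1 (brauerOmega_eq_W br_centralizer exists_induced_centralizer isBrauerPairOf_iff)
open Cfsg.Agent.Lib.Helper7.BPair2 (conjEquiv mem_normalizer_centralizer)
open scoped ComplexConjugate

variable {G : Type*} [Group G] [Fintype G]

open Cfsg.Agent.Lib.Helper7.BInd1 (trSet tr_mem_trSet trSet_isPBlock blockDefect_trSet induced_trans)





theorem card_modEq_fixed_action {p : ℕ} [Fact p.Prime] {P : Type*} [Group P] [Finite P]
    (hP : IsPGroup p P) {X : Type*} [Finite X] [MulAction P X] (S : Set X)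
    (hS : ∀ (q : P), ∀ x ∈ S, q • x ∈ S) :
    Nat.card S ≡ Nat.card {x : X // x ∈ S ∧ x ∈ MulAction.fixedPoints P X} [MOD p] := by
  letI : MulAction P S :=
    { smul := fun q x => ⟨q • (x : X), hS q x x.2⟩
      one_smul := fun x => Subtype.ext (one_smul P (x : X))
      mul_smul := fun a b x => Subtype.ext (mul_smul a b (x : X)) }
  have hsm : ∀ (q : P) (x : S), ((q • x : S) : X) = q • (x : X) := fun _ _ => rfl
  have h1 := hP.card_modEq_card_fixedPoints S
  have e : MulAction.fixedPoints P S ≃ {x : X // x ∈ S ∧ x ∈ MulAction.fixedPoints P X} :=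
    { toFun := fun x => ⟨x.1.1, x.1.2, fun q => by
        have h2 := congrArg Subtype.val (x.2 q)
        rw [hsm] at h2
        exact h2⟩
      invFun := fun y => ⟨⟨y.1, y.2.1⟩, fun q => Subtype.ext (by
        rw [hsm]
        exact y.2.2 q)⟩
      left_inv := fun x => rfl
      right_inv := fun y => rfl }
  rw [Nat.card_congr e] at h1
  exact h1

theorem sum_fixed_action {M : Ideal AlgInt} {p : ℕ} (hM : IsPModular p M) {P : Type*} [Group P]
    [Finite P] (hP : IsPGroup p P) {X : Type*} [Fintype X] [MulAction P X] (f : X → ℂ)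
    (hf : haveI := hM.2.1.isPrime; ∀ x, f x ∈ Rloc M)
    (hinv : ∀ (q : P) (x : X), f (q • x) = f x)
    [DecidablePred fun x : X => x ∈ MulAction.fixedPoints P X] :
    haveI := hM.2.1.isPrime
    (∑ x, f x) - ∑ x, (if x ∈ MulAction.fixedPoints P X then f x else 0) ∈ Iloc M := by
  classical
  haveI := hM.2.1.isPrime
  haveI : Fact p.Prime := ⟨hM.1⟩
  obtain ⟨t, ht⟩ : ∃ t : Finset ℂ, t = Finset.univ.image f := ⟨_, rfl⟩
  have hmt : ∀ x : X, f x ∈ t := fun x => by
    rw [ht]; exact Finset.mem_image_of_mem f (Finset.mem_univ x)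
  have h1 : ∑ x, f x = ∑ c ∈ t, ∑ x ∈ Finset.univ.filter (fun x => f x = c), f x :=
    (Finset.sum_fiberwise_of_maps_to (fun x _ => hmt x) f).symm
  have h2 : ∑ x, (if x ∈ MulAction.fixedPoints P X then f x else 0) =
      ∑ c ∈ t, ∑ x ∈ (Finset.univ.filter (fun x => x ∈ MulAction.fixedPoints P X)).filter
        (fun x => f x = c), f x := by
    rw [← Finset.sum_filter]
    exact (Finset.sum_fiberwise_of_maps_to (fun x _ => hmt x) f).symm
  rw [h1, h2, ← Finset.sum_sub_distrib]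
  apply Submodule.sum_mem
  intro c hc
  rw [ht] at hc
  obtain ⟨x₀, _, hx₀⟩ := Finset.mem_image.mp hc
  have hcR : c ∈ Rloc M := hx₀ ▸ hf x₀
  have h3 : ∑ x ∈ Finset.univ.filter (fun x => f x = c), f x =
      ((Finset.univ.filter (fun x => f x = c)).card : ℂ) * c := by
    rw [Finset.sum_congr rfl (fun x hx => (Finset.mem_filter.mp hx).2), Finset.sum_const,
      nsmul_eq_mul]
  have h4 : ∑ x ∈ (Finset.univ.filter (fun x => x ∈ MulAction.fixedPoints P X)).filter
        (fun x => f x = c), f x =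
      (((Finset.univ.filter (fun x => x ∈ MulAction.fixedPoints P X)).filter
        (fun x => f x = c)).card : ℂ) * c := by
    rw [Finset.sum_congr rfl (fun x hx => (Finset.mem_filter.mp hx).2), Finset.sum_const,
      nsmul_eq_mul]
  rw [h3, h4, ← sub_mul]
  apply mul_mem_Iloc' _ hcR
  apply natCast_sub_mem_Iloc hM
  have h5 := card_modEq_fixed_action (p := p) hP {x : X | f x = c} (by
    intro q x hx
    change f (q • x) = c
    rw [hinv q x]
    exact hx)
  have h6 : Nat.card ({x | f x = c} : Set X) = (Finset.univ.filter (fun x => f x = c)).card := by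
    rw [Nat.card_eq_fintype_card, Fintype.card_subtype]
    rfl
  have h7 : Nat.card {x : X // x ∈ ({x | f x = c} : Set X) ∧ x ∈ MulAction.fixedPoints P X} =
      ((Finset.univ.filter (fun x => x ∈ MulAction.fixedPoints P X)).filter
        (fun x => f x = c)).card := by
    rw [Nat.card_eq_fintype_card, Fintype.card_subtype]
    congr 1
    ext x
    simp [and_comm]
  rw [h6, h7] at h5
  exact h5

/-- functions on `G` to which the Brauer map at `D` applies, and which are idempotent -/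
def Good (M : Ideal AlgInt) (D : Subgroup G) (a : G → ℂ) : Prop :=
  (∀ q ∈ D, ∀ x, a (q * x * q⁻¹) = a x) ∧
  IsClassFunction (Subgroup.centralizer (D : Set G))
    (fun k : Subgroup.centralizer (D : Set G) => a (k : G)) ∧
  (∀ x, MemLocalRing M (a x)) ∧ cv a a = a

theorem ext0_mem_Rloc {M : Ideal AlgInt} [M.IsPrime] (K : Subgroup G) {u : K → ℂ}
    (hu : ∀ k, u k ∈ Rloc M) (x : G) : ext0 K u x ∈ Rloc M := by
  by_cases hx : x ∈ K
  · rw [ext0_mem _ _ hx]; exact hu _
  · rw [ext0_notMem _ _ hx]; exact (Rloc M).zero_mem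

theorem good_sBC {M : Ideal AlgInt} [M.IsPrime] {Q D : Subgroup G} (hQD : Q ≤ D)
    {f : Set (IrrCharacter (Subgroup.centralizer (Q : Set G)))} (hf : IsPBlock M f)
    (hst : ∀ x ∈ D, StabilizesBlock (Subgroup.centralizer (Q : Set G)) f x) :
    Good M D (subgroupBlockCoeff (Subgroup.centralizer (Q : Set G)) f) := by
  classical
  have hCC : Subgroup.centralizer (D : Set G) ≤ Subgroup.centralizer (Q : Set G) :=
    Subgroup.centralizer_le hQD
  refine ⟨fun q hq x => sBC_conj _ hf (hst q hq) x, ?_, ?_, ?_⟩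
  · rw [sBC_eq_ext0]
    have h3 : (fun k : Subgroup.centralizer (D : Set G) =>
        ext0 (Subgroup.centralizer (Q : Set G)) (blockCoeff f) (k : G)) =
        rs hCC (blockCoeff f) := by
      funext k
      exact ext0_mem _ _ (hCC k.2)
    rw [h3]
    exact rs_isClass hCC (blockCoeff_isClass f)
  · intro x
    rw [sBC_eq_ext0]
    exact ext0_mem_Rloc _ (blockCoeff_mem_Rloc (M := M) f (block_closed hf)) x
  · rw [sBC_eq_ext0, cv_ext0, cv_blockCoeff]

theorem om_mul {M : Ideal AlgInt} {p : ℕ} [Fact p.Prime] (hM : IsPModular p M)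
    {D : Subgroup G} (hD : IsPGroup p D) {a b : G → ℂ}
    (ha1 : ∀ q ∈ D, ∀ x, a (q * x * q⁻¹) = a x)
    (ha2 : IsClassFunction (Subgroup.centralizer (D : Set G))
      (fun k : Subgroup.centralizer (D : Set G) => a (k : G)))
    (ha3 : ∀ x, MemLocalRing M (a x))
    (hb1 : ∀ q ∈ D, ∀ x, b (q * x * q⁻¹) = b x)
    (hb2 : IsClassFunction (Subgroup.centralizer (D : Set G))
      (fun k : Subgroup.centralizer (D : Set G) => b (k : G)))
    (hb3 : ∀ x, MemLocalRing M (b x))
    (hab : IsClassFunction (Subgroup.centralizer (D : Set G))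
      (fun k : Subgroup.centralizer (D : Set G) => cv a b (k : G)))
    (ξ : IrrCharacter (Subgroup.centralizer (D : Set G))) :
    MemLocalIdeal M (brauerOmega D (cv a b) (ξ : _ → ℂ) -
      brauerOmega D a (ξ : _ → ℂ) * brauerOmega D b (ξ : _ → ℂ)) := by
  classical
  haveI := hM.2.1.isPrime
  rw [brauerOmega_eq_W, brauerOmega_eq_W, brauerOmega_eq_W, ← W_cv ξ.2 ha2, ← W_sub]
  apply W_mem_Iloc ξ (isClassFunction_sub hab (cv_isClass ha2 hb2))
  intro k
  have h1 := br_cv' hM hD (H := Subgroup.centralizer (D : Set G)) le_rfl ha1 hb1 ha3 hb3 k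
  rw [br_centralizer, br_centralizer, br_centralizer] at h1
  exact h1

theorem dichotomy {M : Ideal AlgInt} {p : ℕ} [Fact p.Prime] (hM : IsPModular p M)
    {D : Subgroup G} (hD : IsPGroup p D) {a : G → ℂ} (ha : Good M D a)
    (ξ : IrrCharacter (Subgroup.centralizer (D : Set G))) :
    MemLocalIdeal M (brauerOmega D a (ξ : _ → ℂ)) ∨
      MemLocalIdeal M (brauerOmega D a (ξ : _ → ℂ) - 1) := by
  classical
  haveI := hM.2.1.isPrime
  obtain ⟨h1, h2, h3, h4⟩ := ha
  have h5 := om_mul hM hD h1 h2 h3 h1 h2 h3 (by rw [h4]; exact h2) ξ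
  rw [h4] at h5
  have hWR : brauerOmega D a (ξ : _ → ℂ) ∈ Rloc M := by
    rw [brauerOmega_eq_W]; exact W_mem_Rloc ξ h2 (fun k => h3 _)
  have h6 : brauerOmega D a (ξ : _ → ℂ) * (brauerOmega D a (ξ : _ → ℂ) - 1) ∈ Iloc M := by
    have h7 : brauerOmega D a (ξ : _ → ℂ) * (brauerOmega D a (ξ : _ → ℂ) - 1) =
        -(brauerOmega D a (ξ : _ → ℂ) -
          brauerOmega D a (ξ : _ → ℂ) * brauerOmega D a (ξ : _ → ℂ)) := by ring
    rw [h7]
    exact (Iloc M).neg_mem h5
  exact mem_or_mem_of_mul_mem_Iloc hWR h6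

theorem om_congr {M : Ideal AlgInt} [M.IsPrime] {D : Subgroup G} {a : G → ℂ}
    (h2 : IsClassFunction (Subgroup.centralizer (D : Set G))
      (fun k : Subgroup.centralizer (D : Set G) => a (k : G)))
    (h3 : ∀ x, MemLocalRing M (a x))
    {e : Set (IrrCharacter (Subgroup.centralizer (D : Set G)))} (he : IsPBlock M e)
    {ξ ξ' : IrrCharacter (Subgroup.centralizer (D : Set G))} (hξ : ξ ∈ e) (hξ' : ξ' ∈ e) :
    MemLocalIdeal M (brauerOmega D a (ξ : _ → ℂ) - brauerOmega D a (ξ' : _ → ℂ)) := by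
  classical
  rw [brauerOmega_eq_W, brauerOmega_eq_W]
  exact W_sub_mem_Iloc (sameBlock_of_mem he hξ hξ') h2 (fun k => h3 _)

theorem trSet_conj_one (K : Subgroup G) [Fintype K]
    (h1 : (1 : G) ∈ Subgroup.normalizer (K : Set G)) (f : Set (IrrCharacter K)) :
    trSet (conjEquiv K 1 h1) f = f := by
  ext θ
  change tr (conjEquiv K 1 h1).symm θ ∈ f ↔ θ ∈ f
  have h : tr (conjEquiv K 1 h1).symm θ = θ := by
    apply Subtype.ext
    funext k
    rw [tr_apply]
    apply congrArg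
    apply Subtype.ext
    change (1 : G) * k * (1 : G)⁻¹ = k
    simp
  rw [h]

theorem trSet_conj_mul (K : Subgroup G) [Fintype K] (a b : G)
    (ha : a ∈ Subgroup.normalizer (K : Set G)) (hb : b ∈ Subgroup.normalizer (K : Set G))
    (hab : a * b ∈ Subgroup.normalizer (K : Set G)) (f : Set (IrrCharacter K)) :
    trSet (conjEquiv K (a * b) hab) f = trSet (conjEquiv K a ha) (trSet (conjEquiv K b hb) f) := by
  ext θ
  change tr (conjEquiv K (a * b) hab).symm θ ∈ f ↔
    tr (conjEquiv K b hb).symm (tr (conjEquiv K a ha).symm θ) ∈ f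
  have h : tr (conjEquiv K (a * b) hab).symm θ =
      tr (conjEquiv K b hb).symm (tr (conjEquiv K a ha).symm θ) := by
    apply Subtype.ext
    funext k
    rw [tr_apply, tr_apply, tr_apply]
    apply congrArg
    apply Subtype.ext
    change (a * b) * k * (a * b)⁻¹ = a * (b * k * b⁻¹) * a⁻¹
    group
  rw [h]

/-- the action of a normalizing subgroup on the blocks of `K` -/
@[reducible] def blAct (M : Ideal AlgInt) [M.IsPrime] (K : Subgroup G) [Fintype K] (P : Subgroup G)
    (hn : ∀ q ∈ P, q ∈ Subgroup.normalizer (K : Set G)) :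
    MulAction P {f : Set (IrrCharacter K) // IsPBlock M f} where
  smul q f := ⟨trSet (conjEquiv K q (hn q q.2)) f.1, trSet_isPBlock _ f.2⟩
  one_smul f := Subtype.ext (trSet_conj_one K _ f.1)
  mul_smul a b f := Subtype.ext (trSet_conj_mul K a b _ _ _ f.1)

theorem stabilizes_of_trSet_eq (K : Subgroup G) [Fintype K] {q : G}
    (hq : q ∈ Subgroup.normalizer (K : Set G)) {f : Set (IrrCharacter K)}
    (h : trSet (conjEquiv K q hq) f = f) : StabilizesBlock K f q := by
  refine ⟨hq, ?_⟩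
  intro χ hχ
  refine ⟨tr (conjEquiv K q hq) χ, ?_, ?_⟩
  · have := tr_mem_trSet (conjEquiv K q hq) hχ
    rwa [h] at this
  · intro k k' hk
    rw [tr_apply]
    have h3 : conjEquiv K q hq k' = k := by
      apply Subtype.ext
      change q⁻¹ * (k' : G) * q = k
      rw [hk]
      group
    rw [h3]

theorem sum_blocks_eq_dl {M : Ideal AlgInt} [M.IsPrime]
    [Fintype {f : Set (IrrCharacter G) // IsPBlock M f}] :
    ∑ x : {f : Set (IrrCharacter G) // IsPBlock M f}, blockCoeff x.1 = (dl : G → ℂ) := by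
  classical
  haveI := Fintype.ofFinite (IrrCharacter G)
  rw [dl_eq_sum_blocks (M := M)]
  symm
  apply Finset.sum_subtype
  intro B
  rw [Finset.mem_image]
  constructor
  · rintro ⟨χ, -, rfl⟩
    exact ⟨χ, rfl⟩
  · rintro ⟨χ, rfl⟩
    exact ⟨χ, Finset.mem_univ _, rfl⟩

theorem normal_subpair_exists {M : Ideal AlgInt} {p : ℕ} [Fact p.Prime] (hM : IsPModular p M)
    {P Q : Subgroup G} {e : Set (IrrCharacter (Subgroup.centralizer (P : Set G)))}
    (hPe : IsBrauerPair p M P e) (hQP : Q ≤ P) (hPN : P ≤ Subgroup.normalizer (Q : Set G)) :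
    ∃ f : Set (IrrCharacter (Subgroup.centralizer (Q : Set G))), IsNormalSubpair p M Q f P e := by
  classical
  haveI := hM.2.1.isPrime
  obtain ⟨hP, he⟩ := hPe
  have hQ : IsPGroup p Q := hP.to_le hQP
  have hCC : Subgroup.centralizer (P : Set G) ≤ Subgroup.centralizer (Q : Set G) :=
    Subgroup.centralizer_le hQP
  have hn : ∀ q ∈ P, q ∈ Subgroup.normalizer
      ((Subgroup.centralizer (Q : Set G) : Subgroup G) : Set G) :=
    fun q hq => mem_normalizer_centralizer (hPN hq)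
  obtain ⟨ξ₀, hξ₀⟩ := block_nonempty he
  haveI := Fintype.ofFinite
    {f : Set (IrrCharacter (Subgroup.centralizer (Q : Set G))) // IsPBlock M f}
  letI := blAct M (Subgroup.centralizer (Q : Set G)) P hn
  obtain ⟨F, hF⟩ : ∃ F : {f : Set (IrrCharacter (Subgroup.centralizer (Q : Set G))) //
      IsPBlock M f} → ℂ, F = fun x => W (ξ₀ : _ → ℂ) (rs hCC (blockCoeff x.1)) := ⟨_, rfl⟩
  have hFR : ∀ x, F x ∈ Rloc M := by
    intro x
    rw [hF]
    exact W_mem_Rloc ξ₀ (rs_isClass hCC (blockCoeff_isClass _))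
      (fun k => blockCoeff_mem_Rloc _ (block_closed x.2) _)
  have hFinv : ∀ (q : P) (x : {f : Set (IrrCharacter (Subgroup.centralizer (Q : Set G))) //
      IsPBlock M f}), F (q • x) = F x := by
    intro q x
    have hsm : (q • x).1 = trSet (conjEquiv (Subgroup.centralizer (Q : Set G)) (q : G)
        (hn q q.2)) x.1 := rfl
    have h8 : rs hCC (blockCoeff (q • x).1) = rs hCC (blockCoeff x.1) := by
      rw [hsm]
      funext k
      unfold rs
      rw [blockCoeff_trSet]
      apply congrArg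
      apply Subtype.ext
      change (q : G)⁻¹ * (k : G) * (q : G) = (k : G)
      have h5 := Subgroup.mem_centralizer_iff.mp k.2 q q.2
      rw [mul_assoc, ← h5]
      group
    rw [hF]
    simp only
    rw [h8]
  have hsum : ∑ x, F x = 1 := by
    rw [hF, ← W_sum]
    have h6 : ∑ x : {f : Set (IrrCharacter (Subgroup.centralizer (Q : Set G))) // IsPBlock M f},
        rs hCC (blockCoeff x.1) = dl := by
      funext k
      rw [Finset.sum_apply]
      have h1 := congrFun (sum_blocks_eq_dl (G := Subgroup.centralizer (Q : Set G)) (M := M))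
        ⟨k, hCC k.2⟩
      rw [Finset.sum_apply] at h1
      change ∑ x : {f : Set (IrrCharacter (Subgroup.centralizer (Q : Set G))) // IsPBlock M f},
        blockCoeff x.1 ⟨k, hCC k.2⟩ = _
      rw [h1]
      unfold dl
      by_cases hk : k = 1
      · subst hk
        rw [if_pos rfl]
        exact if_pos (Subtype.ext rfl)
      · rw [if_neg hk, if_neg]
        intro h7
        have h9 : (k : G) = 1 := congrArg (fun t : Subgroup.centralizer (Q : Set G) => (t : G)) h7
        exact hk (Subtype.ext h9)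
    rw [h6, W_dl (Cfsg.Agent.Lib.Helper2.BlockKer.irr_one_ne_zero ξ₀.2)]
  have h1 := sum_fixed_action hM (P := P) hP F hFR hFinv
  rw [hsum] at h1
  have hex : ∃ x, x ∈ MulAction.fixedPoints P
      {f : Set (IrrCharacter (Subgroup.centralizer (Q : Set G))) // IsPBlock M f} ∧
      F x ∉ Iloc M := by
    by_contra hcon
    push Not at hcon
    have h2 : ∑ x, (if x ∈ MulAction.fixedPoints P
        {f : Set (IrrCharacter (Subgroup.centralizer (Q : Set G))) // IsPBlock M f}
        then F x else 0) ∈ Iloc M := by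
      apply Submodule.sum_mem
      intro x _
      split_ifs with h
      · exact hcon x h
      · exact (Iloc M).zero_mem
    apply one_notMem_Iloc (M := M)
    have h3 := (Iloc M).add_mem h1 h2
    simpa using h3
  obtain ⟨x, hxfix, hxF⟩ := hex
  have hst : ∀ q ∈ P, StabilizesBlock (Subgroup.centralizer (Q : Set G)) x.1 q :=
    fun q hq => stabilizes_of_trSet_eq _ (hn q hq) (congrArg Subtype.val (hxfix ⟨q, hq⟩))
  have hgood := good_sBC hQP x.2 hst
  have hΩ : brauerOmega P (subgroupBlockCoeff (Subgroup.centralizer (Q : Set G)) x.1)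
      (ξ₀ : _ → ℂ) = F x := by
    rw [brauerOmega_eq_W, hF, sBC_eq_ext0]
    simp only
    congr 1
    funext k
    exact ext0_mem _ _ (hCC k.2)
  refine ⟨x.1, ⟨hQ, x.2⟩, ⟨hP, he⟩, hQP, hPN, hst, ?_⟩
  intro ξ hξ
  rcases dichotomy hM hP hgood ξ₀ with h | h
  · rw [hΩ] at h
    exact absurd h hxF
  · exact sub_mem_Iloc_trans (om_congr hgood.2.1 hgood.2.2.1 he hξ hξ₀) h

theorem normal_subpair_unique {M : Ideal AlgInt} {p : ℕ} [Fact p.Prime] (hM : IsPModular p M)
    {P Q : Subgroup G} {e : Set (IrrCharacter (Subgroup.centralizer (P : Set G)))}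
    {f f' : Set (IrrCharacter (Subgroup.centralizer (Q : Set G)))}
    (h : IsNormalSubpair p M Q f P e) (h' : IsNormalSubpair p M Q f' P e) : f = f' := by
  classical
  haveI := hM.2.1.isPrime
  by_contra hne
  obtain ⟨⟨hQ, hf⟩, ⟨hP, he⟩, hQP, hPN, hst, hom⟩ := h
  obtain ⟨⟨-, hf'⟩, -, -, -, hst', hom'⟩ := h'
  obtain ⟨ξ, hξ⟩ := block_nonempty he
  have g1 := good_sBC hQP hf hst
  have g2 := good_sBC hQP hf' hst'
  have hz : cv (subgroupBlockCoeff (Subgroup.centralizer (Q : Set G)) f)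
      (subgroupBlockCoeff (Subgroup.centralizer (Q : Set G)) f') = 0 := by
    rw [sBC_eq_ext0, sBC_eq_ext0, cv_ext0, cv_blockCoeff_ne hf hf' hne]
    funext x
    by_cases hx : x ∈ Subgroup.centralizer (Q : Set G)
    · rw [ext0_mem _ _ hx]; rfl
    · rw [ext0_notMem _ _ hx]; rfl
  have h1 := om_mul hM hP g1.1 g1.2.1 g1.2.2.1 g2.1 g2.2.1 g2.2.2.1
    (by rw [hz]; intro g h; rfl) ξ
  rw [hz] at h1
  have h0 : brauerOmega P (0 : G → ℂ) (ξ : _ → ℂ) = 0 := by
    rw [brauerOmega_eq_W]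
    exact W_zero _
  rw [h0, zero_sub] at h1
  have a1 := hom ξ hξ
  have a2 := hom' ξ hξ
  have hR' : brauerOmega P (subgroupBlockCoeff (Subgroup.centralizer (Q : Set G)) f')
      (ξ : _ → ℂ) ∈ Rloc M := by
    rw [brauerOmega_eq_W]; exact W_mem_Rloc ξ g2.2.1 (fun k => g2.2.2.1 _)
  apply one_notMem_Iloc (M := M)
  have h2 := mul_mem_Iloc' (M := M) a1 hR'
  have h3 : (1 : ℂ) = -(-(brauerOmega P (subgroupBlockCoeff (Subgroup.centralizer (Q : Set G)) f)
      (ξ : _ → ℂ) * brauerOmega P (subgroupBlockCoeff (Subgroup.centralizer (Q : Set G)) f')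
      (ξ : _ → ℂ))) - (brauerOmega P (subgroupBlockCoeff (Subgroup.centralizer (Q : Set G)) f)
      (ξ : _ → ℂ) - 1) * brauerOmega P (subgroupBlockCoeff (Subgroup.centralizer (Q : Set G)) f')
      (ξ : _ → ℂ) - (brauerOmega P (subgroupBlockCoeff (Subgroup.centralizer (Q : Set G)) f')
      (ξ : _ → ℂ) - 1) := by ring
  rw [h3]
  exact (Iloc M).sub_mem ((Iloc M).sub_mem ((Iloc M).neg_mem h1) h2) a2

end Cfsg.Agent.Lib.Helper2.BlockBP3
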