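import Mathlib
import Cfsg.Prelude.Def_Blocks
import Cfsg.Agent.Lib.Helper2.BlockFong
import Cfsg.Agent.Lib.Helper2.BlockN
import Cfsg.Agent.Lib.Helper2.BlockMisc
import Cfsg.Agent.Lib.Helper2.BlockAvg
import Cfsg.Agent.Lib.Helper2.BlockCong
import Cfsg.Agent.Lib.Helper2.BlockSM7
import Cfsg.Agent.Lib.Helper2.BlockSM3
import Cfsg.Agent.Lib.Helper2.BlockPr
import Cfsg.Agent.Lib.Helper2.BlockSM5
import Cfsg.Agent.S0906
import Cfsg.Agent.Lib.Helper2.BlockInd
import Cfsg.Agent.Lib.Helper2.BlockReg3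
import Cfsg.Agent.Lib.Helper2.BlockBr
import Cfsg.Agent.S0917
import Cfsg.Agent.Lib.Helper2.BlockFR
import Cfsg.Agent.Lib.Helper2.BlockFR2
import Cfsg.Agent.Lib.Helper2.BlockExt2
import Cfsg.Agent.Lib.Helper7.BInd1
import Cfsg.Agent.Lib.Helper2.BlockFR3
import Cfsg.Agent.Lib.Helper1.Cores
import Cfsg.Agent.S0912
import Cfsg.Agent.S0920
import Cfsg.Agent.Lib.Helper2.BlockFR4
import Cfsg.Agent.Lib.Helper7.BPair3
import Cfsg.Prelude.Def_BrauerPairs
import Cfsg.Agent.Lib.Helper2.BlockBC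
import Cfsg.Agent.Lib.Helper2.BlockBP
import Cfsg.Agent.Lib.Helper2.BlockBP2
import Cfsg.Agent.Lib.Helper2.BlockBP3
import Cfsg.Agent.Lib.Helper7.BPair4
import Cfsg.Agent.Lib.Helper2.BlockFix
import Cfsg.Agent.Lib.Helper7.BPair1
import Cfsg.Agent.Lib.Helper7.BPair2

set_option autoImplicit false
set_option linter.unusedSectionVars false
set_option linter.unusedVariables false
set_option linter.style.haveILetI false

/-! Miscellaneous consequences of the block library. -/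

namespace Cfsg.Agent.Lib.Helper2.BlockBP4

open Cfsg Cfsg.Agent.Lib.Helper7.CharIrr Cfsg.Agent.Lib.Helper7.CharOrth
  Cfsg.Agent.Lib.Helper7.CharIntegral Cfsg.Agent.Lib.Helper7.CharMore
  Cfsg.Agent.Lib.Helper7.CharClassAlg Cfsg.Agent.Lib.Helper7.CharComplete
  Cfsg.Agent.Lib.Helper7.CharDeg Cfsg.Agent.Lib.Helper7.CharGalois
  Cfsg.Agent.Lib.Helper7.CharClassAlg2 Cfsg.Agent.Lib.Helper7.CharBurnside
  Cfsg.Agent.Lib.Helper7.CharNormal Cfsg.Agent.Lib.Helper7.CharClifford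
  Cfsg.Agent.Lib.Helper7.CharInd Cfsg.Agent.Lib.Helper7.CharMisc
  Cfsg.Agent.Lib.Helper2.LocRing
  Cfsg.Agent.Lib.Helper2.BlockZ Cfsg.Agent.Lib.Helper2.BlockDef Cfsg.Agent.Lib.Helper2.BlockOrth
  Cfsg.Agent.Lib.Helper2.BlockSM4 Cfsg.Agent.Lib.Helper2.BlockSub Cfsg.Agent.Lib.Helper2.BlockBr2
  Cfsg.Agent.Lib.Helper2.BlockCov Cfsg.Agent.Lib.Helper2.BlockKer
  Cfsg.Agent.Lib.Helper2.BlockCov2 Cfsg.Agent.Lib.Helper2.BlockLam
  Cfsg.Agent.Lib.Helper2.BlockFMT Cfsg.Agent.Lib.Helper2.BlockGr3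
  Cfsg.Agent.Lib.Helper2.BlockFong Cfsg.Agent.Lib.Helper2.BlockN
  Cfsg.Agent.Lib.Helper2.BlockMisc Cfsg.Agent.Lib.Helper2.BlockAvg Cfsg.Agent.Lib.Helper2.BlockCong
  Cfsg.Agent.Lib.Helper2.BlockSM7 Cfsg.Agent.Lib.Helper2.BlockSM3 Cfsg.Agent.Lib.Helper2.BlockPr
  Cfsg.Agent.Lib.Helper2.BlockSM5 Cfsg.Agent.Lib.Helper2.BlockInd Cfsg.Agent.Lib.Helper2.BlockReg
  Cfsg.Agent.Lib.Helper2.BlockReg2 Cfsg.Agent.Lib.Helper2.BlockReg3 Cfsg.Agent.Lib.Helper2.BlockBr
  Cfsg.Agent.Lib.Helper2.BlockFR Cfsg.Agent.Lib.Helper2.BlockFR2 Cfsg.Agent.Lib.Helper2.BlockExt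
  Cfsg.Agent.Lib.Helper2.BlockFR3 Cfsg.Agent.Lib.Helper2.BlockExt2
open Cfsg.Agent.Lib.Helper2.BlockBC Cfsg.Agent.Lib.Helper2.BlockFix Cfsg.Agent.Lib.Helper2.BlockBP Cfsg.Agent.Lib.Helper2.BlockFR4 Cfsg.Agent.Lib.Helper2.BlockBP2 Cfsg.Agent.Lib.Helper2.BlockBP3
open Cfsg.Agent.Lib.Helper7.BPair1 (brauerOmega_eq_W br_centralizer exists_induced_centralizer isBrauerPairOf_iff)
open Cfsg.Agent.Lib.Helper7.BPair2 (conjEquiv mem_normalizer_centralizer)
open Cfsg.Agent.Lib.Helper7.BPair4 (exists_normalizer_gt le_of_subpairLE)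
open scoped ComplexConjugate

variable {G : Type*} [Group G] [Fintype G]

open Cfsg.Agent.Lib.Helper7.BInd1 (trSet tr_mem_trSet trSet_isPBlock blockDefect_trSet induced_trans)






theorem cv_blockCoeff_zero {M : Ideal AlgInt} [M.IsPrime] {u : G → ℂ} (hu : IsClassFunction G u)
    (hu' : ∀ g, u g ∈ Rloc M) (hid : ∀ g, cv u u g - u g ∈ Iloc M)
    (f : Set (IrrCharacter G)) (hf : IsPBlock M f)
    (hW : ∀ η ∈ f, W (η : G → ℂ) u ∈ Iloc M) :
    ∀ g, cv u (blockCoeff f) g ∈ Iloc M := by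
  classical
  have hfc := blockCoeff_isClass f
  have hf' := blockCoeff_mem_Rloc (M := M) f (block_closed hf)
  have hcuu : IsClassFunction G (cv u u - u) := isClassFunction_sub (cv_isClass hu hu) hu
  apply idem_mem_Iloc (M := M) (cv_isClass hu hfc) (cv_mem_Rloc hu' hf')
  · have h1 : cv (cv u (blockCoeff f)) (cv u (blockCoeff f)) - cv u (blockCoeff f) =
        cv (cv u u - u) (blockCoeff f) := by
      apply eq_of_W (isClassFunction_sub (cv_isClass (cv_isClass hu hfc) (cv_isClass hu hfc))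
        (cv_isClass hu hfc)) (cv_isClass hcuu hfc)
      intro ψ hψ
      have hWf : W ψ (blockCoeff f) = if (⟨ψ, hψ⟩ : IrrCharacter G) ∈ f then 1 else 0 :=
        W_blockCoeff f ⟨ψ, hψ⟩
      rw [W_sub, W_cv hψ (cv_isClass hu hfc), W_cv hψ hu, W_cv hψ hcuu, W_sub, W_cv hψ hu, hWf]
      split_ifs <;> ring
    intro g
    have h2 := congrFun h1 g
    rw [Pi.sub_apply] at h2
    rw [h2]
    exact cv_mem_Iloc hid hf' g
  · intro η
    rw [W_cv η.2 hu, W_blockCoeff]
    split_ifs with h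
    · rw [mul_one]; exact hW η h
    · rw [mul_zero]; exact (Iloc M).zero_mem

theorem om_down {M : Ideal AlgInt} {p : ℕ} [Fact p.Prime] (hM : IsPModular p M)
    {Q P : Subgroup G} {f : Set (IrrCharacter (Subgroup.centralizer (Q : Set G)))}
    {e : Set (IrrCharacter (Subgroup.centralizer (P : Set G)))}
    (h : IsNormalSubpair p M Q f P e) {a : G → ℂ}
    (A1 : ∀ q ∈ P, ∀ x, a (q * x * q⁻¹) = a x)
    (A2 : IsClassFunction (Subgroup.centralizer (Q : Set G))
      (fun c : Subgroup.centralizer (Q : Set G) => a (c : G)))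
    (A3 : ∀ x, MemLocalRing M (a x)) (A4 : cv a a = a)
    (hPa : ∀ ξ ∈ e, MemLocalIdeal M (brauerOmega P a (ξ : _ → ℂ) - 1)) :
    ∀ η ∈ f, MemLocalIdeal M (brauerOmega Q a (η : _ → ℂ) - 1) := by
  classical
  haveI := hM.2.1.isPrime
  obtain ⟨⟨hQ, hf⟩, ⟨hP, he⟩, hQP, hPN, hst, hom⟩ := h
  have hgood : Good M Q a := ⟨fun q hq x => A1 q (hQP hq) x, A2, A3, A4⟩
  obtain ⟨η₀, hη₀⟩ := block_nonempty hf
  rcases dichotomy hM hQ hgood η₀ with h0 | h0
  swap
  · intro η hη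
    exact sub_mem_Iloc_trans (om_congr A2 A3 hf hη hη₀) h0
  exfalso
  obtain ⟨ξ, hξ⟩ := block_nonempty he
  have hCC : Subgroup.centralizer (P : Set G) ≤ Subgroup.centralizer (Q : Set G) :=
    Subgroup.centralizer_le hQP
  have hfR := blockCoeff_mem_Rloc (M := M) f (block_closed hf)
  obtain ⟨u, hu⟩ : ∃ u : Subgroup.centralizer (Q : Set G) → ℂ,
      u = fun c : Subgroup.centralizer (Q : Set G) => a (c : G) := ⟨_, rfl⟩
  have hbu : br Q (Subgroup.centralizer (Q : Set G)) a = u := by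
    rw [br_centralizer, hu]
  have huc : IsClassFunction (Subgroup.centralizer (Q : Set G)) u := by
    rw [hu]; exact A2
  have huR : ∀ c, u c ∈ Rloc M := by
    intro c; rw [hu]; exact A3 _
  have hid : ∀ c, cv u u c - u c ∈ Iloc M := by
    intro c
    have h1 := br_cv' hM hQ (H := Subgroup.centralizer (Q : Set G)) le_rfl hgood.1 hgood.1 A3 A3 c
    rw [A4, hbu] at h1
    exact sub_mem_Iloc_symm h1
  have hv := cv_blockCoeff_zero (M := M) huc huR hid f hf (fun η hη => by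
    have h2 := om_congr A2 A3 hf hη hη₀
    have h3 := (Iloc M).add_mem h2 h0
    rw [sub_add_cancel, brauerOmega_eq_W] at h3
    rw [hu]
    exact h3)
  have hinv1 : ∀ q ∈ P, ∀ x, ext0 (Subgroup.centralizer (Q : Set G)) u (q * x * q⁻¹) =
      ext0 (Subgroup.centralizer (Q : Set G)) u x := by
    intro q hq x
    by_cases hx : x ∈ Subgroup.centralizer (Q : Set G)
    · rw [ext0_mem _ _ hx, ext0_mem _ _ ((conj_mem_centralizer_iff (hPN hq)).mpr hx), hu]
      exact A1 q hq x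
    · rw [ext0_notMem _ _ hx,
        ext0_notMem _ _ (fun h => hx ((conj_mem_centralizer_iff (hPN hq)).mp h))]
  have hinv2 : ∀ q ∈ P, ∀ x, ext0 (Subgroup.centralizer (Q : Set G)) (blockCoeff f)
      (q * x * q⁻¹) = ext0 (Subgroup.centralizer (Q : Set G)) (blockCoeff f) x := by
    intro q hq x
    rw [← sBC_eq_ext0]
    exact sBC_conj _ hf (hst q hq) x
  have hmul := br_cv' hM hP (H := Subgroup.centralizer (P : Set G)) le_rfl hinv1 hinv2
    (ext0_mem_Rloc _ huR) (ext0_mem_Rloc _ hfR)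
  rw [cv_ext0, br_ext0 hCC, br_ext0 hCC, br_ext0 hCC] at hmul
  have hc1 := rs_isClass hCC huc
  have hc2 := rs_isClass hCC (blockCoeff_isClass f)
  have hc3 := rs_isClass hCC (cv_isClass huc (blockCoeff_isClass f))
  have hi : W (ξ : _ → ℂ) (rs hCC (cv u (blockCoeff f))) -
      W (ξ : _ → ℂ) (rs hCC u) * W (ξ : _ → ℂ) (rs hCC (blockCoeff f)) ∈ Iloc M := by
    rw [← W_cv ξ.2 hc1, ← W_sub]
    exact W_mem_Iloc ξ (isClassFunction_sub hc3 (cv_isClass hc1 hc2)) hmul
  have hii : W (ξ : _ → ℂ) (rs hCC (cv u (blockCoeff f))) ∈ Iloc M :=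
    W_mem_Iloc ξ hc3 (fun k => hv ⟨k, hCC k.2⟩)
  have hiii : W (ξ : _ → ℂ) (rs hCC (blockCoeff f)) - 1 ∈ Iloc M := by
    have := hom ξ hξ
    rw [brauerOmega_eq_W, sBC_eq_ext0] at this
    have h5 : (fun h : Subgroup.centralizer (P : Set G) =>
        ext0 (Subgroup.centralizer (Q : Set G)) (blockCoeff f) (h : G)) =
        rs hCC (blockCoeff f) := by
      funext k
      exact ext0_mem _ _ (hCC k.2)
    rwa [h5] at this
  have hiv : W (ξ : _ → ℂ) (rs hCC u) - 1 ∈ Iloc M := by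
    have := hPa ξ hξ
    rw [brauerOmega_eq_W] at this
    have h6 : (fun h : Subgroup.centralizer (P : Set G) => a (h : G)) = rs hCC u := by
      funext k
      rw [hu]
      rfl
    rwa [h6] at this
  have hWR : W (ξ : _ → ℂ) (rs hCC u) ∈ Rloc M := W_mem_Rloc ξ hc1 (fun k => huR _)
  apply one_notMem_Iloc (M := M)
  have h7 := mul_mem_Iloc hWR hiii
  have h8 : (1 : ℂ) = W (ξ : _ → ℂ) (rs hCC (cv u (blockCoeff f))) -
      (W (ξ : _ → ℂ) (rs hCC (cv u (blockCoeff f))) -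
        W (ξ : _ → ℂ) (rs hCC u) * W (ξ : _ → ℂ) (rs hCC (blockCoeff f))) -
      W (ξ : _ → ℂ) (rs hCC u) * (W (ξ : _ → ℂ) (rs hCC (blockCoeff f)) - 1) -
      (W (ξ : _ → ℂ) (rs hCC u) - 1) := by ring
  rw [h8]
  exact (Iloc M).sub_mem ((Iloc M).sub_mem ((Iloc M).sub_mem hii hi) h7) hiv

theorem om_chain {M : Ideal AlgInt} {p : ℕ} [Fact p.Prime] (hM : IsPModular p M)
    {Q₀ N₁ : Subgroup G} {a : G → ℂ}
    (B1 : ∀ q ∈ N₁, ∀ x, a (q * x * q⁻¹) = a x)
    (B2 : ∀ c ∈ Subgroup.centralizer (Q₀ : Set G), ∀ x, a (c * x * c⁻¹) = a x)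
    (A3 : ∀ x, MemLocalRing M (a x)) (A4 : cv a a = a)
    {x y : BrauerPairIdx G} (h : Relation.ReflTransGen (NormalSubpairRel p M) x y)
    (hy : y.1 ≤ N₁)
    (hya : ∀ ξ ∈ y.2, MemLocalIdeal M (brauerOmega y.1 a (ξ : _ → ℂ) - 1)) :
    Q₀ ≤ x.1 → ∀ ξ ∈ x.2, MemLocalIdeal M (brauerOmega x.1 a (ξ : _ → ℂ) - 1) := by
  induction h using Relation.ReflTransGen.head_induction_on with
  | refl => exact fun _ => hya
  | head h' h ih =>
    intro hQ
    have h1 := ih (hQ.trans h'.2.2.1)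
    exact om_down hM h' (fun q hq x => B1 q (hy (le_of_subpairLE h hq)) x)
      (fun g c => B2 c (Subgroup.centralizer_le hQ c.2) g) A3 A4 h1

theorem subpair_exists {M : Ideal AlgInt} {p : ℕ} [Fact p.Prime] (hM : IsPModular p M)
    {P : Subgroup G} {e : Set (IrrCharacter (Subgroup.centralizer (P : Set G)))}
    (hPe : IsBrauerPair p M P e) (Q : Subgroup G) :
    Q ≤ P → ∃ f : Set (IrrCharacter (Subgroup.centralizer (Q : Set G))),
      IsPBlock M f ∧ SubpairLE p M Q f P e := by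
  induction Q using WellFoundedGT.induction with
  | ind Q ih =>
    intro hQP
    by_cases hQ : Q = P
    · subst hQ
      exact ⟨e, hPe.2, Relation.ReflTransGen.refl⟩
    · have hlt : Q < P := lt_of_le_of_ne hQP hQ
      obtain ⟨x, hxP, hxN, hxQ⟩ := exists_normalizer_gt hPe.1 hlt
      have hQR : Q ≤ P ⊓ Subgroup.normalizer (Q : Set G) := le_inf hQP Subgroup.le_normalizer
      have hlt' : Q < P ⊓ Subgroup.normalizer (Q : Set G) :=
        lt_of_le_of_ne hQR (fun h => hxQ (h ▸ (Subgroup.mem_inf.mpr ⟨hxP, hxN⟩)))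
      obtain ⟨g, hg, hch⟩ := ih _ hlt' inf_le_left
      obtain ⟨f, hf⟩ := normal_subpair_exists hM
        (⟨hPe.1.to_le inf_le_left, hg⟩ : IsBrauerPair p M _ g) hQR inf_le_right
      have hf' : NormalSubpairRel p M ⟨Q, f⟩ ⟨P ⊓ Subgroup.normalizer (Q : Set G), g⟩ := hf
      exact ⟨f, hf.1.2, Relation.ReflTransGen.head hf' hch⟩

theorem normal_same {M : Ideal AlgInt} {p : ℕ} (hM : IsPModular p M) {Q : Subgroup G}
    {f e : Set (IrrCharacter (Subgroup.centralizer (Q : Set G)))}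
    (h : IsNormalSubpair p M Q f Q e) : f = e := by
  classical
  haveI := hM.2.1.isPrime
  obtain ⟨ξ, hξ⟩ := block_nonempty h.2.1.2
  have h1 := h.2.2.2.2.2 ξ hξ
  rw [brauerOmega_eq_W, sBC_eq_ext0] at h1
  have h2 : (fun k : Subgroup.centralizer (Q : Set G) =>
      ext0 (Subgroup.centralizer (Q : Set G)) (blockCoeff f) (k : G)) = blockCoeff f := by
    funext k
    exact ext0_coe _ _ k
  rw [h2, W_blockCoeff] at h1
  split_ifs at h1 with h3
  · exact block_eq_of_mem h.1.2 h.2.1.2 h3 hξ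
  · exfalso
    apply one_notMem_Iloc (M := M)
    have := (Iloc M).neg_mem h1
    simpa using this

theorem ext0_conj (K : Subgroup G) {u : K → ℂ} (hu : IsClassFunction K u) {c : G} (hc : c ∈ K)
    (x : G) : ext0 K u (c * x * c⁻¹) = ext0 K u x := by
  by_cases hx : x ∈ K
  · rw [ext0_mem _ _ hx, ext0_mem _ _ (K.mul_mem (K.mul_mem hc hx) (K.inv_mem hc))]
    exact hu ⟨x, hx⟩ ⟨c, hc⟩
  · rw [ext0_notMem _ _ hx, ext0_notMem]
    intro h
    apply hx
    have := K.mul_mem (K.mul_mem (K.inv_mem hc) h) hc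
    simpa [mul_assoc] using this

theorem top_unique {M : Ideal AlgInt} {p : ℕ} (hM : IsPModular p M)
    {P : Subgroup G} {e : Set (IrrCharacter (Subgroup.centralizer (P : Set G)))}
    {x : BrauerPairIdx G} (h : Relation.ReflTransGen (NormalSubpairRel p M) x ⟨P, e⟩) :
    x.1 = P → x = ⟨P, e⟩ := by
  induction h using Relation.ReflTransGen.head_induction_on with
  | refl => exact fun _ => rfl
  | @head a c h' h ih =>
    intro hx
    have hc : c.1 = P := le_antisymm (le_of_subpairLE h) (by rw [← hx]; exact h'.2.2.1)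
    have hc' := ih hc
    subst hc'
    obtain ⟨Qa, fa⟩ := a
    simp only at hx
    subst hx
    have h3 : fa = e := normal_same hM h'
    rw [h3]

theorem subpair_unique {M : Ideal AlgInt} {p : ℕ} [Fact p.Prime] (hM : IsPModular p M)
    {P : Subgroup G} {e : Set (IrrCharacter (Subgroup.centralizer (P : Set G)))}
    (hPe : IsBrauerPair p M P e) (Q : Subgroup G) :
    Q ≤ P → ∀ x y : BrauerPairIdx G, Relation.ReflTransGen (NormalSubpairRel p M) x ⟨P, e⟩ →
      Relation.ReflTransGen (NormalSubpairRel p M) y ⟨P, e⟩ → x.1 = Q → y.1 = Q → x = y := by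
  classical
  haveI := hM.2.1.isPrime
  induction Q using WellFoundedGT.induction with
  | ind Q IH =>
    intro hQP
    by_cases hQ : Q = P
    · subst hQ
      intro x y hx hy hx1 hy1
      rw [top_unique hM hx hx1, top_unique hM hy hy1]
    · have hlt : Q < P := lt_of_le_of_ne hQP hQ
      obtain ⟨N₁, hN₁⟩ : ∃ N₁ : Subgroup G, N₁ = P ⊓ Subgroup.normalizer (Q : Set G) := ⟨_, rfl⟩
      have hQN₁ : Q ≤ N₁ := by rw [hN₁]; exact le_inf hQP Subgroup.le_normalizer
      have hN₁P : N₁ ≤ P := by rw [hN₁]; exact inf_le_left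
      have hN₁N : N₁ ≤ Subgroup.normalizer (Q : Set G) := by rw [hN₁]; exact inf_le_right
      obtain ⟨h, hh, hchN⟩ := subpair_exists hM hPe N₁ hN₁P
      have hN₁h : IsBrauerPair p M N₁ h := ⟨hPe.1.to_le hN₁P, hh⟩
      obtain ⟨f₀, hns₀⟩ := normal_subpair_exists hM hN₁h hQN₁ hN₁N
      have key : ∀ x : BrauerPairIdx G,
          Relation.ReflTransGen (NormalSubpairRel p M) x ⟨P, e⟩ → x.1 = Q → x = ⟨Q, f₀⟩ := by
        intro x hx
        induction hx using Relation.ReflTransGen.head_induction_on with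
        | refl => exact fun h1 => absurd h1.symm hQ
        | @head a c h' hc ih =>
          intro ha
          by_cases hcQ : c.1 = Q
          · have h2 := ih hcQ
            subst h2
            obtain ⟨Qa, fa⟩ := a
            simp only at ha
            subst ha
            have h3 : fa = f₀ := normal_same hM h'
            rw [h3]
          · have hQc : Q ≤ c.1 := by rw [← ha]; exact h'.2.2.1
            have hltc : Q < c.1 := lt_of_le_of_ne hQc (Ne.symm hcQ)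
            have hcP : c.1 ≤ P := le_of_subpairLE hc
            have hcN : c.1 ≤ Subgroup.normalizer (Q : Set G) := by rw [← ha]; exact h'.2.2.2.1
            have hcN₁ : c.1 ≤ N₁ := by rw [hN₁]; exact le_inf hcP hcN
            obtain ⟨g₂, hg₂, hch₂⟩ := subpair_exists hM hN₁h c.1 hcN₁
            have hc2 : c = ⟨c.1, g₂⟩ :=
              IH c.1 hltc hcP c ⟨c.1, g₂⟩ hc (hch₂.trans hchN) rfl rfl
            have hcN' : Relation.ReflTransGen (NormalSubpairRel p M) c ⟨N₁, h⟩ := by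
              rw [hc2]; exact hch₂
            have hg := good_sBC hQN₁ hns₀.1.2 hns₀.2.2.2.2.1
            have hom := om_chain hM (Q₀ := Q) (N₁ := N₁) hg.1
              (fun c' hc' x => by
                rw [sBC_eq_ext0]; exact ext0_conj _ (blockCoeff_isClass f₀) hc' x)
              hg.2.2.1 hg.2.2.2 hcN' le_rfl hns₀.2.2.2.2.2 hQc
            have hns : IsNormalSubpair p M Q f₀ c.1 c.2 :=
              ⟨hns₀.1, h'.2.1, hQc, hcN, fun y hy => hns₀.2.2.2.2.1 y (hcN₁ hy), hom⟩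
            obtain ⟨Qa, fa⟩ := a
            simp only at ha
            subst ha
            have h3 : fa = f₀ := normal_subpair_unique hM h' hns
            rw [h3]
      intro x y hx hy hx1 hy1
      rw [key x hx hx1, key y hy hy1]

theorem subpair_existsUnique {M : Ideal AlgInt} {p : ℕ} [Fact p.Prime] (hM : IsPModular p M)
    {P Q : Subgroup G} {e : Set (IrrCharacter (Subgroup.centralizer (P : Set G)))}
    (hPe : IsBrauerPair p M P e) (hQP : Q ≤ P) :
    ∃! f : Set (IrrCharacter (Subgroup.centralizer (Q : Set G))),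
      IsPBlock M f ∧ SubpairLE p M Q f P e := by
  obtain ⟨f, hf, hch⟩ := subpair_exists hM hPe Q hQP
  refine ⟨f, ⟨hf, hch⟩, ?_⟩
  rintro f' ⟨-, hch'⟩
  have h1 := subpair_unique hM hPe Q hQP ⟨Q, f'⟩ ⟨Q, f⟩ hch' hch rfl rfl
  exact eq_of_heq (Sigma.mk.inj h1).2

end Cfsg.Agent.Lib.Helper2.BlockBP4
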