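import Mathlib
import Cfsg.Prelude.Def_Blocks
import Cfsg.Prelude.Def_BrauerPairs
import Cfsg.Agent.Lib.Helper2.BlockFong
import Cfsg.Agent.Lib.Helper2.BlockN

set_option autoImplicit false
set_option linter.unusedSectionVars false
set_option linter.unusedVariables false
set_option linter.style.haveILetI false

/-! Miscellaneous consequences of the block library. -/

namespace Cfsg.Agent.Lib.Helper2.BlockFong2

open Cfsg Cfsg.Agent.Lib.Helper7.CharIrr Cfsg.Agent.Lib.Helper7.CharOrth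
  Cfsg.Agent.Lib.Helper7.CharIntegral Cfsg.Agent.Lib.Helper7.CharMore
  Cfsg.Agent.Lib.Helper7.CharClassAlg Cfsg.Agent.Lib.Helper7.CharComplete
  Cfsg.Agent.Lib.Helper7.CharDeg Cfsg.Agent.Lib.Helper7.CharGalois
  Cfsg.Agent.Lib.Helper7.CharClassAlg2 Cfsg.Agent.Lib.Helper7.CharBurnside
  Cfsg.Agent.Lib.Helper7.CharNormal Cfsg.Agent.Lib.Helper7.CharClifford
  Cfsg.Agent.Lib.Helper7.CharInd Cfsg.Agent.Lib.Helper7.CharMisc
  Cfsg.Agent.Lib.Helper2.LocRing
  Cfsg.Agent.Lib.Helper2.BlockZ Cfsg.Agent.Lib.Helper2.BlockDef Cfsg.Agent.Lib.Helper2.BlockOrth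
  Cfsg.Agent.Lib.Helper2.BlockSM4 Cfsg.Agent.Lib.Helper2.BlockSub Cfsg.Agent.Lib.Helper2.BlockBr2
  Cfsg.Agent.Lib.Helper2.BlockCov Cfsg.Agent.Lib.Helper2.BlockKer
  Cfsg.Agent.Lib.Helper2.BlockCov2 Cfsg.Agent.Lib.Helper2.BlockLam
  Cfsg.Agent.Lib.Helper2.BlockFMT Cfsg.Agent.Lib.Helper2.BlockGr3
  Cfsg.Agent.Lib.Helper2.BlockFong Cfsg.Agent.Lib.Helper2.BlockN
open scoped ComplexConjugate

variable {G : Type*} [Group G] [Fintype G] (N : Subgroup G) [hN : N.Normal] [Fintype N]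

theorem cj_mem_of_stabilizes {c : Set (IrrCharacter N)} (hst : ∀ x : G, StabilizesBlock N c x) :
    ∀ g : G, ∀ θ ∈ c, cj N θ g ∈ c := by
  intro g θ hθ
  obtain ⟨χ', hχ', hconj⟩ := (hst g⁻¹).2 θ hθ
  have : χ' = cj N θ g := by
    apply Subtype.ext
    funext n
    rw [cj_apply]
    apply hconj
    simp only [inv_inv]
    group
  exact this ▸ hχ'

theorem subgroupBlockCoeff_eq_fo {c : Set (IrrCharacter N)}
    (hinv : ∀ g : G, ∀ θ ∈ c, cj N θ g ∈ c) : subgroupBlockCoeff N c = fo N c := by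
  funext g
  unfold subgroupBlockCoeff
  by_cases hg : g ∈ N
  · rw [dif_pos hg, fo, ext0_mem N _ hg, orb_eq N hinv]
  · rw [dif_neg hg, fo, ext0_notMem N _ hg]

theorem eq_of_blockCoeff_eq {B B' : Set (IrrCharacter G)} (h : blockCoeff B = blockCoeff B') :
    B = B' := by
  classical
  ext ψ
  have h1 := W_blockCoeff B ψ
  have h2 := W_blockCoeff B' ψ
  rw [h] at h1
  rw [h1] at h2
  by_cases hb : ψ ∈ B <;> by_cases hb' : ψ ∈ B' <;> simp_all

theorem stable_index {M : Ideal AlgInt} {p : ℕ} [Fact p.Prime] (hM : IsPModular p M)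
    (hidx : ∃ k : ℕ, N.index = p ^ k) {c : Set (IrrCharacter N)} (hc : IsPBlock M c)
    (hst : ∀ x : G, StabilizesBlock N c x) :
    (∃ B : Set (IrrCharacter G), IsPBlock M B ∧ ∀ g : G, blockCoeff B g = subgroupBlockCoeff N c g) ∧
    ∀ B : Set (IrrCharacter G), IsPBlock M B → (∀ g : G, blockCoeff B g = subgroupBlockCoeff N c g) →
      ∀ P : Subgroup G, IsDefectGroup p M B P →
        N ⊔ P = ⊤ ∧ IsDefectGroup p M c ((P ⊓ N).subgroupOf N) := by
  haveI := hM.2.1.isPrime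
  have hinv := cj_mem_of_stabilizes N hst
  obtain ⟨B1, ⟨hB1, hcov1⟩, huniq⟩ := existsUnique_covers_of_index N hM hidx hc
  have hS : {χ : IrrCharacter G | ∃ θ ∈ c,
      classInner (fun n : N => (χ : G → ℂ) n) (θ : N → ℂ) ≠ 0} = B1 := by
    ext χ
    constructor
    · rintro ⟨θ, hθ, hcon⟩
      have := huniq (blockOf M (χ : G → ℂ)) ⟨⟨χ, rfl⟩, χ, sameBlock_refl (M := M) _, θ, hθ, hcon⟩
      rw [← this]
      exact sameBlock_refl (M := M) _
    · intro hχ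
      obtain ⟨χ0, hχ0, θ0, hθ0, hcon0⟩ := hcov1
      obtain ⟨θ, hθ⟩ := exists_constituent_restrict N χ
      have := mem_orb_of_sameBlock N hc (sameBlock_of_mem hB1 hχ0 hχ) hθ0 hcon0 hθ
      rw [orb_eq N hinv] at this
      exact ⟨θ, this, hθ⟩
  have h1 : blockCoeff B1 = subgroupBlockCoeff N c := by
    rw [subgroupBlockCoeff_eq_fo N hinv, fo_eq_blockCoeff N hc hinv, hS]
  refine ⟨⟨B1, hB1, fun g => congrFun h1 g⟩, ?_⟩
  intro B hB hBc P hP
  have hBB : B = B1 := eq_of_blockCoeff_eq (by rw [h1]; funext g; exact hBc g)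
  subst hBB
  obtain ⟨f1, f2, -⟩ := fong N hM hc hinv hB hcov1
    (fun B' hB' hcov' => by rw [huniq B' ⟨hB', hcov'⟩]) P hP
  refine ⟨?_, f2⟩
  rw [sup_comm, ← Subgroup.index_eq_one]
  obtain ⟨k, hk⟩ := hidx
  have h2 : (P ⊔ N).index ∣ p ^ k := hk ▸ Subgroup.index_dvd_of_le le_sup_right
  obtain ⟨j, -, hj⟩ := (Nat.dvd_prime_pow hM.1).mp h2
  cases j with
  | zero => simpa using hj
  | succ j => exact absurd (by rw [hj, pow_succ]; exact Dvd.intro_left _ rfl) f1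

end Cfsg.Agent.Lib.Helper2.BlockFong2
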