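import Mathlib
import Cfsg.Prelude.Def_Blocks
import Cfsg.Agent.Lib.Helper2.BlockFong
import Cfsg.Agent.Lib.Helper2.BlockN
import Cfsg.Agent.Lib.Helper2.BlockMisc
import Cfsg.Agent.Lib.Helper2.BlockAvg
import Cfsg.Agent.Lib.Helper2.BlockCong
import Cfsg.Agent.Lib.Helper2.BlockSM7
import Cfsg.Agent.Lib.Helper2.BlockSM3
import Cfsg.Agent.Lib.Helper2.BlockPr
import Cfsg.Agent.Lib.Helper2.BlockSM5
import Cfsg.Agent.S0906
import Cfsg.Agent.Lib.Helper2.BlockInd
import Cfsg.Agent.Lib.Helper2.BlockReg3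
import Cfsg.Agent.Lib.Helper2.BlockBr
import Cfsg.Agent.S0917
import Cfsg.Agent.Lib.Helper2.BlockFR
import Cfsg.Agent.Lib.Helper2.BlockFR2
import Cfsg.Agent.Lib.Helper2.BlockExt2
import Cfsg.Agent.Lib.Helper7.BInd1
import Cfsg.Agent.Lib.Helper2.BlockFR3
import Cfsg.Agent.Lib.Helper1.Cores
import Cfsg.Agent.S0912
import Cfsg.Agent.S0920
import Cfsg.Agent.Lib.Helper2.BlockFR4
import Cfsg.Agent.Lib.Helper7.BPair3
import Cfsg.Prelude.Def_BrauerPairs
import Cfsg.Agent.Lib.Helper2.BlockBC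
import Cfsg.Agent.Lib.Helper2.BlockBP
import Cfsg.Agent.Lib.Helper2.BlockBP2
import Cfsg.Agent.Lib.Helper2.BlockBP3
import Cfsg.Agent.Lib.Helper2.BlockBP4
import Cfsg.Agent.Lib.Helper2.BlockFong2
import Cfsg.Agent.S0959
import Cfsg.Agent.Lib.Helper7.BPair4
import Cfsg.Agent.Lib.Helper2.BlockFix
import Cfsg.Agent.Lib.Helper7.BPair1
import Cfsg.Agent.Lib.Helper7.BPair2

set_option autoImplicit false
set_option linter.unusedSectionVars false
set_option linter.unusedVariables false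
set_option linter.style.haveILetI false

/-! Miscellaneous consequences of the block library. -/

namespace Cfsg.Agent.Lib.Helper2.BlockBP5

open Cfsg Cfsg.Agent.Lib.Helper7.CharIrr Cfsg.Agent.Lib.Helper7.CharOrth
  Cfsg.Agent.Lib.Helper7.CharIntegral Cfsg.Agent.Lib.Helper7.CharMore
  Cfsg.Agent.Lib.Helper7.CharClassAlg Cfsg.Agent.Lib.Helper7.CharComplete
  Cfsg.Agent.Lib.Helper7.CharDeg Cfsg.Agent.Lib.Helper7.CharGalois
  Cfsg.Agent.Lib.Helper7.CharClassAlg2 Cfsg.Agent.Lib.Helper7.CharBurnside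
  Cfsg.Agent.Lib.Helper7.CharNormal Cfsg.Agent.Lib.Helper7.CharClifford
  Cfsg.Agent.Lib.Helper7.CharInd Cfsg.Agent.Lib.Helper7.CharMisc
  Cfsg.Agent.Lib.Helper2.LocRing
  Cfsg.Agent.Lib.Helper2.BlockZ Cfsg.Agent.Lib.Helper2.BlockDef Cfsg.Agent.Lib.Helper2.BlockOrth
  Cfsg.Agent.Lib.Helper2.BlockSM4 Cfsg.Agent.Lib.Helper2.BlockSub Cfsg.Agent.Lib.Helper2.BlockBr2
  Cfsg.Agent.Lib.Helper2.BlockCov Cfsg.Agent.Lib.Helper2.BlockKer
  Cfsg.Agent.Lib.Helper2.BlockCov2 Cfsg.Agent.Lib.Helper2.BlockLam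
  Cfsg.Agent.Lib.Helper2.BlockFMT Cfsg.Agent.Lib.Helper2.BlockGr3
  Cfsg.Agent.Lib.Helper2.BlockFong Cfsg.Agent.Lib.Helper2.BlockN
  Cfsg.Agent.Lib.Helper2.BlockMisc Cfsg.Agent.Lib.Helper2.BlockAvg Cfsg.Agent.Lib.Helper2.BlockCong
  Cfsg.Agent.Lib.Helper2.BlockSM7 Cfsg.Agent.Lib.Helper2.BlockSM3 Cfsg.Agent.Lib.Helper2.BlockPr
  Cfsg.Agent.Lib.Helper2.BlockSM5 Cfsg.Agent.Lib.Helper2.BlockInd Cfsg.Agent.Lib.Helper2.BlockReg
  Cfsg.Agent.Lib.Helper2.BlockReg2 Cfsg.Agent.Lib.Helper2.BlockReg3 Cfsg.Agent.Lib.Helper2.BlockBr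
  Cfsg.Agent.Lib.Helper2.BlockFR Cfsg.Agent.Lib.Helper2.BlockFR2 Cfsg.Agent.Lib.Helper2.BlockExt
  Cfsg.Agent.Lib.Helper2.BlockFR3 Cfsg.Agent.Lib.Helper2.BlockExt2
open Cfsg.Agent.Lib.Helper2.BlockBC Cfsg.Agent.Lib.Helper2.BlockFix Cfsg.Agent.Lib.Helper2.BlockBP Cfsg.Agent.Lib.Helper2.BlockFR4 Cfsg.Agent.Lib.Helper2.BlockBP2 Cfsg.Agent.Lib.Helper2.BlockBP3 Cfsg.Agent.Lib.Helper2.BlockBP4
open Cfsg.Agent.Lib.Helper7.BPair1 (brauerOmega_eq_W br_centralizer exists_induced_centralizer isBrauerPairOf_iff)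
open Cfsg.Agent.Lib.Helper7.BPair2 (conjEquiv mem_normalizer_centralizer)
open Cfsg.Agent.Lib.Helper7.BPair4 (exists_normalizer_gt le_of_subpairLE centEquiv)
open scoped ComplexConjugate

variable {G : Type*} [Group G] [Fintype G]

open Cfsg.Agent.Lib.Helper7.BInd1 (trSet tr_mem_trSet trSet_isPBlock blockDefect_trSet induced_trans)







/-- conjugation of Brauer pairs -/
def cx (x : G) (a : BrauerPairIdx G) : BrauerPairIdx G :=
  ⟨a.1.map (MulAut.conj x).toMonoidHom, conjBlock a.1 x a.2⟩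

theorem sigma_eq {R₁ R₂ : Subgroup G} (h : R₁ = R₂)
    {S₁ : Set (IrrCharacter (Subgroup.centralizer (R₁ : Set G)))}
    {S₂ : Set (IrrCharacter (Subgroup.centralizer (R₂ : Set G)))}
    (hS : ∀ (ξ₁ : IrrCharacter (Subgroup.centralizer (R₁ : Set G)))
      (ξ₂ : IrrCharacter (Subgroup.centralizer (R₂ : Set G))),
      (∀ (g : G) (h1 : g ∈ Subgroup.centralizer (R₁ : Set G))
        (h2 : g ∈ Subgroup.centralizer (R₂ : Set G)),
        (ξ₁ : Subgroup.centralizer (R₁ : Set G) → ℂ) ⟨g, h1⟩ =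
          (ξ₂ : Subgroup.centralizer (R₂ : Set G) → ℂ) ⟨g, h2⟩) → (ξ₁ ∈ S₁ ↔ ξ₂ ∈ S₂)) :
    (⟨R₁, S₁⟩ : BrauerPairIdx G) = ⟨R₂, S₂⟩ := by
  subst h
  congr 1
  ext ξ
  exact hS ξ ξ (fun _ _ _ => rfl)

theorem conjBlock_eq (Q : Subgroup G) (x : G)
    [Fintype (Subgroup.centralizer (Q : Set G))]
    [Fintype (Subgroup.centralizer ((Q.map (MulAut.conj x).toMonoidHom : Subgroup G) : Set G))]
    (f : Set (IrrCharacter (Subgroup.centralizer (Q : Set G)))) :
    conjBlock Q x f = trSet (centEquiv Q x) f := by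
  classical
  ext ξ'
  constructor
  · rintro ⟨ξ, hξ, h⟩
    have h1 : ξ' = tr (centEquiv Q x) ξ := by
      apply Subtype.ext
      funext c'
      rw [tr_apply]
      apply h
      change (c' : G) = x * (x⁻¹ * (c' : G) * x) * x⁻¹
      group
    rw [h1]
    exact tr_mem_trSet _ hξ
  · intro h
    refine ⟨tr (centEquiv Q x).symm ξ', h, ?_⟩
    intro c c' hc
    rw [tr_apply]
    have h3 : (centEquiv Q x).symm c = c' := by
      apply Subtype.ext
      exact hc.symm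
    rw [h3]

theorem mem_cent_conj (Q : Subgroup G) (x g : G) :
    g ∈ Subgroup.centralizer ((Q.map (MulAut.conj x).toMonoidHom : Subgroup G) : Set G) ↔
      x⁻¹ * g * x ∈ Subgroup.centralizer (Q : Set G) := by
  constructor
  · intro h
    exact (centEquiv Q x ⟨g, h⟩).2
  · intro h
    have h1 := ((centEquiv Q x).symm ⟨_, h⟩).2
    have h2 : (((centEquiv Q x).symm ⟨_, h⟩ : _) : G) = x * (x⁻¹ * g * x) * x⁻¹ := rfl
    rw [h2] at h1
    have h3 : x * (x⁻¹ * g * x) * x⁻¹ = g := by group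
    rwa [h3] at h1

theorem sBC_cx (Q : Subgroup G) (x : G)
    (f : Set (IrrCharacter (Subgroup.centralizer (Q : Set G)))) (g : G) :
    subgroupBlockCoeff (Subgroup.centralizer
      ((Q.map (MulAut.conj x).toMonoidHom : Subgroup G) : Set G)) (conjBlock Q x f) g =
      subgroupBlockCoeff (Subgroup.centralizer (Q : Set G)) f (x⁻¹ * g * x) := by
  classical
  rw [sBC_eq_ext0, sBC_eq_ext0, conjBlock_eq]
  by_cases hg : g ∈ Subgroup.centralizer
      ((Q.map (MulAut.conj x).toMonoidHom : Subgroup G) : Set G)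
  · rw [ext0_mem _ _ hg, ext0_mem _ _ ((mem_cent_conj Q x g).mp hg), blockCoeff_trSet]
    rfl
  · rw [ext0_notMem _ _ hg, ext0_notMem _ _ (fun h => hg ((mem_cent_conj Q x g).mpr h))]

theorem om_cx (Q : Subgroup G) (x : G)
    [Fintype (Subgroup.centralizer (Q : Set G))]
    [Fintype (Subgroup.centralizer ((Q.map (MulAut.conj x).toMonoidHom : Subgroup G) : Set G))]
    {a a' : G → ℂ} (haa : ∀ g, a' g = a (x⁻¹ * g * x))
    (ξ : IrrCharacter (Subgroup.centralizer (Q : Set G))) :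
    brauerOmega (Q.map (MulAut.conj x).toMonoidHom) a'
      ((tr (centEquiv Q x) ξ : IrrCharacter _) : _ → ℂ) = brauerOmega Q a (ξ : _ → ℂ) := by
  classical
  rw [brauerOmega_eq_W, brauerOmega_eq_W]
  have h1 := W_tr (centEquiv Q x) (ξ : _ → ℂ)
    (fun h : Subgroup.centralizer (Q : Set G) => a (h : G))
  rw [← h1]
  congr 1
  funext k
  exact haa k

theorem stabilizes_of_sBC {M : Ideal AlgInt} [M.IsPrime] (K : Subgroup G) [Fintype K]
    {f : Set (IrrCharacter K)} {y : G} (hy : y ∈ Subgroup.normalizer (K : Set G))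
    (h : ∀ g, subgroupBlockCoeff K f (y * g * y⁻¹) = subgroupBlockCoeff K f g) :
    StabilizesBlock K f y := by
  apply stabilizes_of_trSet_eq K hy
  apply Cfsg.Agent.Lib.Helper2.BlockFong2.eq_of_blockCoeff_eq
  funext k
  rw [blockCoeff_trSet]
  have h1 := h (y⁻¹ * k * y)
  rw [sBC_eq_ext0] at h1
  have h2 : y * (y⁻¹ * (k : G) * y) * y⁻¹ = k := by group
  have h3 : y⁻¹ * (k : G) * y ∈ K := (conjEquiv K y hy k).2
  rw [h2, ext0_coe, ext0_mem _ _ h3] at h1
  exact h1.symm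

theorem normal_cx {M : Ideal AlgInt} {p : ℕ} [Fact p.Prime] (hM : IsPModular p M) (x : G)
    {a b : BrauerPairIdx G} (h : NormalSubpairRel p M a b) :
    NormalSubpairRel p M (cx x a) (cx x b) := by
  classical
  haveI := hM.2.1.isPrime
  obtain ⟨Q, f⟩ := a
  obtain ⟨P, e⟩ := b
  obtain ⟨⟨hQ, hf⟩, ⟨hP, he⟩, hQP, hPN, hst, hom⟩ := h
  simp only at hQ hf hP he hQP hPN hst hom
  have hf' : IsPBlock M (conjBlock Q x f) := by rw [conjBlock_eq]; exact trSet_isPBlock _ hf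
  have he' : IsPBlock M (conjBlock P x e) := by rw [conjBlock_eq]; exact trSet_isPBlock _ he
  have hN : P.map (MulAut.conj x).toMonoidHom ≤
      Subgroup.normalizer ((Q.map (MulAut.conj x).toMonoidHom : Subgroup G) : Set G) :=
    (Subgroup.map_mono hPN).trans (Subgroup.le_normalizer_map _)
  change IsNormalSubpair p M (Q.map (MulAut.conj x).toMonoidHom) (conjBlock Q x f)
    (P.map (MulAut.conj x).toMonoidHom) (conjBlock P x e)
  refine ⟨⟨hQ.map _, hf'⟩, ⟨hP.map _, he'⟩, Subgroup.map_mono hQP, hN, ?_, ?_⟩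
  · intro y hy
    apply stabilizes_of_sBC (M := M) _ (mem_normalizer_centralizer (hN hy))
    obtain ⟨q, hq, rfl⟩ := hy
    intro g
    rw [sBC_cx, sBC_cx]
    have h1 : x⁻¹ * ((MulAut.conj x).toMonoidHom q * g * ((MulAut.conj x).toMonoidHom q)⁻¹) * x =
        q * (x⁻¹ * g * x) * q⁻¹ := by
      have h2 : (MulAut.conj x).toMonoidHom q = x * q * x⁻¹ := by simp
      rw [h2]
      group
    rw [h1]
    exact sBC_conj _ hf (hst q hq) _
  · intro ξ' hξ'
    rw [conjBlock_eq] at hξ'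
    have h1 : ξ' = tr (centEquiv P x) (tr (centEquiv P x).symm ξ') := (tr_tr_symm _ _).symm
    rw [h1, om_cx P x (sBC_cx Q x f)]
    exact hom _ hξ'

theorem le_cx {M : Ideal AlgInt} {p : ℕ} [Fact p.Prime] (hM : IsPModular p M) (x : G)
    {a b : BrauerPairIdx G} (h : Relation.ReflTransGen (NormalSubpairRel p M) a b) :
    Relation.ReflTransGen (NormalSubpairRel p M) (cx x a) (cx x b) := by
  induction h with
  | refl => exact Relation.ReflTransGen.refl
  | tail _ hbc ih => exact ih.tail (normal_cx hM x hbc)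

theorem pairOf_cx {M : Ideal AlgInt} {p : ℕ} (hM : IsPModular p M) (x : G)
    {B : Set (IrrCharacter G)} {Q : Subgroup G}
    {f : Set (IrrCharacter (Subgroup.centralizer (Q : Set G)))}
    (h : IsBrauerPairOf p M B Q f) :
    IsBrauerPairOf p M B (Q.map (MulAut.conj x).toMonoidHom) (conjBlock Q x f) := by
  classical
  haveI := hM.2.1.isPrime
  obtain ⟨⟨hQ, hf⟩, hB, hom⟩ := h
  have hf' : IsPBlock M (conjBlock Q x f) := by rw [conjBlock_eq]; exact trSet_isPBlock _ hf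
  refine ⟨⟨hQ.map _, hf'⟩, hB, ?_⟩
  intro ξ' hξ'
  rw [conjBlock_eq] at hξ'
  have h1 : ξ' = tr (centEquiv Q x) (tr (centEquiv Q x).symm ξ') := (tr_tr_symm _ _).symm
  rw [h1, om_cx Q x (a := blockCoeff B) (a' := blockCoeff B) (fun g => by
    have h2 := blockCoeff_isClass B g x⁻¹
    rw [inv_inv] at h2
    exact h2.symm)]
  exact hom _ hξ'

theorem exists_max_above {M : Ideal AlgInt} {p : ℕ} (B : Set (IrrCharacter G)) (Q : Subgroup G) :
    ∀ f : Set (IrrCharacter (Subgroup.centralizer (Q : Set G))), IsBrauerPairOf p M B Q f →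
      ∃ (P' : Subgroup G) (e' : Set (IrrCharacter (Subgroup.centralizer (P' : Set G)))),
        IsMaximalBrauerPair p M B P' e' ∧ SubpairLE p M Q f P' e' := by
  induction Q using WellFoundedGT.induction with
  | ind Q IH =>
    intro f hf
    by_cases hmax : IsMaximalBrauerPair p M B Q f
    · exact ⟨Q, f, hmax, Relation.ReflTransGen.refl⟩
    · unfold IsMaximalBrauerPair at hmax
      push Not at hmax
      obtain ⟨R, g, hRg, hle, hne⟩ := hmax hf
      have hQR : Q ≤ R := le_of_subpairLE hle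
      obtain ⟨P', e', hm, hle'⟩ := IH R (lt_of_le_of_ne hQR (Ne.symm hne)) g hRg
      exact ⟨P', e', hm, hle.trans hle'⟩

theorem cx_mul (n x : G) (a : BrauerPairIdx G) : cx n (cx x a) = cx (n * x) a := by
  classical
  obtain ⟨Q, f⟩ := a
  have hmap : (Q.map (MulAut.conj x).toMonoidHom).map (MulAut.conj n).toMonoidHom =
      Q.map (MulAut.conj (n * x)).toMonoidHom := by
    rw [Subgroup.map_map]
    congr 1
    ext g
    simp [mul_assoc]
  change (⟨_, conjBlock (Q.map (MulAut.conj x).toMonoidHom) n (conjBlock Q x f)⟩ :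
    BrauerPairIdx G) = ⟨_, conjBlock Q (n * x) f⟩
  apply sigma_eq hmap
  intro ξ₁ ξ₂ hξ
  rw [conjBlock_eq, conjBlock_eq, conjBlock_eq]
  change tr (centEquiv Q x).symm (tr (centEquiv (Q.map (MulAut.conj x).toMonoidHom) n).symm ξ₁)
    ∈ f ↔ tr (centEquiv Q (n * x)).symm ξ₂ ∈ f
  have h0 : tr (centEquiv Q x).symm
      (tr (centEquiv (Q.map (MulAut.conj x).toMonoidHom) n).symm ξ₁) =
      tr (centEquiv Q (n * x)).symm ξ₂ := by
    apply Subtype.ext
    funext c
    rw [tr_apply, tr_apply, tr_apply]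
    have h1 : (((centEquiv (Q.map (MulAut.conj x).toMonoidHom) n).symm
        ((centEquiv Q x).symm c) : _) : G) = (((centEquiv Q (n * x)).symm c : _) : G) := by
      change n * (x * (c : G) * x⁻¹) * n⁻¹ = (n * x) * (c : G) * (n * x)⁻¹
      group
    have h2 := hξ _ ((centEquiv (Q.map (MulAut.conj x).toMonoidHom) n).symm
      ((centEquiv Q x).symm c)).2 (h1 ▸ ((centEquiv Q (n * x)).symm c).2)
    have h3 : (centEquiv Q (n * x)).symm c = ⟨_, (h1 ▸ ((centEquiv Q (n * x)).symm c).2)⟩ :=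
      Subtype.ext h1.symm
    rw [h3]
    exact h2
  rw [h0]

theorem defect_conj {M : Ideal AlgInt} {p : ℕ} [Fact p.Prime] (hM : IsPModular p M)
    {B : Set (IrrCharacter G)} (hB : IsPBlock M B) {P P' : Subgroup G}
    (hP : IsDefectGroup p M B P) (hP' : IsDefectGroup p M B P') :
    ∃ x : G, P'.map (MulAut.conj x).toMonoidHom = P := by
  haveI := hM.2.1.isPrime
  obtain ⟨g, hg, hgB⟩ := mem_centralizer_of_defectGroup hP'
  have hP'p := isPGroup_of_isDefectGroup hP'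
  obtain ⟨x, hx⟩ := (Cfsg.Agent.S0959.result p M hM B hB P hP P' hP'p).mp
    ⟨g, blockCoeff_mem_Rloc B (block_closed hB) g, hgB, g, IsConj.refl g, hg⟩
  refine ⟨x, Subgroup.eq_of_le_of_card_ge hx ?_⟩
  rw [card_defectGroup hM hB hP, ← card_defectGroup hM hB hP']
  exact (Nat.card_congr (Subgroup.equivMapOfInjective P' _
    (MulAut.conj x).injective).toEquiv).le

theorem map_conj_of_mem_normalizer {P : Subgroup G} {n : G}
    (hn : n ∈ Subgroup.normalizer (P : Set G)) : P.map (MulAut.conj n).toMonoidHom = P := by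
  have h := Subgroup.mem_normalizer_iff.mp hn
  ext y
  constructor
  · rintro ⟨q, hq, rfl⟩
    have h2 : (MulAut.conj n).toMonoidHom q = n * q * n⁻¹ := by simp
    rw [h2]
    exact (h q).mp hq
  · intro hy
    refine ⟨n⁻¹ * y * n, ?_, ?_⟩
    · apply (h _).mpr
      have h3 : n * (n⁻¹ * y * n) * n⁻¹ = y := by group
      rw [h3]
      exact hy
    · have h2 : (MulAut.conj n).toMonoidHom (n⁻¹ * y * n) = n * (n⁻¹ * y * n) * n⁻¹ := by simp
      rw [h2]
      group

theorem same_group_conj {M : Ideal AlgInt} {p : ℕ} [Fact p.Prime] (hM : IsPModular p M)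
    {B : Set (IrrCharacter G)} {P : Subgroup G} (hPB : IsDefectGroup p M B P)
    {e e'' : Set (IrrCharacter (Subgroup.centralizer (P : Set G)))}
    (he : IsBrauerPairOf p M B P e) (he'' : IsBrauerPairOf p M B P e'') :
    ∃ n : G, cx n ⟨P, e''⟩ = (⟨P, e⟩ : BrauerPairIdx G) := by
  classical
  haveI := hM.2.1.isPrime
  have hP : IsPGroup p P := he.1.1
  have hB : IsPBlock M B := he.2.1
  have hCN : (Subgroup.centralizer (P : Set G)) ≤ (Subgroup.normalizer (P : Set G)) := le_sup_right.trans (sup_le_normalizer P)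
  haveI hCnorm : ((Subgroup.centralizer (P : Set G)).subgroupOf (Subgroup.normalizer (P : Set G))).Normal :=
    Subgroup.normal_subgroupOf_of_le_normalizer (fun g hg => mem_normalizer_centralizer hg)
  haveI hPnorm : (P.subgroupOf (Subgroup.normalizer (P : Set G))).Normal := Subgroup.normal_in_normalizer
  have hP₁ : IsPGroup p (P.subgroupOf (Subgroup.normalizer (P : Set G))) := hP.comap_subtype
  have hout₁ : ∀ y, y ∉ (Subgroup.centralizer (P : Set G)).subgroupOf (Subgroup.normalizer (P : Set G)) → ∀ χ : IrrCharacter (Subgroup.normalizer (P : Set G)), centralChar (χ : (Subgroup.normalizer (P : Set G)) → ℂ) y ∈ Iloc M :=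
    fun y hy χ => centralChar_mem_Iloc_of_normal' hM (P.subgroupOf (Subgroup.normalizer (P : Set G))) hP₁ y (fun h => hy
      (Subgroup.mem_subgroupOf.mpr ((mem_cent_sub Subgroup.le_normalizer y).mp h))) χ
  have key : ∀ e₀ : Set (IrrCharacter (Subgroup.centralizer (P : Set G))), IsBrauerPairOf p M B P e₀ →
      ∃ β : Set (IrrCharacter (Subgroup.normalizer (P : Set G))), IsPBlock M β ∧ Covers ((Subgroup.centralizer (P : Set G)).subgroupOf (Subgroup.normalizer (P : Set G))) β (trSet (Subgroup.subgroupOfEquivOfLe hCN) e₀) ∧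
        IsInducedBlock M (Subgroup.normalizer (P : Set G)) β B := by
    intro e₀ he₀
    have he₁ := trSet_isPBlock (M := M) (Subgroup.subgroupOfEquivOfLe hCN) he₀.1.2
    obtain ⟨β, hβ, hcov⟩ := exists_covers ((Subgroup.centralizer (P : Set G)).subgroupOf (Subgroup.normalizer (P : Set G))) he₁
    have hindβ := induced_of_covers ((Subgroup.centralizer (P : Set G)).subgroupOf (Subgroup.normalizer (P : Set G))) hout₁ hβ he₁ hcov
    obtain ⟨B₀, h₀⟩ := exists_induced_centralizer hM hP he₀.1.2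
    have hBB : B = B₀ := (isBrauerPairOf_iff hM hP h₀ B).mp he₀
    refine ⟨β, hβ, hcov, ?_⟩
    rw [hBB]
    exact induced_trans hCN hindβ h₀
  obtain ⟨β, hβ, hcov, hind⟩ := key e he
  obtain ⟨β'', hβ'', hcov'', hind''⟩ := key e'' he''
  have hββ : β'' = β := by
    obtain ⟨b₀, -, hu⟩ := (Cfsg.Agent.S0920.result p M hM P hP).2 B hB hPB
    rw [hu β ⟨hβ, defectGroup_of_induced hM hPB _ Subgroup.le_normalizer hPnorm hind, hind⟩,
      hu β'' ⟨hβ'', defectGroup_of_induced hM hPB _ Subgroup.le_normalizer hPnorm hind'', hind''⟩]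
  rw [hββ] at hcov''
  obtain ⟨χ, hχ, θ, hθ, hcon⟩ := hcov
  obtain ⟨χ'', hχ'', θ'', hθ'', hcon''⟩ := hcov''
  have he₁ := trSet_isPBlock (M := M) (Subgroup.subgroupOfEquivOfLe hCN) he.1.2
  have horb := mem_orb_of_sameBlock ((Subgroup.centralizer (P : Set G)).subgroupOf (Subgroup.normalizer (P : Set G))) he₁ (sameBlock_of_mem hβ hχ hχ'') hθ hcon hcon''
  obtain ⟨g, θ₂, hθ₂, rfl⟩ := horb
  have hgn : (g : G) ∈ Subgroup.normalizer (((Subgroup.centralizer (P : Set G)) : Subgroup G) : Set G) :=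
    mem_normalizer_centralizer g.2
  have hξ₂ : tr (Subgroup.subgroupOfEquivOfLe hCN).symm θ₂ ∈ e := hθ₂
  have hθ3 : tr (Subgroup.subgroupOfEquivOfLe hCN).symm (cj ((Subgroup.centralizer (P : Set G)).subgroupOf (Subgroup.normalizer (P : Set G))) θ₂ g) ∈ e'' := hθ''
  have hcl : tr (Subgroup.subgroupOfEquivOfLe hCN).symm (cj ((Subgroup.centralizer (P : Set G)).subgroupOf (Subgroup.normalizer (P : Set G))) θ₂ g) =
      tr (conjEquiv (Subgroup.centralizer (P : Set G)) (g : G) hgn).symm (tr (Subgroup.subgroupOfEquivOfLe hCN).symm θ₂) := by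
    apply Subtype.ext
    funext c
    rw [tr_apply, cj_apply, tr_apply, tr_apply]
    apply congrArg
    apply Subtype.ext
    apply Subtype.ext
    rfl
  rw [hcl] at hθ3
  have heq : e'' = trSet (conjEquiv (Subgroup.centralizer (P : Set G)) (g : G) hgn).symm e :=
    block_eq_of_mem (M := M) he''.1.2 (trSet_isPBlock _ he.1.2) hθ3 (tr_mem_trSet _ hξ₂)
  refine ⟨(g : G), ?_⟩
  change (⟨_, conjBlock P (g : G) e''⟩ : BrauerPairIdx G) = ⟨P, e⟩
  apply sigma_eq (map_conj_of_mem_normalizer g.2)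
  intro ξ₁ ξ₂ hξ
  rw [conjBlock_eq]
  change tr (centEquiv P (g : G)).symm ξ₁ ∈ e'' ↔ ξ₂ ∈ e
  have h5 : tr (centEquiv P (g : G)).symm ξ₁ = tr (conjEquiv (Subgroup.centralizer (P : Set G)) (g : G) hgn).symm ξ₂ := by
    apply Subtype.ext
    funext c
    rw [tr_apply, tr_apply]
    exact hξ _ _ _
  rw [h5, heq]
  change tr (conjEquiv (Subgroup.centralizer (P : Set G)) (g : G) hgn).symm.symm (tr (conjEquiv (Subgroup.centralizer (P : Set G)) (g : G) hgn).symm ξ₂) ∈ e ↔ _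
  rw [tr_symm_tr]

theorem conj_into_max {M : Ideal AlgInt} {p : ℕ} [Fact p.Prime] (hM : IsPModular p M)
    {B : Set (IrrCharacter G)} {P Q : Subgroup G}
    {e : Set (IrrCharacter (Subgroup.centralizer (P : Set G)))}
    {f : Set (IrrCharacter (Subgroup.centralizer (Q : Set G)))}
    (hmax : IsMaximalBrauerPair p M B P e) (hQf : IsBrauerPairOf p M B Q f) :
    ∃ x : G, SubpairLE p M (Q.map (MulAut.conj x).toMonoidHom) (conjBlock Q x f) P e := by
  obtain ⟨P', e', hmax', hle⟩ := exists_max_above B Q f hQf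
  have hPB := max_pair_defect hM hmax
  have hP'B := max_pair_defect hM hmax'
  obtain ⟨x₀, hx₀⟩ := defect_conj hM hmax.1.2.1 hPB hP'B
  obtain ⟨e'', he''⟩ : ∃ e'', cx x₀ ⟨P', e'⟩ = (⟨P, e''⟩ : BrauerPairIdx G) := by
    have h0 : ∀ a : BrauerPairIdx G, a.1 = P → ∃ e'', a = (⟨P, e''⟩ : BrauerPairIdx G) := by
      rintro ⟨R, S⟩ h
      simp only at h
      subst h
      exact ⟨S, rfl⟩
    exact h0 _ hx₀
  have h1 : IsBrauerPairOf p M B (cx x₀ ⟨P', e'⟩).1 (cx x₀ ⟨P', e'⟩).2 :=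
    pairOf_cx hM x₀ hmax'.1
  rw [he''] at h1
  obtain ⟨n, hn⟩ := same_group_conj hM hPB hmax.1 h1
  refine ⟨n * x₀, ?_⟩
  have h2 := le_cx hM n (le_cx hM x₀ hle)
  rw [cx_mul, he'', hn] at h2
  exact h2

end Cfsg.Agent.Lib.Helper2.BlockBP5
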