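import Mathlib
import Cfsg.Prelude.Def_Blocks
import Cfsg.Agent.Lib.Helper2.BlockFong
import Cfsg.Agent.Lib.Helper2.BlockN
import Cfsg.Agent.Lib.Helper2.BlockMisc
import Cfsg.Agent.Lib.Helper2.BlockAvg
import Cfsg.Agent.Lib.Helper2.BlockCong
import Cfsg.Agent.Lib.Helper2.BlockSM7
import Cfsg.Agent.Lib.Helper2.BlockSM3
import Cfsg.Agent.Lib.Helper2.BlockPr
import Cfsg.Agent.Lib.Helper2.BlockSM5
import Cfsg.Agent.S0906
import Cfsg.Agent.Lib.Helper2.BlockInd
import Cfsg.Agent.Lib.Helper2.BlockReg3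
import Cfsg.Agent.Lib.Helper2.BlockBr
import Cfsg.Agent.S0917
import Cfsg.Agent.Lib.Helper2.BlockFR
import Cfsg.Agent.Lib.Helper2.BlockFR2
import Cfsg.Agent.Lib.Helper2.BlockExt2
import Cfsg.Agent.Lib.Helper7.BInd1
import Cfsg.Agent.Lib.Helper2.BlockFR3
import Cfsg.Agent.Lib.Helper1.Cores
import Cfsg.Agent.S0912
import Cfsg.Agent.S0920
import Cfsg.Agent.Lib.Helper2.BlockFR4
import Cfsg.Agent.Lib.Helper7.BPair3
import Cfsg.Prelude.Def_BrauerPairs
import Cfsg.Agent.Lib.Helper2.BlockBC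
import Cfsg.Agent.Lib.Helper2.BlockBP
import Cfsg.Agent.Lib.Helper2.BlockBP2
import Cfsg.Agent.Lib.Helper2.BlockBP3
import Cfsg.Agent.Lib.Helper2.BlockBP4
import Cfsg.Agent.Lib.Helper2.BlockBP5
import Cfsg.Agent.Lib.Helper2.BlockFong2
import Cfsg.Agent.S0959
import Cfsg.Agent.Lib.Helper7.BPair4
import Cfsg.Agent.Lib.Helper2.BlockFix
import Cfsg.Agent.Lib.Helper7.BPair1
import Cfsg.Agent.Lib.Helper7.BPair2

set_option autoImplicit false
set_option linter.unusedSectionVars false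
set_option linter.unusedVariables false
set_option linter.style.haveILetI false

/-! Miscellaneous consequences of the block library. -/

namespace Cfsg.Agent.Lib.Helper2.BlockBP6

open Cfsg Cfsg.Agent.Lib.Helper7.CharIrr Cfsg.Agent.Lib.Helper7.CharOrth
  Cfsg.Agent.Lib.Helper7.CharIntegral Cfsg.Agent.Lib.Helper7.CharMore
  Cfsg.Agent.Lib.Helper7.CharClassAlg Cfsg.Agent.Lib.Helper7.CharComplete
  Cfsg.Agent.Lib.Helper7.CharDeg Cfsg.Agent.Lib.Helper7.CharGalois
  Cfsg.Agent.Lib.Helper7.CharClassAlg2 Cfsg.Agent.Lib.Helper7.CharBurnside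
  Cfsg.Agent.Lib.Helper7.CharNormal Cfsg.Agent.Lib.Helper7.CharClifford
  Cfsg.Agent.Lib.Helper7.CharInd Cfsg.Agent.Lib.Helper7.CharMisc
  Cfsg.Agent.Lib.Helper2.LocRing
  Cfsg.Agent.Lib.Helper2.BlockZ Cfsg.Agent.Lib.Helper2.BlockDef Cfsg.Agent.Lib.Helper2.BlockOrth
  Cfsg.Agent.Lib.Helper2.BlockSM4 Cfsg.Agent.Lib.Helper2.BlockSub Cfsg.Agent.Lib.Helper2.BlockBr2
  Cfsg.Agent.Lib.Helper2.BlockCov Cfsg.Agent.Lib.Helper2.BlockKer
  Cfsg.Agent.Lib.Helper2.BlockCov2 Cfsg.Agent.Lib.Helper2.BlockLam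
  Cfsg.Agent.Lib.Helper2.BlockFMT Cfsg.Agent.Lib.Helper2.BlockGr3
  Cfsg.Agent.Lib.Helper2.BlockFong Cfsg.Agent.Lib.Helper2.BlockN
  Cfsg.Agent.Lib.Helper2.BlockMisc Cfsg.Agent.Lib.Helper2.BlockAvg Cfsg.Agent.Lib.Helper2.BlockCong
  Cfsg.Agent.Lib.Helper2.BlockSM7 Cfsg.Agent.Lib.Helper2.BlockSM3 Cfsg.Agent.Lib.Helper2.BlockPr
  Cfsg.Agent.Lib.Helper2.BlockSM5 Cfsg.Agent.Lib.Helper2.BlockInd Cfsg.Agent.Lib.Helper2.BlockReg
  Cfsg.Agent.Lib.Helper2.BlockReg2 Cfsg.Agent.Lib.Helper2.BlockReg3 Cfsg.Agent.Lib.Helper2.BlockBr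
  Cfsg.Agent.Lib.Helper2.BlockFR Cfsg.Agent.Lib.Helper2.BlockFR2 Cfsg.Agent.Lib.Helper2.BlockExt
  Cfsg.Agent.Lib.Helper2.BlockFR3 Cfsg.Agent.Lib.Helper2.BlockExt2
open Cfsg.Agent.Lib.Helper2.BlockBC Cfsg.Agent.Lib.Helper2.BlockFix Cfsg.Agent.Lib.Helper2.BlockBP Cfsg.Agent.Lib.Helper2.BlockFR4 Cfsg.Agent.Lib.Helper2.BlockBP2 Cfsg.Agent.Lib.Helper2.BlockBP3 Cfsg.Agent.Lib.Helper2.BlockBP4 Cfsg.Agent.Lib.Helper2.BlockBP5
open Cfsg.Agent.Lib.Helper7.BPair1 (brauerOmega_eq_W br_centralizer exists_induced_centralizer isBrauerPairOf_iff)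
open Cfsg.Agent.Lib.Helper7.BPair2 (conjEquiv mem_normalizer_centralizer)
open Cfsg.Agent.Lib.Helper7.BPair4 (exists_normalizer_gt le_of_subpairLE centEquiv)
open scoped ComplexConjugate

variable {G : Type*} [Group G] [Fintype G]

open Cfsg.Agent.Lib.Helper7.BInd1 (trSet tr_mem_trSet trSet_isPBlock blockDefect_trSet induced_trans)








theorem cent_le_defect {M : Ideal AlgInt} {p : ℕ} [Fact p.Prime] (hM : IsPModular p M)
    {P Q : Subgroup G} {e : Set (IrrCharacter (Subgroup.centralizer (P : Set G)))}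
    {f : Set (IrrCharacter (Subgroup.centralizer (Q : Set G)))}
    (hPe : IsBrauerPair p M P e) (hQP : Q ≤ P) (hf : IsPBlock M f)
    (hle : SubpairLE p M Q f P e) :
    ∃ D : Subgroup (Subgroup.centralizer (Q : Set G)), IsDefectGroup p M f D ∧
      (P ⊓ Subgroup.centralizer (Q : Set G)).subgroupOf (Subgroup.centralizer (Q : Set G)) ≤ D := by
  classical
  haveI := hM.2.1.isPrime
  obtain ⟨R, hR⟩ : ∃ R : Subgroup G, R = Q ⊔ (P ⊓ Subgroup.centralizer (Q : Set G)) := ⟨_, rfl⟩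
  have hRP : R ≤ P := by rw [hR]; exact sup_le hQP inf_le_left
  have hQR : Q ≤ R := by rw [hR]; exact le_sup_left
  have hCR : P ⊓ Subgroup.centralizer (Q : Set G) ≤ R := by rw [hR]; exact le_sup_right
  have hRN : R ≤ Subgroup.normalizer (Q : Set G) := by
    rw [hR]
    exact sup_le Subgroup.le_normalizer
      (inf_le_right.trans (le_sup_right.trans (sup_le_normalizer Q)))
  obtain ⟨g, hg, hchg⟩ := subpair_exists hM hPe R hRP
  obtain ⟨f', hns⟩ := normal_subpair_exists hM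
    (⟨hPe.1.to_le hRP, hg⟩ : IsBrauerPair p M R g) hQR hRN
  have hf' : f' = f := by
    have hns' : NormalSubpairRel p M ⟨Q, f'⟩ ⟨R, g⟩ := hns
    have h1 := subpair_unique hM hPe Q hQP ⟨Q, f'⟩ ⟨Q, f⟩
      (Relation.ReflTransGen.head hns' hchg) hle rfl rfl
    exact eq_of_heq (Sigma.mk.inj h1).2
  rw [hf'] at hns
  obtain ⟨ξ, hξ⟩ := block_nonempty hg
  have hom := hns.2.2.2.2.2 ξ hξ
  have hgood := good_sBC hQR hf hns.2.2.2.2.1
  have hex : ∃ k : Subgroup.centralizer (R : Set G),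
      ¬ MemLocalIdeal M (subgroupBlockCoeff (Subgroup.centralizer (Q : Set G)) f (k : G)) := by
    by_contra hcon
    push Not at hcon
    have h2 : brauerOmega R (subgroupBlockCoeff (Subgroup.centralizer (Q : Set G)) f)
        (ξ : _ → ℂ) ∈ Iloc M := by
      rw [brauerOmega_eq_W]; exact W_mem_Iloc ξ hgood.2.1 hcon
    apply one_notMem_Iloc (M := M)
    have h3 := (Iloc M).sub_mem h2 hom
    simpa using h3
  obtain ⟨k, hk⟩ := hex
  have hkQ : (k : G) ∈ Subgroup.centralizer (Q : Set G) := Subgroup.centralizer_le hQR k.2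
  rw [sBC_eq_ext0, ext0_mem _ _ hkQ] at hk
  obtain ⟨D₀, hD₀⟩ := exists_defectGroup hM hf
  have hPc : IsPGroup p ((P ⊓ Subgroup.centralizer (Q : Set G)).subgroupOf
      (Subgroup.centralizer (Q : Set G))) := (hPe.1.to_le inf_le_left).comap_subtype
  obtain ⟨y, hy⟩ := (Cfsg.Agent.S0959.result p M hM f hf D₀ hD₀ _ hPc).mp
    ⟨⟨k, hkQ⟩, blockCoeff_mem_Rloc f (block_closed hf) _, hk, ⟨k, hkQ⟩, IsConj.refl _, by
      rw [Subgroup.mem_centralizer_iff]
      intro q hq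
      apply Subtype.ext
      exact Subgroup.mem_centralizer_iff.mp k.2 q (hCR (Subgroup.mem_subgroupOf.mp hq))⟩
  refine ⟨D₀.map (MulAut.conj y⁻¹).toMonoidHom, isDefectGroup_conj hM hf hD₀ y⁻¹, ?_⟩
  intro q hq
  refine ⟨y * q * y⁻¹, hy ⟨q, hq, by simp⟩, ?_⟩
  have h2 : (MulAut.conj y⁻¹).toMonoidHom (y * q * y⁻¹) = y⁻¹ * (y * q * y⁻¹) * y⁻¹⁻¹ := by simp
  rw [h2]
  group

/-- subgroup of elements under whose conjugation `a` is invariant -/
def invSub (a : G → ℂ) : Subgroup G where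
  carrier := {y | ∀ g, a (y * g * y⁻¹) = a g}
  mul_mem' := by
    intro y z hy hz g
    have h1 : y * z * g * (y * z)⁻¹ = y * (z * g * z⁻¹) * y⁻¹ := by group
    rw [h1, hy, hz]
  one_mem' := by
    intro g
    simp
  inv_mem' := by
    intro y hy g
    have h1 := hy (y⁻¹ * g * y⁻¹⁻¹)
    have h2 : y * (y⁻¹ * g * y⁻¹⁻¹) * y⁻¹ = g := by group
    rw [h2] at h1
    exact h1.symm

theorem exists_full_cent {M : Ideal AlgInt} {p : ℕ} [Fact p.Prime] (hM : IsPModular p M)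
    {B : Set (IrrCharacter G)} {P Q : Subgroup G}
    {e : Set (IrrCharacter (Subgroup.centralizer (P : Set G)))}
    {f : Set (IrrCharacter (Subgroup.centralizer (Q : Set G)))}
    (hmax : IsMaximalBrauerPair p M B P e) (hQP : Q ≤ P) (hf : IsPBlock M f)
    (hle : SubpairLE p M Q f P e) :
    ∃ x : G, SubpairLE p M (Q.map (MulAut.conj x).toMonoidHom) (conjBlock Q x f) P e ∧
      IsDefectGroup p M (conjBlock Q x f)
        ((P ⊓ Subgroup.centralizer ((Q.map (MulAut.conj x).toMonoidHom) : Set G)).subgroupOf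
          (Subgroup.centralizer ((Q.map (MulAut.conj x).toMonoidHom) : Set G))) := by
  classical
  haveI := hM.2.1.isPrime
  have hPe : IsBrauerPair p M P e := hmax.1.1
  have hQ : IsPGroup p Q := hPe.1.to_le hQP
  have hQB : IsBrauerPairOf p M B Q f := (pair_le_iff hM hle B).mpr hmax.1
  have hCN : Subgroup.centralizer (Q : Set G) ≤ Subgroup.normalizer (Q : Set G) :=
    le_sup_right.trans (sup_le_normalizer Q)
  obtain ⟨D, hD⟩ := exists_defectGroup hM hf
  obtain ⟨DG, hDG⟩ : ∃ DG : Subgroup G,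
      DG = D.map (Subgroup.centralizer (Q : Set G)).subtype := ⟨_, rfl⟩
  have hDGC : DG ≤ Subgroup.centralizer (Q : Set G) := by
    rw [hDG]; rintro _ ⟨y, -, rfl⟩; exact y.2
  have hDGp : IsPGroup p DG := by rw [hDG]; exact (isPGroup_of_isDefectGroup hD).map _
  obtain ⟨Dt, hDt⟩ : ∃ Dt : Subgroup G, Dt = DG ⊔ Q := ⟨_, rfl⟩
  have hDtp : IsPGroup p Dt := by
    rw [hDt]; exact IsPGroup.to_sup_of_normal_right' hDGp hQ (hDGC.trans hCN)
  have hQDt : Q ≤ Dt := by rw [hDt]; exact le_sup_right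
  have hDGDt : DG ≤ Dt := by rw [hDt]; exact le_sup_left
  have hDtN : Dt ≤ Subgroup.normalizer (Q : Set G) := by
    rw [hDt]; exact sup_le (hDGC.trans hCN) Subgroup.le_normalizer
  have hinvC : Subgroup.centralizer (Q : Set G) ≤
      invSub (subgroupBlockCoeff (Subgroup.centralizer (Q : Set G)) f) := by
    intro c hc g
    rw [sBC_eq_ext0]
    exact ext0_conj _ (blockCoeff_isClass f) hc g
  have hinvQ : Q ≤ invSub (subgroupBlockCoeff (Subgroup.centralizer (Q : Set G)) f) := by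
    intro q hq g
    by_cases hg : g ∈ Subgroup.centralizer (Q : Set G)
    · have h1 : q * g * q⁻¹ = g := by
        rw [Subgroup.mem_centralizer_iff.mp hg q hq]; group
      rw [h1]
    · rw [sBC_eq_ext0, ext0_notMem _ _ hg, ext0_notMem]
      intro h
      exact hg ((conj_mem_centralizer_iff (Subgroup.le_normalizer hq)).mp h)
  have hinv : ∀ y ∈ Dt, ∀ g, subgroupBlockCoeff (Subgroup.centralizer (Q : Set G)) f
      (y * g * y⁻¹) = subgroupBlockCoeff (Subgroup.centralizer (Q : Set G)) f g := by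
    intro y hy
    rw [hDt] at hy
    exact (sup_le (hDGC.trans hinvC) hinvQ) hy
  have hst : ∀ y ∈ Dt, StabilizesBlock (Subgroup.centralizer (Q : Set G)) f y :=
    fun y hy => stabilizes_of_sBC (M := M) _ (mem_normalizer_centralizer (hDtN hy)) (hinv y hy)
  have hgood := good_sBC hQDt hf hst
  obtain ⟨k, hk, hkf⟩ := mem_centralizer_of_defectGroup hD
  have hkD : (k : G) ∈ Subgroup.centralizer (Dt : Set G) := by
    have h1 : Dt ≤ Subgroup.centralizer ({(k : G)} : Set G) := by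
      rw [hDt]
      apply sup_le
      · rw [hDG]
        rintro _ ⟨d, hd, rfl⟩
        rw [Subgroup.mem_centralizer_iff]
        intro z hz
        rw [Set.mem_singleton_iff] at hz
        rw [hz]
        exact (congrArg Subtype.val (Subgroup.mem_centralizer_iff.mp hk d hd)).symm
      · intro q hq
        rw [Subgroup.mem_centralizer_iff]
        intro z hz
        rw [Set.mem_singleton_iff] at hz
        rw [hz]
        exact (Subgroup.mem_centralizer_iff.mp k.2 q hq).symm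
    rw [Subgroup.mem_centralizer_iff]
    intro y hy
    exact (Subgroup.mem_centralizer_iff.mp (h1 hy) k (Set.mem_singleton _)).symm
  obtain ⟨h', hh', hom⟩ := exists_pair_above hM hDtp hgood.1 hgood.2.1 hgood.2.2.1 hgood.2.2.2
    hkD (by rw [sBC_eq_ext0, ext0_coe]; exact hkf)
  have hns : IsNormalSubpair p M Q f Dt h' := ⟨⟨hQ, hf⟩, ⟨hDtp, hh'⟩, hQDt, hDtN, hst, hom⟩
  have hDB := pair_up hM hns hQB
  obtain ⟨x, hx⟩ := conj_into_max hM hmax hDB
  have hns' : NormalSubpairRel p M (cx x ⟨Q, f⟩) (cx x ⟨Dt, h'⟩) := normal_cx hM x hns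
  have hle' : SubpairLE p M (Q.map (MulAut.conj x).toMonoidHom) (conjBlock Q x f) P e :=
    Relation.ReflTransGen.head hns' hx
  refine ⟨x, hle', ?_⟩
  have hf' : IsPBlock M (conjBlock Q x f) := hns'.1.2
  have hQxP : Q.map (MulAut.conj x).toMonoidHom ≤ P := le_of_subpairLE hle'
  obtain ⟨D', hD', hle2⟩ := cent_le_defect hM hPe hQxP hf' hle'
  have hDtxP : Dt.map (MulAut.conj x).toMonoidHom ≤ P := le_of_subpairLE hx
  have hc1 : Nat.card D' = Nat.card D := by
    rw [card_defectGroup hM hf' hD', card_defectGroup hM hf hD, conjBlock_eq, blockDefect_trSet]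
  have h1 : DG.map (MulAut.conj x).toMonoidHom ≤
      P ⊓ Subgroup.centralizer ((Q.map (MulAut.conj x).toMonoidHom) : Set G) := by
    apply le_inf ((Subgroup.map_mono hDGDt).trans hDtxP)
    rintro _ ⟨d, hd, rfl⟩
    rw [mem_cent_conj]
    have h2 : x⁻¹ * (MulAut.conj x).toMonoidHom d * x = d := by
      have h3 : (MulAut.conj x).toMonoidHom d = x * d * x⁻¹ := by simp
      rw [h3]; group
    rw [h2]
    exact hDGC hd
  have hc2 : Nat.card D ≤ Nat.card ((P ⊓ Subgroup.centralizer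
      ((Q.map (MulAut.conj x).toMonoidHom) : Set G)).subgroupOf
      (Subgroup.centralizer ((Q.map (MulAut.conj x).toMonoidHom) : Set G))) := by
    calc Nat.card D = Nat.card DG := by
          rw [hDG]
          exact Nat.card_congr (Subgroup.equivMapOfInjective D _
            (Subgroup.subtype_injective _)).toEquiv
      _ = Nat.card (DG.map (MulAut.conj x).toMonoidHom) :=
          Nat.card_congr (Subgroup.equivMapOfInjective DG _ (MulAut.conj x).injective).toEquiv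
      _ ≤ Nat.card (P ⊓ Subgroup.centralizer
          ((Q.map (MulAut.conj x).toMonoidHom) : Set G) : Subgroup G) :=
          Subgroup.card_le_of_le h1
      _ = _ := (Nat.card_congr (Subgroup.subgroupOfEquivOfLe inf_le_right).toEquiv).symm
  have h4 := Subgroup.eq_of_le_of_card_ge hle2 (by rw [hc1]; exact hc2)
  rw [h4]
  exact hD'

end Cfsg.Agent.Lib.Helper2.BlockBP6
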