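import Mathlib
import Cfsg.Prelude.Def_Blocks
import Cfsg.Agent.Lib.Helper2.BlockFong
import Cfsg.Agent.Lib.Helper2.BlockN
import Cfsg.Agent.Lib.Helper2.BlockMisc
import Cfsg.Agent.Lib.Helper2.BlockAvg
import Cfsg.Agent.Lib.Helper2.BlockCong
import Cfsg.Agent.Lib.Helper2.BlockSM7
import Cfsg.Agent.Lib.Helper2.BlockSM3
import Cfsg.Agent.Lib.Helper2.BlockPr
import Cfsg.Agent.Lib.Helper2.BlockSM5
import Cfsg.Agent.S0906
import Cfsg.Agent.Lib.Helper2.BlockInd
import Cfsg.Agent.Lib.Helper2.BlockReg3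
import Cfsg.Agent.Lib.Helper2.BlockBr
import Cfsg.Agent.S0917
import Cfsg.Agent.Lib.Helper2.BlockFR
import Cfsg.Agent.Lib.Helper2.BlockFR2
import Cfsg.Agent.Lib.Helper2.BlockExt2
import Cfsg.Agent.Lib.Helper7.BInd1
import Cfsg.Agent.Lib.Helper2.BlockFR3
import Cfsg.Agent.Lib.Helper1.Cores
import Cfsg.Agent.S0912
import Cfsg.Agent.S0920
import Cfsg.Agent.Lib.Helper2.BlockFR4
import Cfsg.Agent.Lib.Helper7.BPair3
import Cfsg.Prelude.Def_BrauerPairs
import Cfsg.Agent.Lib.Helper2.BlockBC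
import Cfsg.Agent.Lib.Helper2.BlockBP
import Cfsg.Agent.Lib.Helper2.BlockBP2
import Cfsg.Agent.Lib.Helper2.BlockBP3
import Cfsg.Agent.Lib.Helper2.BlockBP4
import Cfsg.Agent.Lib.Helper2.BlockBP5
import Cfsg.Agent.Lib.Helper2.BlockBP6
import Cfsg.Prelude.Def_BlockFusion
import Cfsg.Agent.Lib.Helper2.BlockFong2
import Cfsg.Agent.S0959
import Cfsg.Agent.Lib.Helper7.BPair4
import Cfsg.Agent.Lib.Helper2.BlockFix
import Cfsg.Agent.Lib.Helper7.BPair1
import Cfsg.Agent.Lib.Helper7.BPair2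

set_option autoImplicit false
set_option linter.unusedSectionVars false
set_option linter.unusedVariables false
set_option linter.style.haveILetI false

/-! Miscellaneous consequences of the block library. -/

namespace Cfsg.Agent.Lib.Helper2.BlockBP7

open Cfsg Cfsg.Agent.Lib.Helper7.CharIrr Cfsg.Agent.Lib.Helper7.CharOrth
  Cfsg.Agent.Lib.Helper7.CharIntegral Cfsg.Agent.Lib.Helper7.CharMore
  Cfsg.Agent.Lib.Helper7.CharClassAlg Cfsg.Agent.Lib.Helper7.CharComplete
  Cfsg.Agent.Lib.Helper7.CharDeg Cfsg.Agent.Lib.Helper7.CharGalois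
  Cfsg.Agent.Lib.Helper7.CharClassAlg2 Cfsg.Agent.Lib.Helper7.CharBurnside
  Cfsg.Agent.Lib.Helper7.CharNormal Cfsg.Agent.Lib.Helper7.CharClifford
  Cfsg.Agent.Lib.Helper7.CharInd Cfsg.Agent.Lib.Helper7.CharMisc
  Cfsg.Agent.Lib.Helper2.LocRing
  Cfsg.Agent.Lib.Helper2.BlockZ Cfsg.Agent.Lib.Helper2.BlockDef Cfsg.Agent.Lib.Helper2.BlockOrth
  Cfsg.Agent.Lib.Helper2.BlockSM4 Cfsg.Agent.Lib.Helper2.BlockSub Cfsg.Agent.Lib.Helper2.BlockBr2
  Cfsg.Agent.Lib.Helper2.BlockCov Cfsg.Agent.Lib.Helper2.BlockKer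
  Cfsg.Agent.Lib.Helper2.BlockCov2 Cfsg.Agent.Lib.Helper2.BlockLam
  Cfsg.Agent.Lib.Helper2.BlockFMT Cfsg.Agent.Lib.Helper2.BlockGr3
  Cfsg.Agent.Lib.Helper2.BlockFong Cfsg.Agent.Lib.Helper2.BlockN
  Cfsg.Agent.Lib.Helper2.BlockMisc Cfsg.Agent.Lib.Helper2.BlockAvg Cfsg.Agent.Lib.Helper2.BlockCong
  Cfsg.Agent.Lib.Helper2.BlockSM7 Cfsg.Agent.Lib.Helper2.BlockSM3 Cfsg.Agent.Lib.Helper2.BlockPr
  Cfsg.Agent.Lib.Helper2.BlockSM5 Cfsg.Agent.Lib.Helper2.BlockInd Cfsg.Agent.Lib.Helper2.BlockReg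
  Cfsg.Agent.Lib.Helper2.BlockReg2 Cfsg.Agent.Lib.Helper2.BlockReg3 Cfsg.Agent.Lib.Helper2.BlockBr
  Cfsg.Agent.Lib.Helper2.BlockFR Cfsg.Agent.Lib.Helper2.BlockFR2 Cfsg.Agent.Lib.Helper2.BlockExt
  Cfsg.Agent.Lib.Helper2.BlockFR3 Cfsg.Agent.Lib.Helper2.BlockExt2
open Cfsg.Agent.Lib.Helper2.BlockBC Cfsg.Agent.Lib.Helper2.BlockFix Cfsg.Agent.Lib.Helper2.BlockBP Cfsg.Agent.Lib.Helper2.BlockFR4 Cfsg.Agent.Lib.Helper2.BlockBP2 Cfsg.Agent.Lib.Helper2.BlockBP3 Cfsg.Agent.Lib.Helper2.BlockBP4 Cfsg.Agent.Lib.Helper2.BlockBP5 Cfsg.Agent.Lib.Helper2.BlockBP6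
open Cfsg.Agent.Lib.Helper7.BPair1 (brauerOmega_eq_W br_centralizer exists_induced_centralizer isBrauerPairOf_iff)
open Cfsg.Agent.Lib.Helper7.BPair2 (conjEquiv mem_normalizer_centralizer)
open Cfsg.Agent.Lib.Helper7.BPair4 (exists_normalizer_gt le_of_subpairLE centEquiv)
open scoped ComplexConjugate

variable {G : Type*} [Group G] [Fintype G]

open Cfsg.Agent.Lib.Helper7.BInd1 (trSet tr_mem_trSet trSet_isPBlock blockDefect_trSet induced_trans)









theorem conj_data {M : Ideal AlgInt} {p : ℕ} [Fact p.Prime] (hM : IsPModular p M)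
    {B : Set (IrrCharacter G)} {P Q : Subgroup G}
    {e : Set (IrrCharacter (Subgroup.centralizer (P : Set G)))}
    {f : Set (IrrCharacter (Subgroup.centralizer (Q : Set G)))} {F : FusionSystem P}
    (hF : IsBlockFusionSystemOn p M B P e F) (hle : SubpairLE p M Q f P e) {R : Subgroup G}
    (hR : F.IsConj Q R) :
    ∃ g : G, R = Q.map (MulAut.conj g).toMonoidHom ∧
      SubpairLE p M (Q.map (MulAut.conj g).toMonoidHom) (conjBlock Q g f) P e := by
  obtain ⟨φ, hφ, hr⟩ := hR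
  obtain ⟨hQP, g, hg, hgP, f₁, h1, h2⟩ := (hF.2 Q φ).mp hφ
  have hf : f₁ = f := by
    have h3 := subpair_unique hM hF.1.1.1 Q hQP ⟨Q, f₁⟩ ⟨Q, f⟩ h1 hle rfl rfl
    exact eq_of_heq (Sigma.mk.inj h3).2
  rw [hf] at h2
  refine ⟨g, ?_, h2⟩
  rw [← hr]
  ext y
  constructor
  · rintro ⟨u, rfl⟩
    exact ⟨u, u.2, by rw [hg u]; simp⟩
  · rintro ⟨u, hu, rfl⟩
    exact ⟨⟨u, hu⟩, by rw [hg]; simp⟩

theorem conj_mem {M : Ideal AlgInt} {p : ℕ}
    {B : Set (IrrCharacter G)} {P Q : Subgroup G}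
    {e : Set (IrrCharacter (Subgroup.centralizer (P : Set G)))}
    {f : Set (IrrCharacter (Subgroup.centralizer (Q : Set G)))} {F : FusionSystem P}
    (hF : IsBlockFusionSystemOn p M B P e F) (hle : SubpairLE p M Q f P e) {x : G}
    (hx : SubpairLE p M (Q.map (MulAut.conj x).toMonoidHom) (conjBlock Q x f) P e) :
    F.IsConj Q (Q.map (MulAut.conj x).toMonoidHom) := by
  refine ⟨(MulAut.conj x).toMonoidHom.comp Q.subtype, ?_, ?_⟩
  · rw [hF.2]
    exact ⟨le_of_subpairLE hle, x, fun u => by simp, le_of_subpairLE hx, f, hle, hx⟩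
  · ext y
    constructor
    · rintro ⟨u, rfl⟩
      exact ⟨u, u.2, rfl⟩
    · rintro ⟨u, hu, rfl⟩
      exact ⟨⟨u, hu⟩, rfl⟩

theorem card_cent_le {M : Ideal AlgInt} {p : ℕ} [Fact p.Prime] (hM : IsPModular p M)
    {P Q : Subgroup G} {e : Set (IrrCharacter (Subgroup.centralizer (P : Set G)))}
    {f : Set (IrrCharacter (Subgroup.centralizer (Q : Set G)))}
    (hPe : IsBrauerPair p M P e) (hf : IsPBlock M f) (hle : SubpairLE p M Q f P e) :
    Nat.card (P ⊓ Subgroup.centralizer (Q : Set G) : Subgroup G) ≤ p ^ blockDefect p f ∧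
    (p ^ blockDefect p f ≤ Nat.card (P ⊓ Subgroup.centralizer (Q : Set G) : Subgroup G) →
      IsDefectGroup p M f ((P ⊓ Subgroup.centralizer (Q : Set G)).subgroupOf
        (Subgroup.centralizer (Q : Set G)))) := by
  classical
  obtain ⟨D, hD, hle2⟩ := cent_le_defect hM hPe (le_of_subpairLE hle) hf hle
  have hc := card_defectGroup hM hf hD
  have hc2 : Nat.card ((P ⊓ Subgroup.centralizer (Q : Set G)).subgroupOf
      (Subgroup.centralizer (Q : Set G))) =
      Nat.card (P ⊓ Subgroup.centralizer (Q : Set G) : Subgroup G) :=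
    Nat.card_congr (Subgroup.subgroupOfEquivOfLe inf_le_right).toEquiv
  constructor
  · rw [← hc, ← hc2]
    exact Subgroup.card_le_of_le hle2
  · intro h
    have h4 := Subgroup.eq_of_le_of_card_ge hle2 (by rw [hc, hc2]; exact h)
    rw [h4]
    exact hD

theorem blockDefect_conjBlock (p : ℕ) (Q : Subgroup G) (x : G)
    (f : Set (IrrCharacter (Subgroup.centralizer (Q : Set G)))) :
    blockDefect p (conjBlock Q x f) = blockDefect p f := by
  classical
  rw [conjBlock_eq, blockDefect_trSet]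

theorem isPBlock_conjBlock {M : Ideal AlgInt} [M.IsPrime] (Q : Subgroup G) (x : G)
    {f : Set (IrrCharacter (Subgroup.centralizer (Q : Set G)))} (hf : IsPBlock M f) :
    IsPBlock M (conjBlock Q x f) := by
  classical
  rw [conjBlock_eq]
  exact trSet_isPBlock _ hf

theorem fully_centralized_iff {M : Ideal AlgInt} {p : ℕ} [Fact p.Prime] (hM : IsPModular p M)
    {B : Set (IrrCharacter G)} {P Q : Subgroup G}
    {e : Set (IrrCharacter (Subgroup.centralizer (P : Set G)))}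
    {f : Set (IrrCharacter (Subgroup.centralizer (Q : Set G)))} {F : FusionSystem P}
    (hF : IsBlockFusionSystemOn p M B P e F) (hQP : Q ≤ P) (hf : IsPBlock M f)
    (hle : SubpairLE p M Q f P e) :
    F.IsFullyCentralized Q ↔ IsDefectGroup p M f
      ((P ⊓ Subgroup.centralizer (Q : Set G)).subgroupOf (Subgroup.centralizer (Q : Set G))) := by
  classical
  haveI := hM.2.1.isPrime
  have hPe := hF.1.1.1
  constructor
  · rintro ⟨-, h⟩
    obtain ⟨x, hx, hxD⟩ := exists_full_cent hM hF.1 hQP hf hle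
    have h1 := h _ (conj_mem hF hle hx)
    apply (card_cent_le hM hPe hf hle).2
    have h2 := card_defectGroup hM (isPBlock_conjBlock Q x hf) hxD
    rw [blockDefect_conjBlock] at h2
    rw [← h2]
    have h3 : Nat.card ((P ⊓ Subgroup.centralizer
        ((Q.map (MulAut.conj x).toMonoidHom) : Set G)).subgroupOf
        (Subgroup.centralizer ((Q.map (MulAut.conj x).toMonoidHom) : Set G))) =
        Nat.card (P ⊓ Subgroup.centralizer
          ((Q.map (MulAut.conj x).toMonoidHom) : Set G) : Subgroup G) :=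
      Nat.card_congr (Subgroup.subgroupOfEquivOfLe inf_le_right).toEquiv
    rw [h3]
    exact h1
  · intro hD
    refine ⟨hQP, ?_⟩
    intro R hR
    obtain ⟨g, rfl, hg⟩ := conj_data hM hF hle hR
    have h1 := (card_cent_le hM hPe (isPBlock_conjBlock Q g hf) hg).1
    rw [blockDefect_conjBlock, ← card_defectGroup hM hf hD] at h1
    have h3 : Nat.card ((P ⊓ Subgroup.centralizer (Q : Set G)).subgroupOf
        (Subgroup.centralizer (Q : Set G))) =
        Nat.card (P ⊓ Subgroup.centralizer (Q : Set G) : Subgroup G) :=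
      Nat.card_congr (Subgroup.subgroupOfEquivOfLe inf_le_right).toEquiv
    rw [h3] at h1
    exact h1

theorem center_map (Q : Subgroup G) (x : G) :
    (Q ⊓ Subgroup.centralizer (Q : Set G)).map (MulAut.conj x).toMonoidHom =
      Q.map (MulAut.conj x).toMonoidHom ⊓
        Subgroup.centralizer ((Q.map (MulAut.conj x).toMonoidHom : Subgroup G) : Set G) := by
  have hc : ∀ u : G, x⁻¹ * (MulAut.conj x).toMonoidHom u * x = u := by
    intro u
    have h3 : (MulAut.conj x).toMonoidHom u = x * u * x⁻¹ := by simp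
    rw [h3]; group
  ext y
  constructor
  · rintro ⟨u, hu, rfl⟩
    have hu' := Subgroup.mem_inf.mp hu
    apply Subgroup.mem_inf.mpr
    refine ⟨⟨u, hu'.1, rfl⟩, ?_⟩
    rw [mem_cent_conj, hc]
    exact hu'.2
  · intro hy
    obtain ⟨⟨u, hu, rfl⟩, h2⟩ := Subgroup.mem_inf.mp hy
    rw [mem_cent_conj, hc] at h2
    exact ⟨u, Subgroup.mem_inf.mpr ⟨hu, h2⟩, rfl⟩

theorem card_center_conj (Q : Subgroup G) (x : G) :
    Nat.card (Q.map (MulAut.conj x).toMonoidHom ⊓
      Subgroup.centralizer ((Q.map (MulAut.conj x).toMonoidHom : Subgroup G) : Set G) :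
        Subgroup G) = Nat.card (Q ⊓ Subgroup.centralizer (Q : Set G) : Subgroup G) := by
  rw [← center_map]
  exact (Nat.card_congr (Subgroup.equivMapOfInjective _ _ (MulAut.conj x).injective).toEquiv).symm

theorem centric_iff {M : Ideal AlgInt} {p : ℕ} [Fact p.Prime] (hM : IsPModular p M)
    {B : Set (IrrCharacter G)} {P Q : Subgroup G}
    {e : Set (IrrCharacter (Subgroup.centralizer (P : Set G)))}
    {f : Set (IrrCharacter (Subgroup.centralizer (Q : Set G)))} {F : FusionSystem P}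
    (hF : IsBlockFusionSystemOn p M B P e F) (hQP : Q ≤ P) (hf : IsPBlock M f)
    (hle : SubpairLE p M Q f P e) :
    F.IsCentric Q ↔ IsDefectGroup p M f
      ((Q ⊓ Subgroup.centralizer (Q : Set G)).subgroupOf (Subgroup.centralizer (Q : Set G))) := by
  classical
  haveI := hM.2.1.isPrime
  have hPe := hF.1.1.1
  have hcz : Nat.card ((Q ⊓ Subgroup.centralizer (Q : Set G)).subgroupOf
      (Subgroup.centralizer (Q : Set G))) =
      Nat.card (Q ⊓ Subgroup.centralizer (Q : Set G) : Subgroup G) :=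
    Nat.card_congr (Subgroup.subgroupOfEquivOfLe inf_le_right).toEquiv
  constructor
  · rintro ⟨-, h⟩
    obtain ⟨x, hx, hxD⟩ := exists_full_cent hM hF.1 hQP hf hle
    have h1 : P ⊓ Subgroup.centralizer ((Q.map (MulAut.conj x).toMonoidHom : Subgroup G) : Set G)
        ≤ Q.map (MulAut.conj x).toMonoidHom := h _ (conj_mem hF hle hx)
    have h2 := card_defectGroup hM (isPBlock_conjBlock Q x hf) hxD
    rw [blockDefect_conjBlock] at h2
    have h3 : Nat.card ((P ⊓ Subgroup.centralizer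
        ((Q.map (MulAut.conj x).toMonoidHom) : Set G)).subgroupOf
        (Subgroup.centralizer ((Q.map (MulAut.conj x).toMonoidHom) : Set G))) =
        Nat.card (P ⊓ Subgroup.centralizer
          ((Q.map (MulAut.conj x).toMonoidHom) : Set G) : Subgroup G) :=
      Nat.card_congr (Subgroup.subgroupOfEquivOfLe inf_le_right).toEquiv
    rw [h3] at h2
    have h4 : p ^ blockDefect p f ≤ Nat.card (Q ⊓ Subgroup.centralizer (Q : Set G) : Subgroup G) := by
      rw [← h2, ← card_center_conj Q x]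
      exact Subgroup.card_le_of_le (le_inf h1 inf_le_right)
    obtain ⟨D, hD, hle2⟩ := cent_le_defect hM hPe hQP hf hle
    have h5 : (Q ⊓ Subgroup.centralizer (Q : Set G)).subgroupOf
        (Subgroup.centralizer (Q : Set G)) ≤ D := by
      refine le_trans ?_ hle2
      intro y hy
      have hy' := Subgroup.mem_inf.mp (Subgroup.mem_subgroupOf.mp hy)
      exact Subgroup.mem_subgroupOf.mpr (Subgroup.mem_inf.mpr ⟨hQP hy'.1, hy'.2⟩)
    have h6 := Subgroup.eq_of_le_of_card_ge h5 (by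
      rw [card_defectGroup hM hf hD, hcz]; exact h4)
    rw [h6]
    exact hD
  · intro hD
    refine ⟨hQP, ?_⟩
    intro R hR
    obtain ⟨g, rfl, hg⟩ := conj_data hM hF hle hR
    have h1 := (card_cent_le hM hPe (isPBlock_conjBlock Q g hf) hg).1
    rw [blockDefect_conjBlock, ← card_defectGroup hM hf hD, hcz, ← card_center_conj Q g] at h1
    have h2 : Q.map (MulAut.conj g).toMonoidHom ⊓
        Subgroup.centralizer ((Q.map (MulAut.conj g).toMonoidHom : Subgroup G) : Set G) ≤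
        P ⊓ Subgroup.centralizer ((Q.map (MulAut.conj g).toMonoidHom : Subgroup G) : Set G) :=
      inf_le_inf_right _ (le_of_subpairLE hg)
    have h3 := Subgroup.eq_of_le_of_card_ge h2 h1
    change P ⊓ Subgroup.centralizer ((Q.map (MulAut.conj g).toMonoidHom : Subgroup G) : Set G) ≤ _
    rw [← h3]
    exact inf_le_left

end Cfsg.Agent.Lib.Helper2.BlockBP7
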