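import Mathlib
import Cfsg.Prelude.Def_Blocks
import Cfsg.Agent.Lib.Helper2.BlockFong
import Cfsg.Agent.Lib.Helper2.BlockN
import Cfsg.Agent.Lib.Helper2.BlockMisc
import Cfsg.Agent.Lib.Helper2.BlockAvg
import Cfsg.Agent.Lib.Helper2.BlockCong
import Cfsg.Agent.Lib.Helper2.BlockSM7
import Cfsg.Agent.Lib.Helper2.BlockSM3
import Cfsg.Agent.Lib.Helper2.BlockPr
import Cfsg.Agent.Lib.Helper2.BlockSM5
import Cfsg.Agent.S0906
import Cfsg.Agent.Lib.Helper2.BlockInd
import Cfsg.Agent.Lib.Helper2.BlockReg3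
import Cfsg.Agent.Lib.Helper2.BlockBr
import Cfsg.Agent.S0917
import Cfsg.Agent.Lib.Helper2.BlockFR
import Cfsg.Agent.Lib.Helper2.BlockFR2
import Cfsg.Agent.Lib.Helper2.BlockExt2
import Cfsg.Agent.Lib.Helper7.BInd1
import Cfsg.Agent.Lib.Helper2.BlockFR3
import Cfsg.Agent.Lib.Helper1.Cores
import Cfsg.Agent.S0912
import Cfsg.Agent.S0920
import Cfsg.Agent.Lib.Helper2.BlockFR4
import Cfsg.Agent.Lib.Helper7.BPair3
import Cfsg.Prelude.Def_BrauerPairs
import Cfsg.Agent.Lib.Helper2.BlockBC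
import Cfsg.Agent.Lib.Helper2.BlockBP
import Cfsg.Agent.Lib.Helper2.BlockBP2
import Cfsg.Agent.Lib.Helper2.BlockBP3
import Cfsg.Agent.Lib.Helper2.BlockBP4
import Cfsg.Agent.Lib.Helper2.BlockBP5
import Cfsg.Agent.Lib.Helper2.BlockBP6
import Cfsg.Agent.Lib.Helper2.BlockBP7
import Cfsg.Prelude.Def_BlockFusion
import Cfsg.Agent.Lib.Helper2.BlockFong2
import Cfsg.Agent.S0959
import Cfsg.Agent.Lib.Helper7.BPair4
import Cfsg.Agent.Lib.Helper2.BlockFix
import Cfsg.Agent.Lib.Helper7.BPair1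
import Cfsg.Agent.Lib.Helper7.BPair2

set_option autoImplicit false
set_option linter.unusedSectionVars false
set_option linter.unusedVariables false
set_option linter.style.haveILetI false

/-! Miscellaneous consequences of the block library. -/

namespace Cfsg.Agent.Lib.Helper2.BlockBP8

open Cfsg Cfsg.Agent.Lib.Helper7.CharIrr Cfsg.Agent.Lib.Helper7.CharOrth
  Cfsg.Agent.Lib.Helper7.CharIntegral Cfsg.Agent.Lib.Helper7.CharMore
  Cfsg.Agent.Lib.Helper7.CharClassAlg Cfsg.Agent.Lib.Helper7.CharComplete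
  Cfsg.Agent.Lib.Helper7.CharDeg Cfsg.Agent.Lib.Helper7.CharGalois
  Cfsg.Agent.Lib.Helper7.CharClassAlg2 Cfsg.Agent.Lib.Helper7.CharBurnside
  Cfsg.Agent.Lib.Helper7.CharNormal Cfsg.Agent.Lib.Helper7.CharClifford
  Cfsg.Agent.Lib.Helper7.CharInd Cfsg.Agent.Lib.Helper7.CharMisc
  Cfsg.Agent.Lib.Helper2.LocRing
  Cfsg.Agent.Lib.Helper2.BlockZ Cfsg.Agent.Lib.Helper2.BlockDef Cfsg.Agent.Lib.Helper2.BlockOrth
  Cfsg.Agent.Lib.Helper2.BlockSM4 Cfsg.Agent.Lib.Helper2.BlockSub Cfsg.Agent.Lib.Helper2.BlockBr2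
  Cfsg.Agent.Lib.Helper2.BlockCov Cfsg.Agent.Lib.Helper2.BlockKer
  Cfsg.Agent.Lib.Helper2.BlockCov2 Cfsg.Agent.Lib.Helper2.BlockLam
  Cfsg.Agent.Lib.Helper2.BlockFMT Cfsg.Agent.Lib.Helper2.BlockGr3
  Cfsg.Agent.Lib.Helper2.BlockFong Cfsg.Agent.Lib.Helper2.BlockN
  Cfsg.Agent.Lib.Helper2.BlockMisc Cfsg.Agent.Lib.Helper2.BlockAvg Cfsg.Agent.Lib.Helper2.BlockCong
  Cfsg.Agent.Lib.Helper2.BlockSM7 Cfsg.Agent.Lib.Helper2.BlockSM3 Cfsg.Agent.Lib.Helper2.BlockPr
  Cfsg.Agent.Lib.Helper2.BlockSM5 Cfsg.Agent.Lib.Helper2.BlockInd Cfsg.Agent.Lib.Helper2.BlockReg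
  Cfsg.Agent.Lib.Helper2.BlockReg2 Cfsg.Agent.Lib.Helper2.BlockReg3 Cfsg.Agent.Lib.Helper2.BlockBr
  Cfsg.Agent.Lib.Helper2.BlockFR Cfsg.Agent.Lib.Helper2.BlockFR2 Cfsg.Agent.Lib.Helper2.BlockExt
  Cfsg.Agent.Lib.Helper2.BlockFR3 Cfsg.Agent.Lib.Helper2.BlockExt2
open Cfsg.Agent.Lib.Helper2.BlockBC Cfsg.Agent.Lib.Helper2.BlockFix Cfsg.Agent.Lib.Helper2.BlockBP Cfsg.Agent.Lib.Helper2.BlockFR4 Cfsg.Agent.Lib.Helper2.BlockBP2 Cfsg.Agent.Lib.Helper2.BlockBP3 Cfsg.Agent.Lib.Helper2.BlockBP4 Cfsg.Agent.Lib.Helper2.BlockBP5 Cfsg.Agent.Lib.Helper2.BlockBP6 Cfsg.Agent.Lib.Helper2.BlockBP7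
open Cfsg.Agent.Lib.Helper7.BPair1 (brauerOmega_eq_W br_centralizer exists_induced_centralizer isBrauerPairOf_iff)
open Cfsg.Agent.Lib.Helper7.BPair2 (conjEquiv mem_normalizer_centralizer)
open Cfsg.Agent.Lib.Helper7.BPair4 (exists_normalizer_gt le_of_subpairLE centEquiv)
open scoped ComplexConjugate

variable {G : Type*} [Group G] [Fintype G]

open Cfsg.Agent.Lib.Helper7.BInd1 (trSet tr_mem_trSet trSet_isPBlock blockDefect_trSet induced_trans)










theorem stable_block {M : Ideal AlgInt} [M.IsPrime] (N : Subgroup G) [hN : N.Normal] [Fintype N]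
    (hout : ∀ y, y ∉ N → ∀ χ : IrrCharacter G, centralChar (χ : G → ℂ) y ∈ Iloc M)
    {b : Set (IrrCharacter N)} (hb : IsPBlock M b) (hinv : ∀ g : G, ∀ θ ∈ b, cj N θ g ∈ b) :
    ∃ F : Set (IrrCharacter G), IsPBlock M F ∧ blockCoeff F = ext0 N (blockCoeff b) := by
  classical
  obtain ⟨F, hF, hcov⟩ := exists_covers N hb
  refine ⟨F, hF, ?_⟩
  have h1 := fo_eq_blockCoeff N hb hinv
  have h2 : {χ : IrrCharacter G | ∃ θ ∈ b,
      classInner (fun n : N => (χ : G → ℂ) n) (θ : N → ℂ) ≠ 0} = F := by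
    ext χ
    constructor
    · rintro ⟨θ, hθ, hcon⟩
      have h3 := covers_unique_of_hout N hout (B := blockOf M (χ : G → ℂ)) ⟨χ, rfl⟩ hF hb
        ⟨χ, sameBlock_refl (M := M) _, θ, hθ, hcon⟩ hcov
      rw [← h3]
      exact sameBlock_refl (M := M) _
    · intro hχ
      obtain ⟨χ₀, hχ₀, θ₀, hθ₀, hcon₀⟩ := hcov
      obtain ⟨θ, hθ⟩ := exists_constituent_restrict N χ
      have h4 := mem_orb_of_sameBlock N hb (sameBlock_of_mem hF hχ₀ hχ) hθ₀ hcon₀ hθ
      rw [orb_eq N hinv] at h4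
      exact ⟨θ, h4, hθ⟩
  rw [h2] at h1
  rw [← h1, fo, orb_eq N hinv]

theorem stab_cent {M : Ideal AlgInt} [M.IsPrime] {Q : Subgroup G}
    (f : Set (IrrCharacter (Subgroup.centralizer (Q : Set G)))) {c : G}
    (hc : c ∈ Subgroup.centralizer (Q : Set G)) :
    StabilizesBlock (Subgroup.centralizer (Q : Set G)) f c := by
  classical
  apply stabilizes_of_sBC (M := M) _ (Subgroup.le_normalizer hc)
  intro g
  rw [sBC_eq_ext0]
  exact ext0_conj _ (blockCoeff_isClass f) hc g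

theorem stab_self {M : Ideal AlgInt} [M.IsPrime] {Q : Subgroup G}
    (f : Set (IrrCharacter (Subgroup.centralizer (Q : Set G)))) {q : G} (hq : q ∈ Q) :
    StabilizesBlock (Subgroup.centralizer (Q : Set G)) f q := by
  classical
  apply stabilizes_of_sBC (M := M) _ (mem_normalizer_centralizer (Subgroup.le_normalizer hq))
  intro g
  by_cases hg : g ∈ Subgroup.centralizer (Q : Set G)
  · have h1 : q * g * q⁻¹ = g := by
      rw [Subgroup.mem_centralizer_iff.mp hg q hq]; group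
    rw [h1]
  · rw [sBC_eq_ext0, ext0_notMem _ _ hg, ext0_notMem]
    intro h
    exact hg ((conj_mem_centralizer_iff (Subgroup.le_normalizer hq)).mp h)

theorem exists_T_block {M : Ideal AlgInt} {p : ℕ} [Fact p.Prime] (hM : IsPModular p M)
    {Q : Subgroup G} (hQ : IsPGroup p Q)
    {f : Set (IrrCharacter (Subgroup.centralizer (Q : Set G)))} (hf : IsPBlock M f)
    (T : Subgroup G)
    (hT : ∀ y : G, y ∈ T ↔ y ∈ Subgroup.normalizer (Q : Set G) ∧
      StabilizesBlock (Subgroup.centralizer (Q : Set G)) f y) :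
    ∃ F : Set (IrrCharacter T), IsPBlock M F ∧ ∀ t : T, blockCoeff F t =
      subgroupBlockCoeff (Subgroup.centralizer (Q : Set G)) f (t : G) := by
  classical
  haveI := hM.2.1.isPrime
  have hCN : Subgroup.centralizer (Q : Set G) ≤ Subgroup.normalizer (Q : Set G) :=
    le_sup_right.trans (sup_le_normalizer Q)
  have hCT : Subgroup.centralizer (Q : Set G) ≤ T :=
    fun c hc => (hT c).mpr ⟨hCN hc, stab_cent (M := M) f hc⟩
  have hQT : Q ≤ T := fun q hq => (hT q).mpr ⟨Subgroup.le_normalizer hq, stab_self (M := M) f hq⟩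
  have hTN : T ≤ Subgroup.normalizer (Q : Set G) := fun y hy => ((hT y).mp hy).1
  haveI hNn : ((Subgroup.centralizer (Q : Set G)).subgroupOf T).Normal :=
    Subgroup.normal_subgroupOf_of_le_normalizer (fun g hg => mem_normalizer_centralizer (hTN hg))
  haveI hQn : (Q.subgroupOf T).Normal := Subgroup.normal_subgroupOf_of_le_normalizer hTN
  have hQp : IsPGroup p (Q.subgroupOf T) := hQ.comap_subtype
  have hb := trSet_isPBlock (M := M) (Subgroup.subgroupOfEquivOfLe hCT) hf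
  have hout : ∀ y, y ∉ (Subgroup.centralizer (Q : Set G)).subgroupOf T →
      ∀ χ : IrrCharacter T, centralChar (χ : T → ℂ) y ∈ Iloc M :=
    fun y hy χ => centralChar_mem_Iloc_of_normal' hM (Q.subgroupOf T) hQp y (fun h => hy
      (Subgroup.mem_subgroupOf.mpr ((mem_cent_sub hQT y).mp h))) χ
  have hinv : ∀ g : T, ∀ θ ∈ trSet (Subgroup.subgroupOfEquivOfLe hCT) f,
      cj ((Subgroup.centralizer (Q : Set G)).subgroupOf T) θ g ∈
        trSet (Subgroup.subgroupOfEquivOfLe hCT) f := by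
    intro g θ hθ
    have hg' : ((g⁻¹ : T) : G) ∈ T := (g⁻¹).2
    obtain ⟨χ', hχ', hc⟩ := ((hT _).mp hg').2.2 _ hθ
    have h1 : tr (Subgroup.subgroupOfEquivOfLe hCT).symm
        (cj ((Subgroup.centralizer (Q : Set G)).subgroupOf T) θ g) = χ' := by
      apply Subtype.ext
      funext c
      have hmem : (g : G) * (c : G) * (g : G)⁻¹ ∈ Subgroup.centralizer (Q : Set G) :=
        (conj_mem_centralizer_iff (hTN g.2)).mpr c.2
      have h2 := hc ⟨_, hmem⟩ c (by
        simp only [Subgroup.coe_inv, inv_inv]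
        group)
      rw [h2, tr_apply, cj_apply, tr_apply]
      apply congrArg
      apply Subtype.ext
      apply Subtype.ext
      rfl
    change tr (Subgroup.subgroupOfEquivOfLe hCT).symm
      (cj ((Subgroup.centralizer (Q : Set G)).subgroupOf T) θ g) ∈ f
    rw [h1]
    exact hχ'
  obtain ⟨F, hF, hFc⟩ := stable_block ((Subgroup.centralizer (Q : Set G)).subgroupOf T) hout hb hinv
  refine ⟨F, hF, ?_⟩
  intro t
  rw [hFc, sBC_eq_ext0]
  by_cases ht : (t : G) ∈ Subgroup.centralizer (Q : Set G)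
  · rw [ext0_mem _ _ (Subgroup.mem_subgroupOf.mpr ht), blockCoeff_trSet, ext0_mem _ _ ht]
    rfl
  · rw [ext0_notMem _ _ ht, ext0_notMem _ _ (fun h => ht (Subgroup.mem_subgroupOf.mp h))]

theorem norm_le_defect {M : Ideal AlgInt} {p : ℕ} [Fact p.Prime] (hM : IsPModular p M)
    {P Q : Subgroup G} {e : Set (IrrCharacter (Subgroup.centralizer (P : Set G)))}
    {f : Set (IrrCharacter (Subgroup.centralizer (Q : Set G)))}
    (hPe : IsBrauerPair p M P e) (hQP : Q ≤ P) (hf : IsPBlock M f)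
    (hle : SubpairLE p M Q f P e) (T : Subgroup G)
    (hT : ∀ y : G, y ∈ T ↔ y ∈ Subgroup.normalizer (Q : Set G) ∧
      StabilizesBlock (Subgroup.centralizer (Q : Set G)) f y)
    {F : Set (IrrCharacter T)} (hF : IsPBlock M F)
    (hFc : ∀ t : T, blockCoeff F t =
      subgroupBlockCoeff (Subgroup.centralizer (Q : Set G)) f (t : G)) :
    P ⊓ Subgroup.normalizer (Q : Set G) ≤ T ∧ ∃ D : Subgroup T, IsDefectGroup p M F D ∧
      (P ⊓ Subgroup.normalizer (Q : Set G)).subgroupOf T ≤ D := by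
  classical
  haveI := hM.2.1.isPrime
  have hCN : Subgroup.centralizer (Q : Set G) ≤ Subgroup.normalizer (Q : Set G) :=
    le_sup_right.trans (sup_le_normalizer Q)
  obtain ⟨R, hR⟩ : ∃ R : Subgroup G, R = P ⊓ Subgroup.normalizer (Q : Set G) := ⟨_, rfl⟩
  have hRP : R ≤ P := by rw [hR]; exact inf_le_left
  have hQR : Q ≤ R := by rw [hR]; exact le_inf hQP Subgroup.le_normalizer
  have hRN : R ≤ Subgroup.normalizer (Q : Set G) := by rw [hR]; exact inf_le_right
  obtain ⟨g, hg, hchg⟩ := subpair_exists hM hPe R hRP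
  obtain ⟨f', hns⟩ := normal_subpair_exists hM
    (⟨hPe.1.to_le hRP, hg⟩ : IsBrauerPair p M R g) hQR hRN
  have hf' : f' = f := by
    have hns' : NormalSubpairRel p M ⟨Q, f'⟩ ⟨R, g⟩ := hns
    have h1 := subpair_unique hM hPe Q hQP ⟨Q, f'⟩ ⟨Q, f⟩
      (Relation.ReflTransGen.head hns' hchg) hle rfl rfl
    exact eq_of_heq (Sigma.mk.inj h1).2
  rw [hf'] at hns
  obtain ⟨ξ, hξ⟩ := block_nonempty hg
  have hom := hns.2.2.2.2.2 ξ hξ
  have hgood := good_sBC hQR hf hns.2.2.2.2.1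
  have hex : ∃ k : Subgroup.centralizer (R : Set G),
      ¬ MemLocalIdeal M (subgroupBlockCoeff (Subgroup.centralizer (Q : Set G)) f (k : G)) := by
    by_contra hcon
    push Not at hcon
    have h2 : brauerOmega R (subgroupBlockCoeff (Subgroup.centralizer (Q : Set G)) f)
        (ξ : _ → ℂ) ∈ Iloc M := by
      rw [brauerOmega_eq_W]; exact W_mem_Iloc ξ hgood.2.1 hcon
    apply one_notMem_Iloc (M := M)
    have h3 := (Iloc M).sub_mem h2 hom
    simpa using h3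
  obtain ⟨k, hk⟩ := hex
  have hkQ : (k : G) ∈ Subgroup.centralizer (Q : Set G) := Subgroup.centralizer_le hQR k.2
  have hkT : (k : G) ∈ T := (hT _).mpr ⟨hCN hkQ, stab_cent (M := M) f hkQ⟩
  obtain ⟨D₀, hD₀⟩ := exists_defectGroup hM hF
  have hPc : IsPGroup p (R.subgroupOf T) := (hPe.1.to_le hRP).comap_subtype
  obtain ⟨y, hy⟩ := (Cfsg.Agent.S0959.result p M hM F hF D₀ hD₀ _ hPc).mp
    ⟨⟨k, hkT⟩, blockCoeff_mem_Rloc F (block_closed hF) _, (by rw [hFc]; exact hk),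
      ⟨k, hkT⟩, IsConj.refl _, by
      rw [Subgroup.mem_centralizer_iff]
      intro q hq
      apply Subtype.ext
      exact Subgroup.mem_centralizer_iff.mp k.2 q (Subgroup.mem_subgroupOf.mp hq)⟩
  have hRT : R ≤ T := fun y hy => (hT y).mpr ⟨hRN hy, hns.2.2.2.2.1 y hy⟩
  rw [← hR]
  refine ⟨hRT, D₀.map (MulAut.conj y⁻¹).toMonoidHom, isDefectGroup_conj hM hF hD₀ y⁻¹, ?_⟩
  intro q hq
  refine ⟨y * q * y⁻¹, hy ⟨q, hq, by simp⟩, ?_⟩
  have h2 : (MulAut.conj y⁻¹).toMonoidHom (y * q * y⁻¹) = y⁻¹ * (y * q * y⁻¹) * y⁻¹⁻¹ := by simp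
  rw [h2]
  group

theorem exists_norm_ge {M : Ideal AlgInt} {p : ℕ} [Fact p.Prime] (hM : IsPModular p M)
    {B : Set (IrrCharacter G)} {P Q : Subgroup G}
    {e : Set (IrrCharacter (Subgroup.centralizer (P : Set G)))}
    {f : Set (IrrCharacter (Subgroup.centralizer (Q : Set G)))}
    (hmax : IsMaximalBrauerPair p M B P e) (hQP : Q ≤ P) (hf : IsPBlock M f)
    (hle : SubpairLE p M Q f P e) (T : Subgroup G)
    (hT : ∀ y : G, y ∈ T ↔ y ∈ Subgroup.normalizer (Q : Set G) ∧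
      StabilizesBlock (Subgroup.centralizer (Q : Set G)) f y)
    {F : Set (IrrCharacter T)} (hF : IsPBlock M F)
    (hFc : ∀ t : T, blockCoeff F t =
      subgroupBlockCoeff (Subgroup.centralizer (Q : Set G)) f (t : G))
    {D : Subgroup T} (hD : IsDefectGroup p M F D) :
    ∃ x : G, Relation.ReflTransGen (NormalSubpairRel p M) (cx x ⟨Q, f⟩) ⟨P, e⟩ ∧
      Nat.card D ≤ Nat.card (P ⊓ Subgroup.normalizer ((cx x ⟨Q, f⟩).1 : Set G) : Subgroup G) := by
  classical
  haveI := hM.2.1.isPrime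
  have hPe : IsBrauerPair p M P e := hmax.1.1
  have hQ : IsPGroup p Q := hPe.1.to_le hQP
  have hQB : IsBrauerPairOf p M B Q f := (pair_le_iff hM hle B).mpr hmax.1
  have hTN : T ≤ Subgroup.normalizer (Q : Set G) := fun y hy => ((hT y).mp hy).1
  have hQT : Q ≤ T := fun q hq => (hT q).mpr ⟨Subgroup.le_normalizer hq, stab_self (M := M) f hq⟩
  obtain ⟨DG, hDG⟩ : ∃ DG : Subgroup G, DG = D.map T.subtype := ⟨_, rfl⟩
  have hDGT : DG ≤ T := by
    rw [hDG]; rintro _ ⟨y, -, rfl⟩; exact y.2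
  have hDGp : IsPGroup p DG := by rw [hDG]; exact (isPGroup_of_isDefectGroup hD).map _
  obtain ⟨Dt, hDt⟩ : ∃ Dt : Subgroup G, Dt = DG ⊔ Q := ⟨_, rfl⟩
  have hDtp : IsPGroup p Dt := by
    rw [hDt]; exact IsPGroup.to_sup_of_normal_right' hDGp hQ (hDGT.trans hTN)
  have hQDt : Q ≤ Dt := by rw [hDt]; exact le_sup_right
  have hDGDt : DG ≤ Dt := by rw [hDt]; exact le_sup_left
  have hDtT : Dt ≤ T := by rw [hDt]; exact sup_le hDGT hQT
  have hDtN : Dt ≤ Subgroup.normalizer (Q : Set G) := hDtT.trans hTN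
  have hst : ∀ y ∈ Dt, StabilizesBlock (Subgroup.centralizer (Q : Set G)) f y :=
    fun y hy => ((hT y).mp (hDtT hy)).2
  have hgood := good_sBC hQDt hf hst
  obtain ⟨k, hk, hkf⟩ := mem_centralizer_of_defectGroup hD
  rw [hFc] at hkf
  have hkQ : (k : G) ∈ Subgroup.centralizer (Q : Set G) := by
    by_contra hcon
    apply hkf
    rw [sBC_eq_ext0, ext0_notMem _ _ hcon]
    exact (Iloc M).zero_mem
  have hkD : (k : G) ∈ Subgroup.centralizer (Dt : Set G) := by
    have h1 : Dt ≤ Subgroup.centralizer ({(k : G)} : Set G) := by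
      rw [hDt]
      apply sup_le
      · rw [hDG]
        rintro _ ⟨d, hd, rfl⟩
        rw [Subgroup.mem_centralizer_iff]
        intro z hz
        rw [Set.mem_singleton_iff] at hz
        rw [hz]
        exact (congrArg Subtype.val (Subgroup.mem_centralizer_iff.mp hk d hd)).symm
      · intro q hq
        rw [Subgroup.mem_centralizer_iff]
        intro z hz
        rw [Set.mem_singleton_iff] at hz
        rw [hz]
        exact (Subgroup.mem_centralizer_iff.mp hkQ q hq).symm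
    rw [Subgroup.mem_centralizer_iff]
    intro y hy
    exact (Subgroup.mem_centralizer_iff.mp (h1 hy) k (Set.mem_singleton _)).symm
  obtain ⟨h', hh', hom⟩ := exists_pair_above hM hDtp hgood.1 hgood.2.1 hgood.2.2.1 hgood.2.2.2
    hkD hkf
  have hns : IsNormalSubpair p M Q f Dt h' := ⟨⟨hQ, hf⟩, ⟨hDtp, hh'⟩, hQDt, hDtN, hst, hom⟩
  have hDB := pair_up hM hns hQB
  obtain ⟨x, hx⟩ := conj_into_max hM hmax hDB
  have hns' : NormalSubpairRel p M (cx x ⟨Q, f⟩) (cx x ⟨Dt, h'⟩) := normal_cx hM x hns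
  refine ⟨x, Relation.ReflTransGen.head hns' hx, ?_⟩
  have hDtxP : Dt.map (MulAut.conj x).toMonoidHom ≤ P := le_of_subpairLE hx
  have h1 : DG.map (MulAut.conj x).toMonoidHom ≤
      P ⊓ Subgroup.normalizer ((cx x ⟨Q, f⟩).1 : Set G) :=
    le_inf ((Subgroup.map_mono hDGDt).trans hDtxP) ((Subgroup.map_mono hDGDt).trans hns'.2.2.2.1)
  calc Nat.card D = Nat.card DG := by
        rw [hDG]
        exact Nat.card_congr (Subgroup.equivMapOfInjective D _
          (Subgroup.subtype_injective _)).toEquiv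
    _ = Nat.card (DG.map (MulAut.conj x).toMonoidHom) :=
        Nat.card_congr (Subgroup.equivMapOfInjective DG _ (MulAut.conj x).injective).toEquiv
    _ ≤ _ := Subgroup.card_le_of_le h1

theorem exists_full_norm {M : Ideal AlgInt} {p : ℕ} [Fact p.Prime] (hM : IsPModular p M)
    {B : Set (IrrCharacter G)} {P Q : Subgroup G}
    {e : Set (IrrCharacter (Subgroup.centralizer (P : Set G)))}
    {f : Set (IrrCharacter (Subgroup.centralizer (Q : Set G)))}
    (hmax : IsMaximalBrauerPair p M B P e) (hQP : Q ≤ P) (hf : IsPBlock M f)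
    (hle : SubpairLE p M Q f P e) (T : Subgroup G)
    (hT : ∀ y : G, y ∈ T ↔ y ∈ Subgroup.normalizer (Q : Set G) ∧
      StabilizesBlock (Subgroup.centralizer (Q : Set G)) f y) :
    ∃ x : G, SubpairLE p M (Q.map (MulAut.conj x).toMonoidHom) (conjBlock Q x f) P e ∧
      ∀ (T' : Subgroup G), (∀ y : G, y ∈ T' ↔
        y ∈ Subgroup.normalizer ((Q.map (MulAut.conj x).toMonoidHom) : Set G) ∧
        StabilizesBlock (Subgroup.centralizer ((Q.map (MulAut.conj x).toMonoidHom) : Set G))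
          (conjBlock Q x f) y) →
      ∃ F' : Set (IrrCharacter T'), IsPBlock M F' ∧ (∀ t : T', blockCoeff F' t =
        subgroupBlockCoeff (Subgroup.centralizer ((Q.map (MulAut.conj x).toMonoidHom) : Set G))
          (conjBlock Q x f) (t : G)) ∧
        IsDefectGroup p M F' ((P ⊓ Subgroup.normalizer
          ((Q.map (MulAut.conj x).toMonoidHom) : Set G)).subgroupOf T') := by
  classical
  haveI := hM.2.1.isPrime
  have hPe : IsBrauerPair p M P e := hmax.1.1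
  have hQ : IsPGroup p Q := hPe.1.to_le hQP
  obtain ⟨F, hF, hFc⟩ := exists_T_block hM hQ hf T hT
  obtain ⟨D, hD⟩ := exists_defectGroup hM hF
  obtain ⟨x₀, hx₀, -⟩ := exists_norm_ge hM hmax hQP hf hle T hT hF hFc hD
  obtain ⟨x, hxS, hxmax⟩ := Finset.exists_max_image
    (Finset.univ.filter (fun x : G =>
      Relation.ReflTransGen (NormalSubpairRel p M) (cx x ⟨Q, f⟩) ⟨P, e⟩))
    (fun x => Nat.card (P ⊓ Subgroup.normalizer ((cx x ⟨Q, f⟩).1 : Set G) : Subgroup G))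
    ⟨x₀, Finset.mem_filter.mpr ⟨Finset.mem_univ _, hx₀⟩⟩
  have hx : SubpairLE p M (Q.map (MulAut.conj x).toMonoidHom) (conjBlock Q x f) P e :=
    (Finset.mem_filter.mp hxS).2
  refine ⟨x, hx, ?_⟩
  intro T' hT'
  have hf' : IsPBlock M (conjBlock Q x f) := by rw [conjBlock_eq]; exact trSet_isPBlock _ hf
  have hQxP : Q.map (MulAut.conj x).toMonoidHom ≤ P := le_of_subpairLE hx
  have hQx : IsPGroup p (Q.map (MulAut.conj x).toMonoidHom) := hPe.1.to_le hQxP
  obtain ⟨F', hF', hFc'⟩ := exists_T_block hM hQx hf' T' hT'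
  obtain ⟨hRT, D', hD', hle2⟩ := norm_le_defect hM hPe hQxP hf' hx T' hT' hF' hFc'
  obtain ⟨y, hy, hcard⟩ := exists_norm_ge hM hmax hQxP hf' hx T' hT' hF' hFc' hD'
  have hcx : cx y ⟨Q.map (MulAut.conj x).toMonoidHom, conjBlock Q x f⟩ = cx (y * x) ⟨Q, f⟩ :=
    cx_mul y x ⟨Q, f⟩
  rw [hcx] at hy hcard
  have h1 := hxmax (y * x) (Finset.mem_filter.mpr ⟨Finset.mem_univ _, hy⟩)
  refine ⟨F', hF', hFc', ?_⟩
  have h4 := Subgroup.eq_of_le_of_card_ge hle2 (by
    rw [Nat.card_congr (Subgroup.subgroupOfEquivOfLe hRT).toEquiv]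
    exact hcard.trans h1)
  rw [h4]
  exact hD'

end Cfsg.Agent.Lib.Helper2.BlockBP8
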