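import Mathlib
import Cfsg.Prelude.Def_Blocks
import Cfsg.Agent.Lib.Helper2.BlockFong
import Cfsg.Agent.Lib.Helper2.BlockN
import Cfsg.Agent.Lib.Helper2.BlockMisc
import Cfsg.Agent.Lib.Helper2.BlockAvg
import Cfsg.Agent.Lib.Helper2.BlockCong
import Cfsg.Agent.Lib.Helper2.BlockSM7
import Cfsg.Agent.Lib.Helper2.BlockSM3
import Cfsg.Agent.Lib.Helper2.BlockPr
import Cfsg.Agent.Lib.Helper2.BlockSM5
import Cfsg.Agent.S0906
import Cfsg.Agent.Lib.Helper2.BlockInd
import Cfsg.Agent.Lib.Helper2.BlockReg3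
import Cfsg.Agent.Lib.Helper2.BlockBr
import Cfsg.Agent.S0917
import Cfsg.Agent.Lib.Helper2.BlockFR
import Cfsg.Agent.Lib.Helper2.BlockFR2
import Cfsg.Agent.Lib.Helper2.BlockExt2
import Cfsg.Agent.Lib.Helper7.BInd1
import Cfsg.Agent.Lib.Helper2.BlockFR3
import Cfsg.Agent.Lib.Helper1.Cores
import Cfsg.Agent.S0912
import Cfsg.Agent.S0920
import Cfsg.Agent.Lib.Helper2.BlockFR4
import Cfsg.Agent.Lib.Helper7.BPair3
import Cfsg.Prelude.Def_BrauerPairs
import Cfsg.Agent.Lib.Helper2.BlockBC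
import Cfsg.Agent.Lib.Helper2.BlockBP
import Cfsg.Agent.Lib.Helper2.BlockBP2
import Cfsg.Agent.Lib.Helper2.BlockBP3
import Cfsg.Agent.Lib.Helper2.BlockBP4
import Cfsg.Agent.Lib.Helper2.BlockBP5
import Cfsg.Agent.Lib.Helper2.BlockBP6
import Cfsg.Agent.Lib.Helper2.BlockBP7
import Cfsg.Agent.Lib.Helper2.BlockBP8
import Cfsg.Prelude.Def_BlockFusion
import Cfsg.Agent.Lib.Helper2.BlockFong2
import Cfsg.Agent.S0959
import Cfsg.Agent.Lib.Helper7.BPair4
import Cfsg.Agent.Lib.Helper2.BlockFix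
import Cfsg.Agent.Lib.Helper7.BPair1
import Cfsg.Agent.Lib.Helper7.BPair2

set_option autoImplicit false
set_option linter.unusedSectionVars false
set_option linter.unusedVariables false
set_option linter.style.haveILetI false

/-! Miscellaneous consequences of the block library. -/

namespace Cfsg.Agent.Lib.Helper2.BlockBP9

open Cfsg Cfsg.Agent.Lib.Helper7.CharIrr Cfsg.Agent.Lib.Helper7.CharOrth
  Cfsg.Agent.Lib.Helper7.CharIntegral Cfsg.Agent.Lib.Helper7.CharMore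
  Cfsg.Agent.Lib.Helper7.CharClassAlg Cfsg.Agent.Lib.Helper7.CharComplete
  Cfsg.Agent.Lib.Helper7.CharDeg Cfsg.Agent.Lib.Helper7.CharGalois
  Cfsg.Agent.Lib.Helper7.CharClassAlg2 Cfsg.Agent.Lib.Helper7.CharBurnside
  Cfsg.Agent.Lib.Helper7.CharNormal Cfsg.Agent.Lib.Helper7.CharClifford
  Cfsg.Agent.Lib.Helper7.CharInd Cfsg.Agent.Lib.Helper7.CharMisc
  Cfsg.Agent.Lib.Helper2.LocRing
  Cfsg.Agent.Lib.Helper2.BlockZ Cfsg.Agent.Lib.Helper2.BlockDef Cfsg.Agent.Lib.Helper2.BlockOrth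
  Cfsg.Agent.Lib.Helper2.BlockSM4 Cfsg.Agent.Lib.Helper2.BlockSub Cfsg.Agent.Lib.Helper2.BlockBr2
  Cfsg.Agent.Lib.Helper2.BlockCov Cfsg.Agent.Lib.Helper2.BlockKer
  Cfsg.Agent.Lib.Helper2.BlockCov2 Cfsg.Agent.Lib.Helper2.BlockLam
  Cfsg.Agent.Lib.Helper2.BlockFMT Cfsg.Agent.Lib.Helper2.BlockGr3
  Cfsg.Agent.Lib.Helper2.BlockFong Cfsg.Agent.Lib.Helper2.BlockN
  Cfsg.Agent.Lib.Helper2.BlockMisc Cfsg.Agent.Lib.Helper2.BlockAvg Cfsg.Agent.Lib.Helper2.BlockCong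
  Cfsg.Agent.Lib.Helper2.BlockSM7 Cfsg.Agent.Lib.Helper2.BlockSM3 Cfsg.Agent.Lib.Helper2.BlockPr
  Cfsg.Agent.Lib.Helper2.BlockSM5 Cfsg.Agent.Lib.Helper2.BlockInd Cfsg.Agent.Lib.Helper2.BlockReg
  Cfsg.Agent.Lib.Helper2.BlockReg2 Cfsg.Agent.Lib.Helper2.BlockReg3 Cfsg.Agent.Lib.Helper2.BlockBr
  Cfsg.Agent.Lib.Helper2.BlockFR Cfsg.Agent.Lib.Helper2.BlockFR2 Cfsg.Agent.Lib.Helper2.BlockExt
  Cfsg.Agent.Lib.Helper2.BlockFR3 Cfsg.Agent.Lib.Helper2.BlockExt2
open Cfsg.Agent.Lib.Helper2.BlockBC Cfsg.Agent.Lib.Helper2.BlockFix Cfsg.Agent.Lib.Helper2.BlockBP Cfsg.Agent.Lib.Helper2.BlockFR4 Cfsg.Agent.Lib.Helper2.BlockBP2 Cfsg.Agent.Lib.Helper2.BlockBP3 Cfsg.Agent.Lib.Helper2.BlockBP4 Cfsg.Agent.Lib.Helper2.BlockBP5 Cfsg.Agent.Lib.Helper2.BlockBP6 Cfsg.Agent.Lib.Helper2.BlockBP7 Cfsg.Agent.Lib.Helper2.BlockBP8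
open Cfsg.Agent.Lib.Helper7.BPair1 (brauerOmega_eq_W br_centralizer exists_induced_centralizer isBrauerPairOf_iff)
open Cfsg.Agent.Lib.Helper7.BPair2 (conjEquiv mem_normalizer_centralizer)
open Cfsg.Agent.Lib.Helper7.BPair4 (exists_normalizer_gt le_of_subpairLE centEquiv)
open scoped ComplexConjugate

variable {G : Type*} [Group G] [Fintype G]

open Cfsg.Agent.Lib.Helper7.BInd1 (trSet tr_mem_trSet trSet_isPBlock blockDefect_trSet induced_trans)










theorem norm_data {M : Ideal AlgInt} {p : ℕ} [Fact p.Prime] (hM : IsPModular p M)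
    {P Q : Subgroup G} {e : Set (IrrCharacter (Subgroup.centralizer (P : Set G)))}
    {f : Set (IrrCharacter (Subgroup.centralizer (Q : Set G)))}
    (hPe : IsBrauerPair p M P e) (hQP : Q ≤ P) (hf : IsPBlock M f)
    (hle : SubpairLE p M Q f P e) :
    (∀ y ∈ P ⊓ Subgroup.normalizer (Q : Set G),
      StabilizesBlock (Subgroup.centralizer (Q : Set G)) f y) ∧
    ∃ k ∈ Subgroup.centralizer ((P ⊓ Subgroup.normalizer (Q : Set G) : Subgroup G) : Set G),
      ¬ MemLocalIdeal M (subgroupBlockCoeff (Subgroup.centralizer (Q : Set G)) f k) := by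
  classical
  haveI := hM.2.1.isPrime
  obtain ⟨R, hR⟩ : ∃ R : Subgroup G, R = P ⊓ Subgroup.normalizer (Q : Set G) := ⟨_, rfl⟩
  have hRP : R ≤ P := by rw [hR]; exact inf_le_left
  have hQR : Q ≤ R := by rw [hR]; exact le_inf hQP Subgroup.le_normalizer
  have hRN : R ≤ Subgroup.normalizer (Q : Set G) := by rw [hR]; exact inf_le_right
  obtain ⟨g, hg, hchg⟩ := subpair_exists hM hPe R hRP
  obtain ⟨f', hns⟩ := normal_subpair_exists hM
    (⟨hPe.1.to_le hRP, hg⟩ : IsBrauerPair p M R g) hQR hRN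
  have hf' : f' = f := by
    have hns' : NormalSubpairRel p M ⟨Q, f'⟩ ⟨R, g⟩ := hns
    have h1 := subpair_unique hM hPe Q hQP ⟨Q, f'⟩ ⟨Q, f⟩
      (Relation.ReflTransGen.head hns' hchg) hle rfl rfl
    exact eq_of_heq (Sigma.mk.inj h1).2
  rw [hf'] at hns
  obtain ⟨ξ, hξ⟩ := block_nonempty hg
  have hom := hns.2.2.2.2.2 ξ hξ
  have hgood := good_sBC hQR hf hns.2.2.2.2.1
  have hex : ∃ k : Subgroup.centralizer (R : Set G),
      ¬ MemLocalIdeal M (subgroupBlockCoeff (Subgroup.centralizer (Q : Set G)) f (k : G)) := by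
    by_contra hcon
    push Not at hcon
    have h2 : brauerOmega R (subgroupBlockCoeff (Subgroup.centralizer (Q : Set G)) f)
        (ξ : _ → ℂ) ∈ Iloc M := by
      rw [brauerOmega_eq_W]; exact W_mem_Iloc ξ hgood.2.1 hcon
    apply one_notMem_Iloc (M := M)
    have h3 := (Iloc M).sub_mem h2 hom
    simpa using h3
  obtain ⟨k, hk⟩ := hex
  rw [← hR]
  exact ⟨hns.2.2.2.2.1, k, k.2, hk⟩

theorem mem_norm_conj (Q : Subgroup G) (x g : G)
    (hg : g ∈ Subgroup.normalizer ((Q.map (MulAut.conj x).toMonoidHom : Subgroup G) : Set G)) :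
    x⁻¹ * g * x ∈ Subgroup.normalizer (Q : Set G) := by
  rw [Subgroup.mem_normalizer_iff] at hg ⊢
  intro h
  have key : ∀ z, z ∈ Q ↔ x * z * x⁻¹ ∈ Q.map (MulAut.conj x).toMonoidHom := by
    intro z
    constructor
    · intro hz
      exact ⟨z, hz, by simp⟩
    · rintro ⟨w, hw, hwz⟩
      have h1 : w = z := by simpa using hwz
      rwa [← h1]
  rw [key h, hg, key]
  have h2 : x * (x⁻¹ * g * x * h * (x⁻¹ * g * x)⁻¹) * x⁻¹ = g * (x * h * x⁻¹) * g⁻¹ := by group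
  rw [h2]

theorem norm_card_le {M : Ideal AlgInt} {p : ℕ} [Fact p.Prime] (hM : IsPModular p M)
    {P Q : Subgroup G} {e : Set (IrrCharacter (Subgroup.centralizer (P : Set G)))}
    {f : Set (IrrCharacter (Subgroup.centralizer (Q : Set G)))}
    (hPe : IsBrauerPair p M P e) (hQP : Q ≤ P) (hf : IsPBlock M f)
    (hle : SubpairLE p M Q f P e) (T : Subgroup G)
    (hT : ∀ y : G, y ∈ T ↔ y ∈ Subgroup.normalizer (Q : Set G) ∧
      StabilizesBlock (Subgroup.centralizer (Q : Set G)) f y)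
    {F : Set (IrrCharacter T)} (hF : IsPBlock M F)
    (hFc : ∀ t : T, blockCoeff F t =
      subgroupBlockCoeff (Subgroup.centralizer (Q : Set G)) f (t : G))
    {D : Subgroup T} (hD : IsDefectGroup p M F D) (g : G)
    (hg : SubpairLE p M (Q.map (MulAut.conj g).toMonoidHom) (conjBlock Q g f) P e) :
    Nat.card (P ⊓ Subgroup.normalizer
      ((Q.map (MulAut.conj g).toMonoidHom : Subgroup G) : Set G) : Subgroup G) ≤ Nat.card D := by
  classical
  haveI := hM.2.1.isPrime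
  have hCN : Subgroup.centralizer (Q : Set G) ≤ Subgroup.normalizer (Q : Set G) :=
    le_sup_right.trans (sup_le_normalizer Q)
  have hf' : IsPBlock M (conjBlock Q g f) := isPBlock_conjBlock Q g hf
  have hQgP : Q.map (MulAut.conj g).toMonoidHom ≤ P := le_of_subpairLE hg
  obtain ⟨hstg, k, hk, hkf⟩ := norm_data hM hPe hQgP hf' hg
  obtain ⟨Rg, hRg⟩ : ∃ Rg : Subgroup G, Rg = P ⊓ Subgroup.normalizer
      ((Q.map (MulAut.conj g).toMonoidHom : Subgroup G) : Set G) := ⟨_, rfl⟩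
  rw [← hRg] at hstg hk ⊢
  have hRgP : Rg ≤ P := by rw [hRg]; exact inf_le_left
  obtain ⟨E, hE⟩ : ∃ E : Subgroup G, E = Rg.map (MulAut.conj g⁻¹).toMonoidHom := ⟨_, rfl⟩
  have hcj : ∀ d : G, (MulAut.conj g⁻¹).toMonoidHom d = g⁻¹ * d * g := by
    intro d; simp
  have hET : E ≤ T := by
    rw [hE]
    rintro _ ⟨d, hd, rfl⟩
    rw [hcj]
    have hdN : g⁻¹ * d * g ∈ Subgroup.normalizer (Q : Set G) :=
      mem_norm_conj Q g d (by
        have hd' := hd
        rw [SetLike.mem_coe, hRg] at hd'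
        exact hd'.2)
    refine (hT _).mpr ⟨hdN, stabilizes_of_sBC (M := M) _ (mem_normalizer_centralizer hdN) ?_⟩
    intro z
    have h3 := sBC_conj _ hf' (hstg d hd) (g * z * g⁻¹)
    rw [sBC_cx, sBC_cx] at h3
    have h4 : g⁻¹ * (d * (g * z * g⁻¹) * d⁻¹) * g = g⁻¹ * d * g * z * (g⁻¹ * d * g)⁻¹ := by group
    have h5 : g⁻¹ * (g * z * g⁻¹) * g = z := by group
    rw [h4, h5] at h3
    exact h3
  rw [sBC_cx] at hkf
  have hkQ : g⁻¹ * k * g ∈ Subgroup.centralizer (Q : Set G) := by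
    by_contra hcon
    apply hkf
    rw [sBC_eq_ext0, ext0_notMem _ _ hcon]
    exact (Iloc M).zero_mem
  have hkT : g⁻¹ * k * g ∈ T := (hT _).mpr ⟨hCN hkQ, stab_cent (M := M) f hkQ⟩
  have hEp : IsPGroup p (E.subgroupOf T) := by
    rw [hE]; exact ((hPe.1.to_le hRgP).map _).comap_subtype
  obtain ⟨y, hy⟩ := (Cfsg.Agent.S0959.result p M hM F hF D hD _ hEp).mp
    ⟨⟨_, hkT⟩, blockCoeff_mem_Rloc F (block_closed hF) _, (by rw [hFc]; exact hkf),
      ⟨_, hkT⟩, IsConj.refl _, by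
      rw [Subgroup.mem_centralizer_iff]
      intro q hq
      apply Subtype.ext
      have hq' : (q : G) ∈ E := Subgroup.mem_subgroupOf.mp hq
      rw [hE] at hq'
      obtain ⟨d, hd, hdq⟩ := hq'
      have h6 := Subgroup.mem_centralizer_iff.mp hk d hd
      change (q : G) * (g⁻¹ * k * g) = (g⁻¹ * k * g) * (q : G)
      rw [← hdq, hcj]
      calc g⁻¹ * d * g * (g⁻¹ * k * g) = g⁻¹ * (d * k) * g := by group
        _ = g⁻¹ * (k * d) * g := by rw [h6]
        _ = _ := by group⟩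
  calc Nat.card Rg = Nat.card E := by
        rw [hE]
        exact Nat.card_congr (Subgroup.equivMapOfInjective Rg _
          (MulAut.conj g⁻¹).injective).toEquiv
    _ = Nat.card (E.subgroupOf T) :=
        (Nat.card_congr (Subgroup.subgroupOfEquivOfLe hET).toEquiv).symm
    _ = Nat.card ((E.subgroupOf T).map (MulAut.conj y).toMonoidHom) :=
        Nat.card_congr (Subgroup.equivMapOfInjective _ _ (MulAut.conj y).injective).toEquiv
    _ ≤ Nat.card D := Subgroup.card_le_of_le hy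

theorem fully_normalized_iff {M : Ideal AlgInt} {p : ℕ} [Fact p.Prime] (hM : IsPModular p M)
    {B : Set (IrrCharacter G)} {P Q : Subgroup G}
    {e : Set (IrrCharacter (Subgroup.centralizer (P : Set G)))}
    {f : Set (IrrCharacter (Subgroup.centralizer (Q : Set G)))} {F : FusionSystem P}
    (hF : IsBlockFusionSystemOn p M B P e F) (hQP : Q ≤ P) (hf : IsPBlock M f)
    (hle : SubpairLE p M Q f P e) (T : Subgroup G)
    (hT : ∀ y : G, y ∈ T ↔ y ∈ Subgroup.normalizer (Q : Set G) ∧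
      StabilizesBlock (Subgroup.centralizer (Q : Set G)) f y) :
    F.IsFullyNormalized Q ↔ ∃ F' : Set (IrrCharacter T), IsPBlock M F' ∧
      (∀ t : T, blockCoeff F' t =
        subgroupBlockCoeff (Subgroup.centralizer (Q : Set G)) f (t : G)) ∧
      IsDefectGroup p M F' ((P ⊓ Subgroup.normalizer (Q : Set G)).subgroupOf T) := by
  classical
  haveI := hM.2.1.isPrime
  have hPe := hF.1.1.1
  have hQ : IsPGroup p Q := hPe.1.to_le hQP
  constructor
  · rintro ⟨-, h⟩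
    obtain ⟨F', hF', hFc⟩ := exists_T_block hM hQ hf T hT
    obtain ⟨hRT, D, hD, hle2⟩ := norm_le_defect hM hPe hQP hf hle T hT hF' hFc
    obtain ⟨x, hx, hcard⟩ := exists_norm_ge hM hF.1 hQP hf hle T hT hF' hFc hD
    have h1 := h _ (conj_mem hF hle hx)
    refine ⟨F', hF', hFc, ?_⟩
    have h4 := Subgroup.eq_of_le_of_card_ge hle2 (by
      rw [Nat.card_congr (Subgroup.subgroupOfEquivOfLe hRT).toEquiv]
      exact hcard.trans h1)
    rw [h4]
    exact hD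
  · rintro ⟨F', hF', hFc, hD⟩
    refine ⟨hQP, ?_⟩
    intro R hR
    obtain ⟨g, rfl, hg⟩ := conj_data hM hF hle hR
    have h1 := norm_card_le hM hPe hQP hf hle T hT hF' hFc hD g hg
    obtain ⟨hRT, -⟩ := norm_le_defect hM hPe hQP hf hle T hT hF' hFc
    rw [Nat.card_congr (Subgroup.subgroupOfEquivOfLe hRT).toEquiv] at h1
    exact h1

end Cfsg.Agent.Lib.Helper2.BlockBP9
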