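import Mathlib
import Cfsg.Prelude.Def_Blocks
import Cfsg.Agent.Lib.Helper2.BlockFong
import Cfsg.Agent.Lib.Helper2.BlockN
import Cfsg.Agent.Lib.Helper2.BlockMisc
import Cfsg.Agent.Lib.Helper2.BlockAvg
import Cfsg.Agent.Lib.Helper2.BlockCong
import Cfsg.Agent.Lib.Helper2.BlockSM7
import Cfsg.Agent.Lib.Helper2.BlockSM3
import Cfsg.Agent.Lib.Helper2.BlockPr
import Cfsg.Agent.Lib.Helper2.BlockSM5
import Cfsg.Agent.S0906
import Cfsg.Agent.Lib.Helper2.BlockInd
import Cfsg.Agent.Lib.Helper2.BlockReg3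
import Cfsg.Agent.Lib.Helper2.BlockBr
import Cfsg.Agent.S0917
import Cfsg.Agent.Lib.Helper2.BlockFR
import Cfsg.Agent.Lib.Helper2.BlockFR2
import Cfsg.Agent.Lib.Helper2.BlockExt2
import Cfsg.Agent.Lib.Helper7.BInd1
import Cfsg.Agent.Lib.Helper2.BlockFR3
import Cfsg.Agent.Lib.Helper1.Cores
import Cfsg.Agent.S0912
import Cfsg.Agent.S0920
import Cfsg.Agent.Lib.Helper2.BlockFR4
import Cfsg.Agent.Lib.Helper7.BPair3
import Cfsg.Prelude.Def_BrauerPairs
import Cfsg.Agent.Lib.Helper2.BlockBC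
import Cfsg.Agent.Lib.Helper2.BlockBP
import Cfsg.Agent.Lib.Helper2.BlockBP2
import Cfsg.Agent.Lib.Helper2.BlockBP3
import Cfsg.Agent.Lib.Helper2.BlockBP4
import Cfsg.Agent.Lib.Helper2.BlockBP5
import Cfsg.Agent.Lib.Helper2.BlockBP6
import Cfsg.Agent.Lib.Helper2.BlockBP7
import Cfsg.Agent.Lib.Helper2.BlockBP8
import Cfsg.Agent.Lib.Helper2.BlockBP9
import Cfsg.Prelude.Def_BlockFusion
import Cfsg.Agent.Lib.Helper2.BlockFong2
import Cfsg.Agent.S0959
import Cfsg.Agent.Lib.Helper7.BPair4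
import Cfsg.Agent.Lib.Helper2.BlockFix
import Cfsg.Agent.Lib.Helper7.BPair1
import Cfsg.Agent.Lib.Helper7.BPair2

set_option autoImplicit false
set_option linter.unusedSectionVars false
set_option linter.unusedVariables false
set_option linter.style.haveILetI false

/-! Miscellaneous consequences of the block library. -/

namespace Cfsg.Agent.Lib.Helper2.BlockBP10

open Cfsg Cfsg.Agent.Lib.Helper7.CharIrr Cfsg.Agent.Lib.Helper7.CharOrth
  Cfsg.Agent.Lib.Helper7.CharIntegral Cfsg.Agent.Lib.Helper7.CharMore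
  Cfsg.Agent.Lib.Helper7.CharClassAlg Cfsg.Agent.Lib.Helper7.CharComplete
  Cfsg.Agent.Lib.Helper7.CharDeg Cfsg.Agent.Lib.Helper7.CharGalois
  Cfsg.Agent.Lib.Helper7.CharClassAlg2 Cfsg.Agent.Lib.Helper7.CharBurnside
  Cfsg.Agent.Lib.Helper7.CharNormal Cfsg.Agent.Lib.Helper7.CharClifford
  Cfsg.Agent.Lib.Helper7.CharInd Cfsg.Agent.Lib.Helper7.CharMisc
  Cfsg.Agent.Lib.Helper2.LocRing
  Cfsg.Agent.Lib.Helper2.BlockZ Cfsg.Agent.Lib.Helper2.BlockDef Cfsg.Agent.Lib.Helper2.BlockOrth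
  Cfsg.Agent.Lib.Helper2.BlockSM4 Cfsg.Agent.Lib.Helper2.BlockSub Cfsg.Agent.Lib.Helper2.BlockBr2
  Cfsg.Agent.Lib.Helper2.BlockCov Cfsg.Agent.Lib.Helper2.BlockKer
  Cfsg.Agent.Lib.Helper2.BlockCov2 Cfsg.Agent.Lib.Helper2.BlockLam
  Cfsg.Agent.Lib.Helper2.BlockFMT Cfsg.Agent.Lib.Helper2.BlockGr3
  Cfsg.Agent.Lib.Helper2.BlockFong Cfsg.Agent.Lib.Helper2.BlockN
  Cfsg.Agent.Lib.Helper2.BlockMisc Cfsg.Agent.Lib.Helper2.BlockAvg Cfsg.Agent.Lib.Helper2.BlockCong
  Cfsg.Agent.Lib.Helper2.BlockSM7 Cfsg.Agent.Lib.Helper2.BlockSM3 Cfsg.Agent.Lib.Helper2.BlockPr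
  Cfsg.Agent.Lib.Helper2.BlockSM5 Cfsg.Agent.Lib.Helper2.BlockInd Cfsg.Agent.Lib.Helper2.BlockReg
  Cfsg.Agent.Lib.Helper2.BlockReg2 Cfsg.Agent.Lib.Helper2.BlockReg3 Cfsg.Agent.Lib.Helper2.BlockBr
  Cfsg.Agent.Lib.Helper2.BlockFR Cfsg.Agent.Lib.Helper2.BlockFR2 Cfsg.Agent.Lib.Helper2.BlockExt
  Cfsg.Agent.Lib.Helper2.BlockFR3 Cfsg.Agent.Lib.Helper2.BlockExt2
open Cfsg.Agent.Lib.Helper2.BlockBC Cfsg.Agent.Lib.Helper2.BlockFix Cfsg.Agent.Lib.Helper2.BlockBP Cfsg.Agent.Lib.Helper2.BlockFR4 Cfsg.Agent.Lib.Helper2.BlockBP2 Cfsg.Agent.Lib.Helper2.BlockBP3 Cfsg.Agent.Lib.Helper2.BlockBP4 Cfsg.Agent.Lib.Helper2.BlockBP5 Cfsg.Agent.Lib.Helper2.BlockBP6 Cfsg.Agent.Lib.Helper2.BlockBP7 Cfsg.Agent.Lib.Helper2.BlockBP8 Cfsg.Agent.Lib.Helper2.BlockBP9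
open Cfsg.Agent.Lib.Helper7.BPair1 (brauerOmega_eq_W br_centralizer exists_induced_centralizer isBrauerPairOf_iff)
open Cfsg.Agent.Lib.Helper7.BPair2 (conjEquiv mem_normalizer_centralizer)
open Cfsg.Agent.Lib.Helper7.BPair4 (exists_normalizer_gt le_of_subpairLE centEquiv)
open scoped ComplexConjugate

variable {G : Type*} [Group G] [Fintype G]

open Cfsg.Agent.Lib.Helper7.BInd1 (trSet tr_mem_trSet trSet_isPBlock blockDefect_trSet induced_trans)










theorem exists_L_block {M : Ideal AlgInt} {p : ℕ} [Fact p.Prime] (hM : IsPModular p M)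
    {Q : Subgroup G} (hQ : IsPGroup p Q)
    {f : Set (IrrCharacter (Subgroup.centralizer (Q : Set G)))} (hf : IsPBlock M f)
    (T : Subgroup G) (hCT : Subgroup.centralizer (Q : Set G) ≤ T) (hQT : Q ≤ T)
    (hTN : T ≤ Subgroup.normalizer (Q : Set G))
    (hst : ∀ y ∈ T, StabilizesBlock (Subgroup.centralizer (Q : Set G)) f y) :
    ∃ F : Set (IrrCharacter T), IsPBlock M F ∧ ∀ t : T, blockCoeff F t =
      subgroupBlockCoeff (Subgroup.centralizer (Q : Set G)) f (t : G) := by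
  classical
  haveI := hM.2.1.isPrime
  haveI hNn : ((Subgroup.centralizer (Q : Set G)).subgroupOf T).Normal :=
    Subgroup.normal_subgroupOf_of_le_normalizer (fun g hg => mem_normalizer_centralizer (hTN hg))
  haveI hQn : (Q.subgroupOf T).Normal := Subgroup.normal_subgroupOf_of_le_normalizer hTN
  have hQp : IsPGroup p (Q.subgroupOf T) := hQ.comap_subtype
  have hb := trSet_isPBlock (M := M) (Subgroup.subgroupOfEquivOfLe hCT) hf
  have hout : ∀ y, y ∉ (Subgroup.centralizer (Q : Set G)).subgroupOf T →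
      ∀ χ : IrrCharacter T, centralChar (χ : T → ℂ) y ∈ Iloc M :=
    fun y hy χ => centralChar_mem_Iloc_of_normal' hM (Q.subgroupOf T) hQp y (fun h => hy
      (Subgroup.mem_subgroupOf.mpr ((mem_cent_sub hQT y).mp h))) χ
  have hinv : ∀ g : T, ∀ θ ∈ trSet (Subgroup.subgroupOfEquivOfLe hCT) f,
      cj ((Subgroup.centralizer (Q : Set G)).subgroupOf T) θ g ∈
        trSet (Subgroup.subgroupOfEquivOfLe hCT) f := by
    intro g θ hθ
    have hg' : ((g⁻¹ : T) : G) ∈ T := (g⁻¹).2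
    obtain ⟨χ', hχ', hc⟩ := (hst _ hg').2 _ hθ
    have h1 : tr (Subgroup.subgroupOfEquivOfLe hCT).symm
        (cj ((Subgroup.centralizer (Q : Set G)).subgroupOf T) θ g) = χ' := by
      apply Subtype.ext
      funext c
      have hmem : (g : G) * (c : G) * (g : G)⁻¹ ∈ Subgroup.centralizer (Q : Set G) :=
        (conj_mem_centralizer_iff (hTN g.2)).mpr c.2
      have h2 := hc ⟨_, hmem⟩ c (by
        simp only [Subgroup.coe_inv, inv_inv]
        group)
      rw [h2, tr_apply, cj_apply, tr_apply]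
      apply congrArg
      apply Subtype.ext
      apply Subtype.ext
      rfl
    change tr (Subgroup.subgroupOfEquivOfLe hCT).symm
      (cj ((Subgroup.centralizer (Q : Set G)).subgroupOf T) θ g) ∈ f
    rw [h1]
    exact hχ'
  obtain ⟨F, hF, hFc⟩ := stable_block ((Subgroup.centralizer (Q : Set G)).subgroupOf T) hout hb hinv
  refine ⟨F, hF, ?_⟩
  intro t
  rw [hFc, sBC_eq_ext0]
  by_cases ht : (t : G) ∈ Subgroup.centralizer (Q : Set G)
  · rw [ext0_mem _ _ (Subgroup.mem_subgroupOf.mpr ht), blockCoeff_trSet, ext0_mem _ _ ht]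
    rfl
  · rw [ext0_notMem _ _ ht, ext0_notMem _ _ (fun h => ht (Subgroup.mem_subgroupOf.mp h))]

theorem coeff_eq_of_stable {M : Ideal AlgInt} {p : ℕ} [Fact p.Prime] (hM : IsPModular p M)
    {B : Set (IrrCharacter G)} {Q : Subgroup G}
    {f : Set (IrrCharacter (Subgroup.centralizer (Q : Set G)))}
    (hQB : IsBrauerPairOf p M B Q f)
    (hG : ∀ x : G, x ∈ Subgroup.normalizer (Q : Set G) ∧
      StabilizesBlock (Subgroup.centralizer (Q : Set G)) f x) (g : G) :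
    blockCoeff B g = subgroupBlockCoeff (Subgroup.centralizer (Q : Set G)) f g := by
  classical
  haveI := hM.2.1.isPrime
  haveI hQn : Q.Normal := Subgroup.normalizer_eq_top_iff.mp
    (eq_top_iff.mpr fun x _ => (hG x).1)
  haveI hCn : (Subgroup.centralizer (Q : Set G)).Normal := Subgroup.normalizer_eq_top_iff.mp
    (eq_top_iff.mpr fun x _ => mem_normalizer_centralizer (hG x).1)
  have hf := hQB.1.2
  have hout : ∀ y, y ∉ Subgroup.centralizer (Q : Set G) →
      ∀ χ : IrrCharacter G, centralChar (χ : G → ℂ) y ∈ Iloc M :=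
    fun y hy χ => centralChar_mem_Iloc_of_normal' hM Q hQB.1.1 y hy χ
  obtain ⟨F, hF, hFc⟩ := stable_block (Subgroup.centralizer (Q : Set G)) hout hf
    (Cfsg.Agent.Lib.Helper2.BlockFong2.cj_mem_of_stabilizes _ (fun x => (hG x).2))
  have hFQ : IsBrauerPairOf p M F Q f := by
    refine ⟨hQB.1, hF, ?_⟩
    intro ξ hξ
    rw [brauerOmega_eq_W, hFc]
    have h1 : (fun h : Subgroup.centralizer (Q : Set G) =>
        ext0 (Subgroup.centralizer (Q : Set G)) (blockCoeff f) (h : G)) = blockCoeff f :=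
      funext fun h => ext0_coe _ _ h
    rw [h1, W_blockCoeff, if_pos hξ, sub_self]
    exact (Iloc M).zero_mem
  rw [pair_unique hM hQB hFQ, hFc, sBC_eq_ext0]

theorem nilpotent_of_centric {M : Ideal AlgInt} {p : ℕ} [hp : Fact p.Prime] (hM : IsPModular p M)
    {Q : Subgroup G} (hQ : IsPGroup p Q) [hCn : (Subgroup.centralizer (Q : Set G)).Normal]
    {f : Set (IrrCharacter (Subgroup.centralizer (Q : Set G)))} (hf : IsPBlock M f)
    (hD : IsDefectGroup p M f
      ((Q ⊓ Subgroup.centralizer (Q : Set G)).subgroupOf (Subgroup.centralizer (Q : Set G))))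
    (L : Subgroup G) (hL : L = Q ⊔ Subgroup.centralizer (Q : Set G))
    {F' : Set (IrrCharacter L)} (hF' : IsPBlock M F')
    (hFc : ∀ t : L, blockCoeff F' t =
      subgroupBlockCoeff (Subgroup.centralizer (Q : Set G)) f (t : G)) :
    IsNilpotentBlock p M F' := by
  classical
  haveI := hM.2.1.isPrime
  have hLN : L ≤ Subgroup.normalizer (Q : Set G) := by rw [hL]; exact sup_le_normalizer Q
  refine ⟨hF', ?_⟩
  intro R g hRg x hxN hxst hxreg
  obtain ⟨ξ, hξ⟩ := block_nonempty hRg.1.2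
  have hom := hRg.2.2 ξ hξ
  have hex : ∃ k : Subgroup.centralizer (R : Set L),
      ¬ MemLocalIdeal M (blockCoeff F' (k : L)) := by
    by_contra hcon
    push Not at hcon
    have h2 : brauerOmega R (blockCoeff F') (ξ : _ → ℂ) ∈ Iloc M := by
      rw [brauerOmega_eq_W]
      exact W_mem_Iloc ξ (restrict_isClass _ (blockCoeff_isClass F')) hcon
    apply one_notMem_Iloc (M := M)
    have h3 := (Iloc M).sub_mem h2 hom
    simpa using h3
  obtain ⟨k, hk⟩ := hex
  rw [hFc] at hk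
  have hkQ : ((k : L) : G) ∈ Subgroup.centralizer (Q : Set G) := by
    by_contra hcon
    apply hk
    rw [sBC_eq_ext0, ext0_notMem _ _ hcon]
    exact (Iloc M).zero_mem
  rw [sBC_eq_ext0, ext0_mem _ _ hkQ] at hk
  obtain ⟨RC, hRC⟩ : ∃ RC : Subgroup G,
      RC = R.map L.subtype ⊓ Subgroup.centralizer (Q : Set G) := ⟨_, rfl⟩
  have hRCp : IsPGroup p (RC.subgroupOf (Subgroup.centralizer (Q : Set G))) := by
    rw [hRC]; exact ((hRg.1.1.map L.subtype).to_le inf_le_left).comap_subtype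
  obtain ⟨y, hy⟩ := (Cfsg.Agent.S0959.result p M hM f hf _ hD _ hRCp).mp
    ⟨⟨_, hkQ⟩, blockCoeff_mem_Rloc f (block_closed hf) _, hk, ⟨_, hkQ⟩, IsConj.refl _, by
      rw [Subgroup.mem_centralizer_iff]
      intro q hq
      apply Subtype.ext
      have hq' : (q : G) ∈ RC := Subgroup.mem_subgroupOf.mp hq
      rw [hRC] at hq'
      obtain ⟨r, hr, hrq⟩ := hq'.1
      have h6 := Subgroup.mem_centralizer_iff.mp k.2 r hr
      change (q : G) * ((k : L) : G) = ((k : L) : G) * (q : G)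
      rw [← hrq]
      exact congrArg Subtype.val h6⟩
  have hRCQ : RC ≤ Q := by
    intro r hr
    have hrC : r ∈ Subgroup.centralizer (Q : Set G) := by rw [hRC] at hr; exact hr.2
    have h1 := hy ⟨⟨r, hrC⟩, Subgroup.mem_subgroupOf.mpr hr, rfl⟩
    have h2 : ((y : G) * r * (y : G)⁻¹) ∈ Q := (Subgroup.mem_subgroupOf.mp h1).1
    have h3 := Subgroup.mem_centralizer_iff.mp y.2 _ h2
    have h4 : r = (y : G) * r * (y : G)⁻¹ := by
      have h5 : (y : G) * r = y * ((y : G) * r * (y : G)⁻¹) := by rw [← h3]; group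
      exact mul_left_cancel h5
    rw [h4]
    exact h2
  have hxreg' : ¬ p ∣ orderOf (x : G) := by rw [Subgroup.orderOf_coe]; exact hxreg
  have hxC : (x : G) ∈ Subgroup.centralizer (Q : Set G) := by
    have hxL : (x : G) ∈ Q ⊔ Subgroup.centralizer (Q : Set G) := hL ▸ x.2
    obtain ⟨q, hq, c, hc, hqc⟩ := Subgroup.mem_sup_of_normal_right.mp hxL
    obtain ⟨j, hj⟩ := hQ ⟨q, hq⟩
    have hj' : q ^ p ^ j = 1 := congrArg Subtype.val hj
    have hcomm : Commute q c := Subgroup.mem_centralizer_iff.mp hc q hq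
    have h1 : (x : G) ^ p ^ j = c ^ p ^ j := by
      rw [← hqc, hcomm.mul_pow, hj', one_mul]
    have hcop : Nat.Coprime (p ^ j) (orderOf (x : G)) :=
      Nat.Coprime.pow_left j ((Nat.Prime.coprime_iff_not_dvd hp.out).mpr hxreg')
    obtain ⟨m, hm⟩ := exists_pow_eq_self_of_coprime hcop
    rw [← hm, h1]
    exact pow_mem (pow_mem hc _) _
  rw [Subgroup.mem_centralizer_iff]
  intro r hr
  have hz1 : x * r * x⁻¹ ∈ R := (Subgroup.mem_normalizer_iff.mp hxN r).mp hr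
  have hzR : x * r * x⁻¹ * r⁻¹ ∈ R := R.mul_mem hz1 (R.inv_mem hr)
  obtain ⟨z, hz⟩ : ∃ z : G, z = (x : G) * (r : G) * (x : G)⁻¹ * (r : G)⁻¹ := ⟨_, rfl⟩
  have hzC : z ∈ Subgroup.centralizer (Q : Set G) := by
    have h1 : (r : G) * (x : G)⁻¹ * (r : G)⁻¹ ∈ Subgroup.centralizer (Q : Set G) :=
      (conj_mem_centralizer_iff (hLN r.2)).mpr (inv_mem hxC)
    have h2 : z = (x : G) * ((r : G) * (x : G)⁻¹ * (r : G)⁻¹) := by rw [hz]; group
    rw [h2]
    exact mul_mem hxC h1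
  have hzQ : z ∈ Q := hRCQ (by
    rw [hRC]
    exact ⟨⟨_, hzR, by rw [hz]; rfl⟩, hzC⟩)
  have hzx : Commute z (x : G) := Subgroup.mem_centralizer_iff.mp hxC z hzQ
  have hxr : (x : G) * r * (x : G)⁻¹ = z * r := by rw [hz]; group
  have hpow : ∀ n : ℕ, (x : G) ^ n * r * ((x : G) ^ n)⁻¹ = z ^ n * r := by
    intro n
    induction n with
    | zero => simp
    | succ n ih =>
      have hc : (x : G) * z ^ n = z ^ n * x := ((hzx.pow_left n).eq).symm
      calc (x : G) ^ (n + 1) * r * ((x : G) ^ (n + 1))⁻¹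
          = x * ((x : G) ^ n * r * ((x : G) ^ n)⁻¹) * (x : G)⁻¹ := by rw [pow_succ']; group
        _ = x * (z ^ n * r) * (x : G)⁻¹ := by rw [ih]
        _ = (x * z ^ n) * r * (x : G)⁻¹ := by group
        _ = z ^ n * (x * r * (x : G)⁻¹) := by rw [hc]; group
        _ = z ^ (n + 1) * r := by rw [hxr, pow_succ]; group
  have h7 := hpow (orderOf (x : G))
  rw [pow_orderOf_eq_one] at h7
  have h8 : z ^ orderOf (x : G) = 1 := by
    have h9 : (r : G) = z ^ orderOf (x : G) * r := by simpa using h7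
    exact (mul_eq_right.mp h9.symm)
  obtain ⟨j, hj⟩ := hQ ⟨z, hzQ⟩
  have hj' : z ^ p ^ j = 1 := congrArg Subtype.val hj
  have hz1' : z = 1 := by
    have hd1 : orderOf z ∣ orderOf (x : G) := orderOf_dvd_of_pow_eq_one h8
    have hd2 : orderOf z ∣ p ^ j := orderOf_dvd_of_pow_eq_one hj'
    have hcop : Nat.Coprime (orderOf (x : G)) (p ^ j) :=
      (Nat.Coprime.pow_left j ((Nat.Prime.coprime_iff_not_dvd hp.out).mpr hxreg')).symm
    exact orderOf_eq_one_iff.mp (Nat.eq_one_of_dvd_coprimes hcop hd1 hd2)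
  apply Subtype.ext
  change (r : G) * (x : G) = (x : G) * (r : G)
  rw [hz1', one_mul] at hxr
  calc (r : G) * (x : G) = ((x : G) * r * (x : G)⁻¹) * x := by rw [hxr]
    _ = (x : G) * (r : G) := by group

theorem centric_stable {M : Ideal AlgInt} {p : ℕ} [Fact p.Prime] (hM : IsPModular p M)
    {B : Set (IrrCharacter G)} {P Q : Subgroup G}
    {e : Set (IrrCharacter (Subgroup.centralizer (P : Set G)))}
    {f : Set (IrrCharacter (Subgroup.centralizer (Q : Set G)))} {F : FusionSystem P}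
    (hF : IsBlockFusionSystemOn p M B P e F) (hQP : Q ≤ P) (hf : IsPBlock M f)
    (hle : SubpairLE p M Q f P e) (hcen : F.IsCentric Q)
    (hG : ∀ x : G, x ∈ Subgroup.normalizer (Q : Set G) ∧
      StabilizesBlock (Subgroup.centralizer (Q : Set G)) f x) :
    (∀ g : G, MemLocalIdeal M (blockCoeff B g -
      subgroupBlockCoeff (Subgroup.centralizer (Q : Set G)) f g)) ∧
    ∃ F' : Set (IrrCharacter ↥(Q ⊔ Subgroup.centralizer (Q : Set G))), IsPBlock M F' ∧
      (∀ t : ↥(Q ⊔ Subgroup.centralizer (Q : Set G)), blockCoeff F' t =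
        subgroupBlockCoeff (Subgroup.centralizer (Q : Set G)) f (t : G)) ∧
      IsNilpotentBlock p M F' := by
  classical
  haveI := hM.2.1.isPrime
  have hQB : IsBrauerPairOf p M B Q f := (pair_le_iff hM hle B).mpr hF.1.1
  haveI hCn : (Subgroup.centralizer (Q : Set G)).Normal := Subgroup.normalizer_eq_top_iff.mp
    (eq_top_iff.mpr fun x _ => mem_normalizer_centralizer (hG x).1)
  refine ⟨fun g => ?_, ?_⟩
  · rw [coeff_eq_of_stable hM hQB hG g, sub_self]
    exact (Iloc M).zero_mem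
  · obtain ⟨F', hF', hFc⟩ := exists_L_block hM hQB.1.1 hf (Q ⊔ Subgroup.centralizer (Q : Set G))
      le_sup_right le_sup_left (sup_le_normalizer Q) (fun y _ => (hG y).2)
    exact ⟨F', hF', hFc, nilpotent_of_centric hM hQB.1.1 hf
      ((centric_iff hM hF hQP hf hle).mp hcen) _ rfl hF' hFc⟩

end Cfsg.Agent.Lib.Helper2.BlockBP10
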