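import Mathlib
import Cfsg.Prelude.Def_Blocks
import Cfsg.Agent.Lib.Helper2.BlockFong
import Cfsg.Agent.Lib.Helper2.BlockN
import Cfsg.Agent.Lib.Helper2.BlockMisc
import Cfsg.Agent.Lib.Helper2.BlockAvg
import Cfsg.Agent.Lib.Helper2.BlockCong
import Cfsg.Agent.Lib.Helper2.BlockSM7
import Cfsg.Agent.Lib.Helper2.BlockSM3
import Cfsg.Agent.Lib.Helper2.BlockPr
import Cfsg.Agent.Lib.Helper2.BlockSM5
import Cfsg.Agent.S0906
import Cfsg.Agent.Lib.Helper2.BlockInd
import Cfsg.Agent.Lib.Helper2.BlockReg3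
import Cfsg.Agent.Lib.Helper2.BlockBr
import Cfsg.Agent.S0917
import Cfsg.Agent.Lib.Helper2.BlockFR
import Cfsg.Agent.Lib.Helper2.BlockFR2
import Cfsg.Agent.Lib.Helper2.BlockExt2
import Cfsg.Agent.Lib.Helper7.BInd1
import Cfsg.Agent.Lib.Helper2.BlockFR3
import Cfsg.Agent.Lib.Helper1.Cores
import Cfsg.Agent.S0912
import Cfsg.Agent.S0920
import Cfsg.Agent.Lib.Helper2.BlockFR4
import Cfsg.Agent.Lib.Helper7.BPair3
import Cfsg.Prelude.Def_BrauerPairs
import Cfsg.Agent.Lib.Helper2.BlockBC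
import Cfsg.Agent.Lib.Helper2.BlockBP
import Cfsg.Agent.Lib.Helper2.BlockBP2
import Cfsg.Agent.Lib.Helper2.BlockBP3
import Cfsg.Agent.Lib.Helper2.BlockBP4
import Cfsg.Agent.Lib.Helper2.BlockBP5
import Cfsg.Agent.Lib.Helper2.BlockBP6
import Cfsg.Agent.Lib.Helper2.BlockBP7
import Cfsg.Agent.Lib.Helper2.BlockBP8
import Cfsg.Agent.Lib.Helper2.BlockBP9
import Cfsg.Agent.Lib.Helper2.BlockBP10
import Cfsg.Prelude.Def_BlockFusion
import Cfsg.Agent.Lib.Helper2.BlockFong2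
import Cfsg.Agent.S0959
import Cfsg.Agent.Lib.Helper7.BPair4
import Cfsg.Agent.Lib.Helper2.BlockFix
import Cfsg.Agent.Lib.Helper7.BPair1
import Cfsg.Agent.Lib.Helper7.BPair2

set_option autoImplicit false
set_option linter.unusedSectionVars false
set_option linter.unusedVariables false
set_option linter.style.haveILetI false

/-! Miscellaneous consequences of the block library. -/

namespace Cfsg.Agent.Lib.Helper2.BlockBP11

open Cfsg Cfsg.Agent.Lib.Helper7.CharIrr Cfsg.Agent.Lib.Helper7.CharOrth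
  Cfsg.Agent.Lib.Helper7.CharIntegral Cfsg.Agent.Lib.Helper7.CharMore
  Cfsg.Agent.Lib.Helper7.CharClassAlg Cfsg.Agent.Lib.Helper7.CharComplete
  Cfsg.Agent.Lib.Helper7.CharDeg Cfsg.Agent.Lib.Helper7.CharGalois
  Cfsg.Agent.Lib.Helper7.CharClassAlg2 Cfsg.Agent.Lib.Helper7.CharBurnside
  Cfsg.Agent.Lib.Helper7.CharNormal Cfsg.Agent.Lib.Helper7.CharClifford
  Cfsg.Agent.Lib.Helper7.CharInd Cfsg.Agent.Lib.Helper7.CharMisc
  Cfsg.Agent.Lib.Helper2.LocRing
  Cfsg.Agent.Lib.Helper2.BlockZ Cfsg.Agent.Lib.Helper2.BlockDef Cfsg.Agent.Lib.Helper2.BlockOrth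
  Cfsg.Agent.Lib.Helper2.BlockSM4 Cfsg.Agent.Lib.Helper2.BlockSub Cfsg.Agent.Lib.Helper2.BlockBr2
  Cfsg.Agent.Lib.Helper2.BlockCov Cfsg.Agent.Lib.Helper2.BlockKer
  Cfsg.Agent.Lib.Helper2.BlockCov2 Cfsg.Agent.Lib.Helper2.BlockLam
  Cfsg.Agent.Lib.Helper2.BlockFMT Cfsg.Agent.Lib.Helper2.BlockGr3
  Cfsg.Agent.Lib.Helper2.BlockFong Cfsg.Agent.Lib.Helper2.BlockN
  Cfsg.Agent.Lib.Helper2.BlockMisc Cfsg.Agent.Lib.Helper2.BlockAvg Cfsg.Agent.Lib.Helper2.BlockCong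
  Cfsg.Agent.Lib.Helper2.BlockSM7 Cfsg.Agent.Lib.Helper2.BlockSM3 Cfsg.Agent.Lib.Helper2.BlockPr
  Cfsg.Agent.Lib.Helper2.BlockSM5 Cfsg.Agent.Lib.Helper2.BlockInd Cfsg.Agent.Lib.Helper2.BlockReg
  Cfsg.Agent.Lib.Helper2.BlockReg2 Cfsg.Agent.Lib.Helper2.BlockReg3 Cfsg.Agent.Lib.Helper2.BlockBr
  Cfsg.Agent.Lib.Helper2.BlockFR Cfsg.Agent.Lib.Helper2.BlockFR2 Cfsg.Agent.Lib.Helper2.BlockExt
  Cfsg.Agent.Lib.Helper2.BlockFR3 Cfsg.Agent.Lib.Helper2.BlockExt2
open Cfsg.Agent.Lib.Helper2.BlockBC Cfsg.Agent.Lib.Helper2.BlockFix Cfsg.Agent.Lib.Helper2.BlockBP Cfsg.Agent.Lib.Helper2.BlockFR4 Cfsg.Agent.Lib.Helper2.BlockBP2 Cfsg.Agent.Lib.Helper2.BlockBP3 Cfsg.Agent.Lib.Helper2.BlockBP4 Cfsg.Agent.Lib.Helper2.BlockBP5 Cfsg.Agent.Lib.Helper2.BlockBP6 Cfsg.Agent.Lib.Helper2.BlockBP7 Cfsg.Agent.Lib.Helper2.BlockBP8 Cfsg.Agent.Lib.Helper2.BlockBP9 Cfsg.Agent.Lib.Helper2.BlockBP10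
open Cfsg.Agent.Lib.Helper7.BPair1 (brauerOmega_eq_W br_centralizer exists_induced_centralizer isBrauerPairOf_iff)
open Cfsg.Agent.Lib.Helper7.BPair2 (conjEquiv mem_normalizer_centralizer)
open Cfsg.Agent.Lib.Helper7.BPair4 (exists_normalizer_gt le_of_subpairLE centEquiv)
open scoped ComplexConjugate

variable {G : Type*} [Group G] [Fintype G]

open Cfsg.Agent.Lib.Helper7.BInd1 (trSet tr_mem_trSet trSet_isPBlock blockDefect_trSet induced_trans)










theorem trace_formula {M : Ideal AlgInt} [M.IsPrime] (N : Subgroup G) [hN : N.Normal] [Fintype N]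
    (T : Subgroup G)
    (hout : ∀ y, y ∉ N → ∀ χ : IrrCharacter G, centralChar (χ : G → ℂ) y ∈ Iloc M)
    {b : Set (IrrCharacter N)} (hb : IsPBlock M b)
    (hT : ∀ g : G, g ∈ T ↔ ∀ θ ∈ b, cj N θ g ∈ b)
    {B : Set (IrrCharacter G)} (hB : IsPBlock M B) (hcov : Covers N B b) (g : G) :
    blockCoeff B g = (Nat.card T : ℂ)⁻¹ * ∑ x : G, ext0 N (blockCoeff b) (x⁻¹ * g * x) := by
  classical
  have hA : blockCoeff B = fo N b := by
    apply eq_of_W (blockCoeff_isClass B) (fo_isClass N b)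
    intro ψ hψ
    obtain ⟨ψ', hψ'⟩ : ∃ ψ' : IrrCharacter G, (ψ' : G → ℂ) = ψ := ⟨⟨ψ, hψ⟩, rfl⟩
    rw [← hψ']
    obtain ⟨θ, hθ⟩ := exists_constituent_restrict N ψ'
    rw [W_fo N b hθ, W_blockCoeff]
    by_cases hm : ψ' ∈ B
    · rw [if_pos hm, if_pos]
      obtain ⟨χ₀, hχ₀, θ₀, hθ₀, hcon₀⟩ := hcov
      exact mem_orb_of_sameBlock N hb (sameBlock_of_mem hB hχ₀ hm) hθ₀ hcon₀ hθ
    · rw [if_neg hm, if_neg]
      intro horb
      obtain ⟨θ1, hθ1, hcon1⟩ := over_of_orb N ψ' horb hθ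
      apply hm
      have h3 := covers_unique_of_hout N hout (B := blockOf M (ψ' : G → ℂ)) ⟨ψ', rfl⟩ hB hb
        ⟨ψ', sameBlock_refl (M := M) _, θ1, hθ1, hcon1⟩ hcov
      rw [← h3]
      exact sameBlock_refl (M := M) _
  have hBn : (∑ x : G, conjFun N (blockCoeff b) x) =
      (Nat.card T : ℂ) • blockCoeff (orb N b) := by
    apply eq_of_W (isClassFunction_sum _ _ fun x _ => conjFun_isClass N (blockCoeff_isClass b) x)
      (isClassFunction_smul _ (blockCoeff_isClass _))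
    intro ψ hψ
    obtain ⟨θ, hθ⟩ : ∃ θ : IrrCharacter N, (θ : N → ℂ) = ψ := ⟨⟨ψ, hψ⟩, rfl⟩
    rw [← hθ, W_sum, W_smul, W_blockCoeff]
    simp only [W_conjFun', W_blockCoeff]
    by_cases hm : θ ∈ orb N b
    · rw [if_pos hm, mul_one]
      obtain ⟨g₀, θ₀, hθ₀, rfl⟩ := hm
      have h1 : ∀ x : G, (cj N (cj N θ₀ g₀) x⁻¹ ∈ b) ↔ g₀ * x⁻¹ ∈ T := by
        intro x
        rw [cj_cj]
        exact ⟨fun h => mem_T_of_two N T hb hT hθ₀ h, fun h => (hT _).mp h θ₀ hθ₀⟩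
      simp only [h1]
      rw [Finset.sum_boole]
      have h2 : ((Finset.univ.filter (fun x : G => g₀ * x⁻¹ ∈ T)).card) = Nat.card T := by
        rw [← Fintype.card_subtype, ← Nat.card_eq_fintype_card]
        exact Nat.card_congr ⟨fun x => ⟨g₀ * (x : G)⁻¹, x.2⟩, fun t => ⟨(t : G)⁻¹ * g₀, by
            have h5 : g₀ * ((t : G)⁻¹ * g₀)⁻¹ = t := by group
            rw [h5]; exact t.2⟩, fun x => by apply Subtype.ext; simp,
            fun t => by apply Subtype.ext; simp⟩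
      rw [h2]
    · rw [if_neg hm, mul_zero]
      apply Finset.sum_eq_zero
      intro x _
      rw [if_neg]
      intro h
      apply hm
      exact ⟨x, _, h, by rw [cj_cj, inv_mul_cancel, cj_one]⟩
  rw [hA]
  by_cases hg : g ∈ N
  · rw [fo, ext0_mem N _ hg]
    have h3 := congrFun hBn ⟨g, hg⟩
    rw [Finset.sum_apply, Pi.smul_apply, smul_eq_mul] at h3
    have h4 : ∑ x : G, ext0 N (blockCoeff b) (x⁻¹ * g * x) =
        ∑ x : G, conjFun N (blockCoeff b) x ⟨g, hg⟩ := by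
      apply Fintype.sum_equiv (Equiv.inv G)
      intro x
      rw [conjFun_apply, Equiv.inv_apply]
      have hmem : x⁻¹ * g * x ∈ N := by
        have h6 := hN.conj_mem g hg x⁻¹
        rwa [inv_inv] at h6
      rw [ext0_mem N _ hmem]
      congr 1
      apply Subtype.ext
      simp
    rw [h4, h3]
    have hT0 : (Nat.card T : ℂ) ≠ 0 := Nat.cast_ne_zero.mpr Nat.card_pos.ne'
    field_simp
  · rw [fo, ext0_notMem N _ hg]
    symm
    apply mul_eq_zero_of_right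
    apply Finset.sum_eq_zero
    intro x _
    apply ext0_notMem
    intro h
    apply hg
    have h6 := hN.conj_mem _ h x
    have e : x * (x⁻¹ * g * x) * x⁻¹ = g := by group
    rwa [e] at h6

theorem normal_trace {M : Ideal AlgInt} {p : ℕ} [Fact p.Prime] (hM : IsPModular p M)
    (P : Subgroup G) [hPn : P.Normal] (hP : IsPGroup p P) {B : Set (IrrCharacter G)}
    {e : Set (IrrCharacter (Subgroup.centralizer (P : Set G)))}
    (hBe : IsBrauerPairOf p M B P e) (T : Subgroup G)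
    (hT : ∀ x : G, x ∈ T ↔ StabilizesBlock (Subgroup.centralizer (P : Set G)) e x) :
    (∃ E : Set (IrrCharacter T), IsPBlock M E ∧ ∀ t : T, blockCoeff E t =
      subgroupBlockCoeff (Subgroup.centralizer (P : Set G)) e (t : G)) ∧
    ∀ g : G, blockCoeff B g = (Nat.card T : ℂ)⁻¹ *
      ∑ x : G, subgroupBlockCoeff (Subgroup.centralizer (P : Set G)) e (x⁻¹ * g * x) := by
  classical
  haveI := hM.2.1.isPrime
  have he := hBe.1.2
  have hPN : ∀ x : G, x ∈ Subgroup.normalizer (P : Set G) := by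
    intro x
    rw [Subgroup.normalizer_eq_top_iff.mpr hPn]
    exact Subgroup.mem_top x
  haveI hCn : (Subgroup.centralizer (P : Set G)).Normal := Subgroup.normalizer_eq_top_iff.mp
    (eq_top_iff.mpr fun x _ => mem_normalizer_centralizer (hPN x))
  refine ⟨exists_L_block hM hP he T (fun c hc => (hT c).mpr (stab_cent (M := M) e hc))
    (fun q hq => (hT q).mpr (stab_self (M := M) e hq)) (fun y _ => hPN y)
    (fun y hy => (hT y).mp hy), ?_⟩
  have hout : ∀ y, y ∉ Subgroup.centralizer (P : Set G) →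
      ∀ χ : IrrCharacter G, centralChar (χ : G → ℂ) y ∈ Iloc M :=
    fun y hy χ => centralChar_mem_Iloc_of_normal' hM P hP y hy χ
  have hT' : ∀ g : G, g ∈ T ↔ ∀ θ ∈ e, cj (Subgroup.centralizer (P : Set G)) θ g ∈ e := by
    intro g
    constructor
    · intro hg θ hθ
      obtain ⟨χ', hχ', hconj⟩ := ((hT g⁻¹).mp (T.inv_mem hg)).2 θ hθ
      have h1 : χ' = cj (Subgroup.centralizer (P : Set G)) θ g := by
        apply Subtype.ext
        funext n
        rw [cj_apply]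
        apply hconj
        simp only [inv_inv]
        group
      exact h1 ▸ hχ'
    · intro h
      have h1 : g⁻¹ ∈ T := by
        rw [hT]
        refine ⟨mem_normalizer_centralizer (hPN _), fun χ hχ => ⟨_, h χ hχ, ?_⟩⟩
        intro k k' hk
        rw [cj_apply]
        apply congrArg
        apply Subtype.ext
        simp only
        rw [hk]
        group
      simpa using T.inv_mem h1
  obtain ⟨B₀, hB₀, hcov₀⟩ := exists_covers (Subgroup.centralizer (P : Set G)) he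
  have hind := induced_of_covers (Subgroup.centralizer (P : Set G)) hout hB₀ he hcov₀
  have hBB : B = B₀ := (isBrauerPairOf_iff hM hP hind B).mp hBe
  intro g
  simp only [sBC_eq_ext0]
  rw [hBB]
  exact trace_formula (Subgroup.centralizer (P : Set G)) T hout he hT' hB₀ hcov₀ g

end Cfsg.Agent.Lib.Helper2.BlockBP11
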