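import Mathlib
import Cfsg.Prelude.Def_Blocks
import Cfsg.Agent.Lib.Helper2.BlockFong
import Cfsg.Agent.Lib.Helper2.BlockN
import Cfsg.Agent.Lib.Helper2.BlockMisc

set_option autoImplicit false
set_option linter.unusedSectionVars false
set_option linter.unusedVariables false
set_option linter.style.haveILetI false

/-! Miscellaneous consequences of the block library. -/

namespace Cfsg.Agent.Lib.Helper2.BlockCount

open Cfsg Cfsg.Agent.Lib.Helper7.CharIrr Cfsg.Agent.Lib.Helper7.CharOrth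
  Cfsg.Agent.Lib.Helper7.CharIntegral Cfsg.Agent.Lib.Helper7.CharMore
  Cfsg.Agent.Lib.Helper7.CharClassAlg Cfsg.Agent.Lib.Helper7.CharComplete
  Cfsg.Agent.Lib.Helper7.CharDeg Cfsg.Agent.Lib.Helper7.CharGalois
  Cfsg.Agent.Lib.Helper7.CharClassAlg2 Cfsg.Agent.Lib.Helper7.CharBurnside
  Cfsg.Agent.Lib.Helper7.CharNormal Cfsg.Agent.Lib.Helper7.CharClifford
  Cfsg.Agent.Lib.Helper7.CharInd Cfsg.Agent.Lib.Helper7.CharMisc
  Cfsg.Agent.Lib.Helper2.LocRing
  Cfsg.Agent.Lib.Helper2.BlockZ Cfsg.Agent.Lib.Helper2.BlockDef Cfsg.Agent.Lib.Helper2.BlockOrth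
  Cfsg.Agent.Lib.Helper2.BlockSM4 Cfsg.Agent.Lib.Helper2.BlockSub Cfsg.Agent.Lib.Helper2.BlockBr2
  Cfsg.Agent.Lib.Helper2.BlockCov Cfsg.Agent.Lib.Helper2.BlockKer
  Cfsg.Agent.Lib.Helper2.BlockCov2 Cfsg.Agent.Lib.Helper2.BlockLam
  Cfsg.Agent.Lib.Helper2.BlockFMT Cfsg.Agent.Lib.Helper2.BlockGr3
  Cfsg.Agent.Lib.Helper2.BlockFong Cfsg.Agent.Lib.Helper2.BlockN Cfsg.Agent.Lib.Helper2.BlockMisc
open scoped ComplexConjugate

theorem card_le_of_dual {M : Ideal AlgInt} [M.IsPrime] {ι κ : Type*} [Fintype ι] [Fintype κ]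
    [DecidableEq ι] [DecidableEq κ]
    (X : ι → κ → ℂ) (Y : κ → ι → ℂ) (hX : ∀ i k, X i k ∈ Rloc M) (hY : ∀ k i, Y k i ∈ Rloc M)
    (h : ∀ i j, (∑ k, X i k * Y k j) - (if i = j then 1 else 0) ∈ Iloc M) :
    Fintype.card ι ≤ Fintype.card κ := by
  obtain ⟨I', hI⟩ : ∃ I' : Ideal (Rloc M), ∀ r : Rloc M, r ∈ I' ↔ (r : ℂ) ∈ Iloc M :=
    ⟨Submodule.comap (Algebra.linearMap (Rloc M) ℂ) (Iloc M), fun r => Iff.rfl⟩
  haveI : Nontrivial (Rloc M ⧸ I') := by
    apply Ideal.Quotient.nontrivial_iff.mpr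
    intro htop
    exact one_notMem_Iloc (M := M) ((hI 1).mp (htop ▸ Submodule.mem_top))
  obtain ⟨X', hX'⟩ : ∃ X' : Matrix ι κ (Rloc M ⧸ I'),
      X' = fun i k => Ideal.Quotient.mk I' ⟨X i k, hX i k⟩ := ⟨_, rfl⟩
  obtain ⟨Y', hY'⟩ : ∃ Y' : Matrix κ ι (Rloc M ⧸ I'),
      Y' = fun k i => Ideal.Quotient.mk I' ⟨Y k i, hY k i⟩ := ⟨_, rfl⟩
  have hXY : X' * Y' = 1 := by
    ext i j
    rw [Matrix.mul_apply, Matrix.one_apply, hX', hY']
    simp only [← map_mul, ← map_sum]
    have h1 : (if i = j then (1 : Rloc M ⧸ I') else 0) =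
        Ideal.Quotient.mk I' (if i = j then 1 else 0) := by
      split_ifs <;> simp
    rw [h1, Ideal.Quotient.eq, hI]
    have h2 := h i j
    convert h2 using 1
    push_cast
    congr 1
    split_ifs <;> simp
  apply card_le_of_injective (Rloc M ⧸ I') Y'.mulVecLin
  intro v w hvw
  have h1 := congrArg (X'.mulVec) hvw
  simpa [Matrix.mulVec_mulVec, hXY] using h1

variable {G : Type*} [Group G] [Fintype G]

theorem card_blocks_le {M : Ideal AlgInt} [M.IsPrime] (Pb : Set (IrrCharacter G) → Prop)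
    (Pc : ConjClasses G → Prop)
    (h : ∀ B B' : Set (IrrCharacter G), IsPBlock M B → Pb B → IsPBlock M B' → Pb B' →
      ∀ χ ∈ B', ∀ C : ConjClasses G, ¬ Pc C →
        blockCoeff B C.out * centralChar (χ : G → ℂ) C.out ∈ Iloc M) :
    Nat.card {B : Set (IrrCharacter G) // IsPBlock M B ∧ Pb B} ≤
      Nat.card {C : ConjClasses G // Pc C} := by
  classical
  haveI := Fintype.ofFinite (ConjClasses G)
  haveI := Fintype.ofFinite (IrrCharacter G)
  haveI := Fintype.ofFinite {B : Set (IrrCharacter G) // IsPBlock M B ∧ Pb B}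
  rw [Nat.card_eq_fintype_card, Nat.card_eq_fintype_card]
  choose rep hrep using fun B : {B : Set (IrrCharacter G) // IsPBlock M B ∧ Pb B} =>
    block_nonempty B.2.1
  apply card_le_of_dual (M := M)
    (fun (B : {B : Set (IrrCharacter G) // IsPBlock M B ∧ Pb B}) (C : {C : ConjClasses G // Pc C}) =>
      blockCoeff B.1 C.1.out)
    (fun (C : {C : ConjClasses G // Pc C}) (B : {B : Set (IrrCharacter G) // IsPBlock M B ∧ Pb B}) =>
      centralChar (rep B : G → ℂ) C.1.out)
  · intro B C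
    exact blockCoeff_mem_Rloc B.1 (block_closed B.2.1) _
  · intro C B
    exact centralChar_mem_Rloc _ _
  · intro B B'
    have h1 : W (rep B' : G → ℂ) (blockCoeff B.1) = if B = B' then 1 else 0 := by
      rw [W_blockCoeff]
      by_cases hBB : B = B'
      · rw [if_pos hBB, if_pos (hBB ▸ hrep B')]
      · rw [if_neg hBB, if_neg]
        intro hm
        exact hBB (Subtype.ext (block_eq_of_mem B.2.1 B'.2.1 hm (hrep B')))
    rw [← h1, W_eq_sum_classes (rep B').2 (blockCoeff_isClass _),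
      ← Fintype.sum_subtype_add_sum_subtype Pc
        (fun C : ConjClasses G => blockCoeff B.1 C.out * centralChar (rep B' : G → ℂ) C.out),
      sub_add_cancel_left]
    apply Submodule.neg_mem
    apply Submodule.sum_mem (Iloc M)
    intro C _
    exact h B.1 B'.1 B.2.1 B.2.2 B'.2.1 B'.2.2 _ (hrep B') C.1 C.2

theorem centralChar_mem_of_lt' {M : Ideal AlgInt} {p : ℕ} (hM : IsPModular p M)
    {B : Set (IrrCharacter G)} (hB : IsPBlock M B) {χ : IrrCharacter G} (hχ : χ ∈ B) (x : G)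
    (h : (Nat.card (Subgroup.centralizer ({x} : Set G))).factorization p < blockDefect p B) :
    MemLocalIdeal M (centralChar (χ : G → ℂ) x) := by
  haveI := hM.2.1.isPrime
  have hBB : B = blockOf M (χ : G → ℂ) :=
    block_eq_of_mem hB ⟨χ, rfl⟩ hχ (sameBlock_refl (M := M) _)
  exact centralChar_mem_of_lt hM χ x (hBB ▸ h)

theorem card_blocks_ge {M : Ideal AlgInt} {p : ℕ} (hM : IsPModular p M) (d : ℕ) :
    Nat.card {B : Set (IrrCharacter G) // IsPBlock M B ∧ d ≤ blockDefect p B} ≤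
      Nat.card {C : ConjClasses G // ∃ g : G, ConjClasses.mk g = C ∧ IsPRegular p g ∧
        d ≤ (Nat.card (Subgroup.centralizer ({g} : Set G))).factorization p} := by
  haveI := hM.2.1.isPrime
  apply card_blocks_le (M := M) (fun B => d ≤ blockDefect p B)
  intro B B' hB hd hB' hd' χ hχ C hC
  by_cases hx : p ∣ orderOf C.out
  · rw [blockCoeff_eq_zero hM _ (block_closed hB) _ hx, zero_mul]
    exact Submodule.zero_mem _
  · apply mul_mem_Iloc (blockCoeff_mem_Rloc _ (block_closed hB) _)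
    apply centralChar_mem_of_lt' hM hB' hχ
    by_contra hc
    exact hC ⟨C.out, Quotient.out_eq' C, hx, by omega⟩

theorem card_blocks_eq {M : Ideal AlgInt} {p : ℕ} (hM : IsPModular p M) (σ : ℕ) :
    Nat.card {B : Set (IrrCharacter G) // IsPBlock M B ∧ blockDefect p B = σ} ≤
      Nat.card {C : ConjClasses G // ∃ g : G, ConjClasses.mk g = C ∧ ¬ p ∣ orderOf g ∧
        (Nat.card (Subgroup.centralizer ({g} : Set G))).factorization p = σ} := by
  haveI := hM.2.1.isPrime
  apply card_blocks_le (M := M) (fun B => blockDefect p B = σ)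
  intro B B' hB hd hB' hd' χ hχ C hC
  by_cases hx : p ∣ orderOf C.out
  · rw [blockCoeff_eq_zero hM _ (block_closed hB) _ hx, zero_mul]
    exact Submodule.zero_mem _
  · rcases lt_trichotomy ((Nat.card (Subgroup.centralizer ({C.out} : Set G))).factorization p) σ
      with hlt | heq | hgt
    · exact mul_mem_Iloc (blockCoeff_mem_Rloc _ (block_closed hB) _)
        (centralChar_mem_of_lt' hM hB' hχ _ (hd'.symm ▸ hlt))
    · exact absurd ⟨C.out, Quotient.out_eq' C, hx, heq⟩ hC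
    · apply mul_mem_Iloc' _ (centralChar_mem_Rloc χ _)
      by_contra hc
      have := le_defect_of_blockCoeff hM hB _ hc
      omega

end Cfsg.Agent.Lib.Helper2.BlockCount
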