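import Mathlib
import Cfsg.Prelude.Def_Blocks
import Cfsg.Agent.Lib.Helper2.BlockFong
import Cfsg.Agent.Lib.Helper2.BlockN
import Cfsg.Agent.Lib.Helper2.BlockMisc
import Cfsg.Agent.Lib.Helper2.BlockAvg
import Cfsg.Agent.Lib.Helper2.BlockCong
import Cfsg.Agent.Lib.Helper2.BlockSM7
import Cfsg.Agent.Lib.Helper2.BlockSM3
import Cfsg.Agent.Lib.Helper2.BlockPr
import Cfsg.Agent.Lib.Helper2.BlockSM5
import Cfsg.Agent.S0906
import Cfsg.Agent.Lib.Helper2.BlockInd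
import Cfsg.Agent.Lib.Helper2.BlockReg3

set_option autoImplicit false
set_option linter.unusedSectionVars false
set_option linter.unusedVariables false
set_option linter.style.haveILetI false

/-! Miscellaneous consequences of the block library. -/

namespace Cfsg.Agent.Lib.Helper2.BlockInd2

open Cfsg Cfsg.Agent.Lib.Helper7.CharIrr Cfsg.Agent.Lib.Helper7.CharOrth
  Cfsg.Agent.Lib.Helper7.CharIntegral Cfsg.Agent.Lib.Helper7.CharMore
  Cfsg.Agent.Lib.Helper7.CharClassAlg Cfsg.Agent.Lib.Helper7.CharComplete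
  Cfsg.Agent.Lib.Helper7.CharDeg Cfsg.Agent.Lib.Helper7.CharGalois
  Cfsg.Agent.Lib.Helper7.CharClassAlg2 Cfsg.Agent.Lib.Helper7.CharBurnside
  Cfsg.Agent.Lib.Helper7.CharNormal Cfsg.Agent.Lib.Helper7.CharClifford
  Cfsg.Agent.Lib.Helper7.CharInd Cfsg.Agent.Lib.Helper7.CharMisc
  Cfsg.Agent.Lib.Helper2.LocRing
  Cfsg.Agent.Lib.Helper2.BlockZ Cfsg.Agent.Lib.Helper2.BlockDef Cfsg.Agent.Lib.Helper2.BlockOrth
  Cfsg.Agent.Lib.Helper2.BlockSM4 Cfsg.Agent.Lib.Helper2.BlockSub Cfsg.Agent.Lib.Helper2.BlockBr2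
  Cfsg.Agent.Lib.Helper2.BlockCov Cfsg.Agent.Lib.Helper2.BlockKer
  Cfsg.Agent.Lib.Helper2.BlockCov2 Cfsg.Agent.Lib.Helper2.BlockLam
  Cfsg.Agent.Lib.Helper2.BlockFMT Cfsg.Agent.Lib.Helper2.BlockGr3
  Cfsg.Agent.Lib.Helper2.BlockFong Cfsg.Agent.Lib.Helper2.BlockN
  Cfsg.Agent.Lib.Helper2.BlockMisc Cfsg.Agent.Lib.Helper2.BlockAvg Cfsg.Agent.Lib.Helper2.BlockCong
  Cfsg.Agent.Lib.Helper2.BlockSM7 Cfsg.Agent.Lib.Helper2.BlockSM3 Cfsg.Agent.Lib.Helper2.BlockPr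
  Cfsg.Agent.Lib.Helper2.BlockSM5 Cfsg.Agent.Lib.Helper2.BlockInd Cfsg.Agent.Lib.Helper2.BlockReg
  Cfsg.Agent.Lib.Helper2.BlockReg2 Cfsg.Agent.Lib.Helper2.BlockReg3
open scoped ComplexConjugate

variable {G : Type*} [Group G] [Fintype G]

/-- inner product of the truncated character with an irreducible character -/
theorem classInner_trunc (p : ℕ) (c : ℂ) {χ : G → ℂ} (hχ : IsCharacter G χ) (ψ : IrrCharacter G) :
    classInner (fun x : G => if p ∣ orderOf x then (0 : ℂ) else c * χ x) (ψ : G → ℂ) =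
      c * (Nat.card G : ℂ)⁻¹ * (ψ : G → ℂ) 1 * W (ψ : G → ℂ) (creg p χ) := by
  have hψ := Cfsg.Agent.Lib.Helper2.BlockKer.irr_one_ne_zero ψ.2
  unfold classInner W
  have h1 : ∑ g : G, (if p ∣ orderOf g then (0 : ℂ) else c * χ g) * conj ((ψ : G → ℂ) g) =
      c * ∑ g : G, creg p χ g * (ψ : G → ℂ) g := by
    rw [Finset.mul_sum]
    apply Fintype.sum_equiv (Equiv.inv G)
    intro g
    simp only [Equiv.inv_apply]
    unfold creg
    rw [orderOf_inv]
    split_ifs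
    · simp
    · rw [irr_inv hχ, irr_inv (IsIrrCharacter.isCharacter ψ.2), Complex.conj_conj]
      ring
  rw [h1]
  field_simp

theorem induced_trunc {M : Ideal AlgInt} {p : ℕ} [Fact p.Prime] (hM : IsPModular p M)
    (H : Subgroup G) [Fintype H] {b : Set (IrrCharacter H)} {B₀ : Set (IrrCharacter G)}
    (hind : IsInducedBlock M H b B₀) (χ : IrrCharacter G) (ψ : IrrCharacter H) (hψ : ψ ∈ b) :
    (χ ∉ B₀ → MemLocalIdeal M (classInner (fun h : H => if p ∣ orderOf h then (0 : ℂ) else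
      ((p ^ (Nat.card H).factorization p : ℕ) : ℂ) * (χ : G → ℂ) h) (ψ : H → ℂ) / (ψ : H → ℂ) 1)) ∧
    (χ ∈ B₀ → blockHeight p B₀ (χ : G → ℂ) = 0 →
      ¬ MemLocalIdeal M (classInner (fun h : H => if p ∣ orderOf h then (0 : ℂ) else
      ((p ^ (Nat.card H).factorization p : ℕ) : ℂ) * (χ : G → ℂ) h) (ψ : H → ℂ) / (ψ : H → ℂ) 1)) := by
  classical
  haveI := hM.2.1.isPrime
  have hψ1 := Cfsg.Agent.Lib.Helper2.BlockKer.irr_one_ne_zero ψ.2
  have hres : IsCharacter H (fun h : H => (χ : G → ℂ) h) :=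
    isCharacter_restrict H (IsIrrCharacter.isCharacter χ.2)
  obtain ⟨r, hr⟩ : ∃ r : ℕ, r = Nat.card H / p ^ (Nat.card H).factorization p := ⟨_, rfl⟩
  have hr1 : p ^ (Nat.card H).factorization p * r = Nat.card H := by
    rw [hr]; exact Nat.ordProj_mul_ordCompl_eq_self _ p
  have hr2 : ¬ p ∣ r := by rw [hr]; exact Nat.not_dvd_ordCompl hM.1 Nat.card_pos.ne'
  have hr0 : (r : ℂ) ≠ 0 := by
    have : r ≠ 0 := by rintro rfl; exact hr2 (dvd_zero p)
    exact_mod_cast this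
  have hp0 : ((p ^ (Nat.card H).factorization p : ℕ) : ℂ) ≠ 0 := by
    exact_mod_cast (pow_pos hM.1.pos _).ne'
  have key : classInner (fun h : H => if p ∣ orderOf h then (0 : ℂ) else
      ((p ^ (Nat.card H).factorization p : ℕ) : ℂ) * (χ : G → ℂ) h) (ψ : H → ℂ) / (ψ : H → ℂ) 1 =
      (r : ℂ)⁻¹ * W (ψ : H → ℂ) (fun h : H => creg p (χ : G → ℂ) h) := by
    rw [classInner_trunc p _ hres ψ, creg_restrict]
    have e1 : (Nat.card H : ℂ) = ((p ^ (Nat.card H).factorization p : ℕ) : ℂ) * (r : ℂ) := by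
      exact_mod_cast hr1.symm
    rw [e1]
    field_simp
  rw [key]
  have hcl := creg_isClass p (IsCharacter.isClassFunction (IsIrrCharacter.isCharacter χ.2))
  have hR : ∀ g, creg p (χ : G → ℂ) g ∈ Rloc M := fun g => creg_mem_Rloc p χ.2 g
  have hrR : (r : ℂ)⁻¹ ∈ Rloc M := natCast_inv_mem_Rloc hM hr2
  constructor
  · intro hχ
    obtain ⟨χ0, hχ0⟩ := block_nonempty hind.2.1
    have h1 := induced_W hind hψ hχ0 hcl hR
    rw [W_creg_eq_zero hM χ χ0 (fun hs => block_closed hind.2.1 χ0 hχ0 χ hχ hs), sub_zero] at h1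
    exact mul_mem_Iloc hrR h1
  · intro hχ h0 hc
    have h1 := induced_W hind hψ hχ hcl hR
    have hB : B₀ = blockOf M (χ : G → ℂ) :=
      block_eq_of_mem hind.2.1 ⟨χ, rfl⟩ hχ (sameBlock_refl (M := M) _)
    have h2 := W_creg_notMem_of_height_zero hM χ (hB ▸ h0)
    apply h2
    have h3 : W (ψ : H → ℂ) (fun h : H => creg p (χ : G → ℂ) h) ∈ Iloc M := by
      have := mul_mem_Iloc (natCast_mem_Rloc (M := M) r) hc
      rwa [← mul_assoc, mul_inv_cancel₀ hr0, one_mul] at this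
    have := Submodule.sub_mem (Iloc M) h3 h1
    rwa [sub_sub_cancel] at this

end Cfsg.Agent.Lib.Helper2.BlockInd2
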