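import Mathlib
import Cfsg.Prelude.Def_Blocks
import Cfsg.Agent.Lib.Helper2.BlockFong
import Cfsg.Agent.Lib.Helper2.BlockN
import Cfsg.Agent.Lib.Helper2.BlockMisc
import Cfsg.Agent.Lib.Helper2.BlockAvg
import Cfsg.Agent.Lib.Helper2.BlockCong
import Cfsg.Agent.Lib.Helper2.BlockSM7

set_option autoImplicit false
set_option linter.unusedSectionVars false
set_option linter.unusedVariables false
set_option linter.style.haveILetI false

/-! Miscellaneous consequences of the block library. -/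

namespace Cfsg.Agent.Lib.Helper2.BlockMisc2

open Cfsg Cfsg.Agent.Lib.Helper7.CharIrr Cfsg.Agent.Lib.Helper7.CharOrth
  Cfsg.Agent.Lib.Helper7.CharIntegral Cfsg.Agent.Lib.Helper7.CharMore
  Cfsg.Agent.Lib.Helper7.CharClassAlg Cfsg.Agent.Lib.Helper7.CharComplete
  Cfsg.Agent.Lib.Helper7.CharDeg Cfsg.Agent.Lib.Helper7.CharGalois
  Cfsg.Agent.Lib.Helper7.CharClassAlg2 Cfsg.Agent.Lib.Helper7.CharBurnside
  Cfsg.Agent.Lib.Helper7.CharNormal Cfsg.Agent.Lib.Helper7.CharClifford
  Cfsg.Agent.Lib.Helper7.CharInd Cfsg.Agent.Lib.Helper7.CharMisc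
  Cfsg.Agent.Lib.Helper2.LocRing
  Cfsg.Agent.Lib.Helper2.BlockZ Cfsg.Agent.Lib.Helper2.BlockDef Cfsg.Agent.Lib.Helper2.BlockOrth
  Cfsg.Agent.Lib.Helper2.BlockSM4 Cfsg.Agent.Lib.Helper2.BlockSub Cfsg.Agent.Lib.Helper2.BlockBr2
  Cfsg.Agent.Lib.Helper2.BlockCov Cfsg.Agent.Lib.Helper2.BlockKer
  Cfsg.Agent.Lib.Helper2.BlockCov2 Cfsg.Agent.Lib.Helper2.BlockLam
  Cfsg.Agent.Lib.Helper2.BlockFMT Cfsg.Agent.Lib.Helper2.BlockGr3
  Cfsg.Agent.Lib.Helper2.BlockFong Cfsg.Agent.Lib.Helper2.BlockN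
  Cfsg.Agent.Lib.Helper2.BlockMisc Cfsg.Agent.Lib.Helper2.BlockAvg Cfsg.Agent.Lib.Helper2.BlockCong
  Cfsg.Agent.Lib.Helper2.BlockSM7
open scoped ComplexConjugate

variable {G : Type*} [Group G] [Fintype G]

/-- the coefficients of a block idempotent are local integers at every prime above `p` -/
theorem blockCoeff_mem_Rloc_other {M M' : Ideal AlgInt} {p : ℕ} [Fact p.Prime]
    (hM : IsPModular p M) (hM' : IsPModular p M') {B : Set (IrrCharacter G)}
    (hB : IsPBlock M' B) (g : G) : MemLocalRing M (blockCoeff B g) := by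
  classical
  haveI := hM.2.1.isPrime
  haveI hp' := hM'.2.1.isPrime
  haveI := Fintype.ofFinite (IrrCharacter G)
  change blockCoeff B g ∈ Rloc M
  by_cases hg : p ∣ orderOf g
  · rw [blockCoeff_eq_zero hM' B (block_closed hB) g hg]
    exact Subring.zero_mem _
  obtain ⟨P⟩ : Nonempty (Sylow p G) := inferInstance
  have h1 : ∀ u : G, u ≠ 1 → u ∈ (P : Subgroup G) →
      ∑ χ ∈ Finset.univ.filter (fun χ : IrrCharacter G => χ ∈ B),
        conj ((χ : G → ℂ) g) * (χ : G → ℂ) u = 0 := by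
    intro u hu1 hu
    have hu2 : p ∣ orderOf u := by
      obtain ⟨k, hk⟩ := (IsPGroup.iff_orderOf.mp P.2) ⟨u, hu⟩
      rw [Subgroup.orderOf_mk] at hk
      cases k with
      | zero => exact absurd (orderOf_eq_one_iff.mp (by simpa using hk)) hu1
      | succ k => rw [hk, pow_succ]; exact Dvd.intro_left _ rfl
    have h2 := weak_orth hM' B (block_closed hB) g u hg hu2
    have h3 := congrArg conj h2
    rw [map_sum, map_zero] at h3
    rw [← h3]
    apply Finset.sum_congr rfl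
    intro χ _
    rw [map_mul, Complex.conj_conj]
  have h2 : blockCoeff B g = ((P : Subgroup G).index : ℂ)⁻¹ *
      ∑ χ ∈ Finset.univ.filter (fun χ : IrrCharacter G => χ ∈ B), conj ((χ : G → ℂ) g) *
        ((Nat.card (P : Subgroup G) : ℂ)⁻¹ *
          ∑ x : G, (if x ∈ (P : Subgroup G) then (χ : G → ℂ) (x * 1) else 0)) := by
    have h3 : ∑ χ ∈ Finset.univ.filter (fun χ : IrrCharacter G => χ ∈ B), conj ((χ : G → ℂ) g) *
        ((Nat.card (P : Subgroup G) : ℂ)⁻¹ *
          ∑ x : G, (if x ∈ (P : Subgroup G) then (χ : G → ℂ) (x * 1) else 0)) =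
        (Nat.card (P : Subgroup G) : ℂ)⁻¹ * ∑ x : G,
          ∑ χ ∈ Finset.univ.filter (fun χ : IrrCharacter G => χ ∈ B),
          (if x ∈ (P : Subgroup G) then conj ((χ : G → ℂ) g) * (χ : G → ℂ) x else 0) := by
      rw [Finset.sum_comm, Finset.mul_sum]
      apply Finset.sum_congr rfl
      intro χ _
      rw [mul_left_comm, Finset.mul_sum]
      congr 1
      apply Finset.sum_congr rfl
      intro x _
      rw [mul_one]
      split_ifs <;> simp
    rw [h3, Finset.sum_eq_single (1 : G)]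
    · rw [blockCoeff_eq_sum, Finset.sum_apply, ← mul_assoc, Finset.mul_sum]
      apply Finset.sum_congr rfl
      intro χ _
      rw [if_pos (one_mem _)]
      unfold eI
      have e1 : (Nat.card G : ℂ) = ((P : Subgroup G).index : ℂ) * (Nat.card (P : Subgroup G) : ℂ) := by
        rw [← Subgroup.index_mul_card (P : Subgroup G)]
        push_cast
        rfl
      rw [e1, mul_inv]
      ring
    · intro x _ hx
      by_cases hxP : x ∈ (P : Subgroup G)
      · simp only [if_pos hxP]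
        exact h1 x hx hxP
      · simp only [if_neg hxP]
        exact Finset.sum_const_zero
    · intro h; exact absurd (Finset.mem_univ _) h
  rw [h2]
  apply Subring.mul_mem _ (natCast_inv_mem_Rloc hM P.not_dvd_index)
  apply Subring.sum_mem
  intro χ _
  apply Subring.mul_mem
  · apply integral_mem_Rloc
    exact isIntegral_of_isCharacter (IsIrrCharacter.isCharacter (isIrrCharacter_conj χ.2)) g
  · apply integral_mem_Rloc
    exact isIntegral_avg (IsIrrCharacter.isCharacter χ.2) (P : Subgroup G) 1 (fun t _ => by simp)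

theorem sameBlock_other {M M' : Ideal AlgInt} {p : ℕ} [Fact p.Prime]
    (hM : IsPModular p M) (hM' : IsPModular p M') {χ ψ : IrrCharacter G}
    (h : SameBlock M (χ : G → ℂ) (ψ : G → ℂ)) : SameBlock M' (χ : G → ℂ) (ψ : G → ℂ) := by
  classical
  haveI := hM.2.1.isPrime
  haveI hp' := hM'.2.1.isPrime
  by_contra hc
  have h1 : W (χ : G → ℂ) (blockCoeff (blockOf M' (χ : G → ℂ))) = 1 := by
    rw [W_blockCoeff, if_pos (show χ ∈ blockOf M' (χ : G → ℂ) from sameBlock_refl (M := M') _)]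
  have h2 : W (ψ : G → ℂ) (blockCoeff (blockOf M' (χ : G → ℂ))) = 0 := by
    rw [W_blockCoeff, if_neg (show ψ ∉ blockOf M' (χ : G → ℂ) from hc)]
  apply one_notMem_Iloc (M := M)
  have h3 := W_sub_mem_Iloc h (blockCoeff_isClass (blockOf M' (χ : G → ℂ)))
    (fun g => blockCoeff_mem_Rloc_other hM hM' ⟨χ, rfl⟩ g)
  rwa [h1, h2, sub_zero] at h3

end Cfsg.Agent.Lib.Helper2.BlockMisc2
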