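import Mathlib
import Cfsg.Prelude.Def_Blocks
import Cfsg.Prelude.Def_Solvable
import Cfsg.Agent.Lib.Helper2.BlockPr

set_option autoImplicit false
set_option linter.unusedSectionVars false
set_option linter.unusedVariables false
set_option linter.style.haveILetI false

/-! Norm sums over the principal block at `p`-sections. -/

namespace Cfsg.Agent.Lib.Helper2.BlockPr2

open Cfsg Cfsg.Agent.Lib.Helper7.CharIrr Cfsg.Agent.Lib.Helper7.CharOrth
  Cfsg.Agent.Lib.Helper7.CharIntegral Cfsg.Agent.Lib.Helper7.CharMore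
  Cfsg.Agent.Lib.Helper7.CharClassAlg Cfsg.Agent.Lib.Helper7.CharComplete
  Cfsg.Agent.Lib.Helper7.CharDeg Cfsg.Agent.Lib.Helper7.CharGalois
  Cfsg.Agent.Lib.Helper7.CharClassAlg2 Cfsg.Agent.Lib.Helper7.CharBurnside
  Cfsg.Agent.Lib.Helper7.CharKer
  Cfsg.Agent.Lib.Helper2.LocRing
  Cfsg.Agent.Lib.Helper2.BlockZ Cfsg.Agent.Lib.Helper2.BlockDef Cfsg.Agent.Lib.Helper2.BlockOrth
  Cfsg.Agent.Lib.Helper2.BlockAvg Cfsg.Agent.Lib.Helper2.BlockN Cfsg.Agent.Lib.Helper2.BlockKer
  Cfsg.Agent.Lib.Helper2.BlockSM4 Cfsg.Agent.Lib.Helper2.BlockSM5 Cfsg.Agent.Lib.Helper2.BlockSM6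
  Cfsg.Agent.Lib.Helper2.BlockSM7 Cfsg.Agent.Lib.Helper2.BlockBr2 Cfsg.Agent.Lib.Helper2.BlockSub
  Cfsg.Agent.Lib.Helper2.BlockFMT Cfsg.Agent.Lib.Helper2.BlockPr
open scoped ComplexConjugate

variable {G : Type*} [Group G] [Fintype G]

theorem isPPart_coe' {p : ℕ} (N : Subgroup G) {l z : N}
    (h : IsPPart p l z) : IsPPart p (l : G) (z : G) := by
  obtain ⟨y, hzy, hc, ⟨j, hj⟩, hy⟩ := h
  refine ⟨y, ?_, ?_, ⟨j, ?_⟩, ?_⟩
  · exact congrArg Subtype.val hzy
  · exact congrArg Subtype.val hc.eq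
  · rw [Subgroup.orderOf_coe, hj]
  · rw [Subgroup.orderOf_coe]; exact hy

/-- an element conjugating two elements with `p`-part `z` centralizes `z` -/
theorem mem_centralizer_of_conj {p : ℕ} (hp : p.Prime) {u h z c : G} (hu : IsPPart p u z)
    (hh : IsPPart p h z) (hc : c * u * c⁻¹ = h) : c ∈ Subgroup.centralizer ({z} : Set G) := by
  have h1 := isPPart_conj hu c
  rw [hc] at h1
  have h2 := isPPart_unique hp h1 hh
  rw [Subgroup.mem_centralizer_singleton_iff]
  calc c * z = c * z * c⁻¹ * c := by group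
    _ = z * c := by rw [h2]

theorem norm_central {ξ : G → ℂ} (hξ : IsIrrCharacter G ξ) {z : G} (hz : z ∈ Subgroup.center G)
    (y : G) : ξ (z * y) * conj (ξ (z * y)) = ξ y * conj (ξ y) := by
  have e1 := BlockKer.irr_one_ne_zero hξ
  have h1 := irr_mul_central hξ hz y
  have h2 := irr_mul_central hξ hz z⁻¹
  rw [mul_inv_cancel, irr_inv (IsIrrCharacter.isCharacter hξ)] at h2
  have e3 : conj (ξ 1) = ξ 1 := by
    rw [← charDegree_cast (IsIrrCharacter.isCharacter hξ)]
    simp
  rw [h1, map_div₀, map_mul, e3]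
  have h3 : ξ z * conj (ξ z) = ξ 1 * ξ 1 := by
    field_simp at h2
    rw [← h2]; ring
  calc ξ z * ξ y / ξ 1 * (conj (ξ z) * conj (ξ y) / ξ 1)
      = (ξ z * conj (ξ z)) * (ξ y * conj (ξ y)) / (ξ 1 * ξ 1) := by field_simp
    _ = ξ y * conj (ξ y) := by rw [h3]; field_simp

theorem principal_norm_sum {M : Ideal AlgInt} {p : ℕ} [Fact p.Prime] (hM : IsPModular p M)
    (z : G) [Fintype (Subgroup.centralizer ({z} : Set G))] [Fintype (IrrCharacter G)]
    [Fintype (IrrCharacter (Subgroup.centralizer ({z} : Set G)))]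
    (hz : ∃ k : ℕ, orderOf z = p ^ k) (y : Subgroup.centralizer ({z} : Set G))
    (hy : ¬ p ∣ orderOf y) [DecidablePred (· ∈ principalBlock M G)]
    [DecidablePred (· ∈ principalBlock M (Subgroup.centralizer ({z} : Set G)))] :
    ∑ ζ ∈ Finset.univ.filter (fun ζ => ζ ∈ principalBlock M G),
        (ζ : G → ℂ) (z * y) * conj ((ζ : G → ℂ) (z * y)) =
      ∑ ξ ∈ Finset.univ.filter
          (fun ξ => ξ ∈ principalBlock M (Subgroup.centralizer ({z} : Set G))),
        (ξ : Subgroup.centralizer ({z} : Set G) → ℂ) y *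
          conj ((ξ : Subgroup.centralizer ({z} : Set G) → ℂ) y) := by
  classical
  haveI := hM.2.1.isPrime
  have hzC : z ∈ Subgroup.centralizer ({z} : Set G) := by
    rw [Subgroup.mem_centralizer_singleton_iff]
  obtain ⟨zC, hzCdef⟩ : ∃ zC : Subgroup.centralizer ({z} : Set G), zC = ⟨z, hzC⟩ := ⟨_, rfl⟩
  have hzCv : (zC : G) = z := by rw [hzCdef]
  have hzcen : zC ∈ Subgroup.center (Subgroup.centralizer ({z} : Set G)) := by
    rw [Subgroup.mem_center_iff]
    intro c
    apply Subtype.ext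
    have := Subgroup.mem_centralizer_singleton_iff.mp c.2
    simp only [Subgroup.coe_mul, hzCv]
    exact this
  obtain ⟨h, hh0⟩ : ∃ h : Subgroup.centralizer ({z} : Set G), h = zC * y := ⟨_, rfl⟩
  have hhv : (h : G) = z * y := by rw [hh0, Subgroup.coe_mul, hzCv]
  have hhC : IsPPart p h zC := ⟨y, hh0.symm, (Subgroup.mem_center_iff.mp hzcen y).symm, by
    obtain ⟨k, hk⟩ := hz
    exact ⟨k, by rw [← Subgroup.orderOf_coe, hzCv, hk]⟩, hy⟩
  have hh : IsPPart p (h : G) z := by
    have := isPPart_coe' _ hhC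
    rwa [hzCv] at this
  obtain ⟨e, he⟩ : ∃ e : Subgroup.centralizer ({z} : Set G) → ℂ,
    e = blockCoeff (principalBlock M (Subgroup.centralizer ({z} : Set G))) := ⟨_, rfl⟩
  -- Step A
  have hA : ∑ k : Subgroup.centralizer ({z} : Set G), e k *
      (∑ ζ : IrrCharacter G, (ζ : G → ℂ) ((k : G) * (h : G)) * conj ((ζ : G → ℂ) (h : G))) =
      ∑ ζ ∈ Finset.univ.filter (fun ζ => ζ ∈ principalBlock M G),
        (ζ : G → ℂ) (h : G) * conj ((ζ : G → ℂ) (h : G)) := by
    simp only [Finset.mul_sum]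
    rw [Finset.sum_comm, Finset.sum_filter]
    apply Finset.sum_congr rfl
    intro ζ _
    have h1 : ∑ k : Subgroup.centralizer ({z} : Set G), e k *
        ((ζ : G → ℂ) ((k : G) * (h : G)) * conj ((ζ : G → ℂ) (h : G))) =
        (∑ k : Subgroup.centralizer ({z} : Set G), e k * (ζ : G → ℂ) ((k : G) * (h : G))) *
          conj ((ζ : G → ℂ) (h : G)) := by
      rw [Finset.sum_mul]
      apply Finset.sum_congr rfl
      intro k _
      ring
    rw [h1, he]
    by_cases hζ : ζ ∈ principalBlock M G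
    · rw [if_pos hζ, principal_part_eq hM z hz h hh ζ hζ]
    · rw [if_neg hζ, principal_part_zero hM z hz h hh ζ hζ, zero_mul]
  -- Step B
  have hB : ∑ k : Subgroup.centralizer ({z} : Set G), e k *
      (∑ ξ : IrrCharacter (Subgroup.centralizer ({z} : Set G)),
        (ξ : Subgroup.centralizer ({z} : Set G) → ℂ) (k * h) *
          conj ((ξ : Subgroup.centralizer ({z} : Set G) → ℂ) h)) =
      ∑ ξ ∈ Finset.univ.filter
          (fun ξ => ξ ∈ principalBlock M (Subgroup.centralizer ({z} : Set G))),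
        (ξ : Subgroup.centralizer ({z} : Set G) → ℂ) h *
          conj ((ξ : Subgroup.centralizer ({z} : Set G) → ℂ) h) := by
    simp only [Finset.mul_sum]
    rw [Finset.sum_comm, Finset.sum_filter]
    apply Finset.sum_congr rfl
    intro ξ _
    have h1 : ∑ k : Subgroup.centralizer ({z} : Set G), e k *
        ((ξ : Subgroup.centralizer ({z} : Set G) → ℂ) (k * h) *
          conj ((ξ : Subgroup.centralizer ({z} : Set G) → ℂ) h)) =
        (∑ k : Subgroup.centralizer ({z} : Set G), e k *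
          (ξ : Subgroup.centralizer ({z} : Set G) → ℂ) (k * h)) *
          conj ((ξ : Subgroup.centralizer ({z} : Set G) → ℂ) h) := by
      rw [Finset.sum_mul]
      apply Finset.sum_congr rfl
      intro k _
      ring
    rw [h1, he, sum_mul_char ξ.2 (blockCoeff_isClass _), W_blockCoeff]
    split_ifs <;> simp
  -- Step C
  have hC : ∑ k : Subgroup.centralizer ({z} : Set G), e k *
      ((∑ ζ : IrrCharacter G, (ζ : G → ℂ) (((k * h : Subgroup.centralizer ({z} : Set G)) : G)) *
          conj ((ζ : G → ℂ) (h : G))) -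
        (∑ ξ : IrrCharacter (Subgroup.centralizer ({z} : Set G)),
        (ξ : Subgroup.centralizer ({z} : Set G) → ℂ) (k * h) *
          conj ((ξ : Subgroup.centralizer ({z} : Set G) → ℂ) h))) = 0 := by
    rw [he]
    apply blockPart_section hM
      (ϑ := fun t : Subgroup.centralizer ({z} : Set G) =>
        (∑ ζ : IrrCharacter G, (ζ : G → ℂ) (t : G) * conj ((ζ : G → ℂ) (h : G))) -
        (∑ ξ : IrrCharacter (Subgroup.centralizer ({z} : Set G)),
        (ξ : Subgroup.centralizer ({z} : Set G) → ℂ) t *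
          conj ((ξ : Subgroup.centralizer ({z} : Set G) → ℂ) h))) ?_ zC ?_
      (isPBlock_principal M) h zC hhC (IsConj.refl _)
    · intro t c
      have h1 : ∀ ζ : IrrCharacter G, (ζ : G → ℂ) ((c * t * c⁻¹ :
          Subgroup.centralizer ({z} : Set G)) : G) = (ζ : G → ℂ) (t : G) := by
        intro ζ
        exact IsIrrCharacter.isClassFunction ζ.2 (t : G) (c : G)
      have h2 : ∀ ξ : IrrCharacter (Subgroup.centralizer ({z} : Set G)),
          (ξ : Subgroup.centralizer ({z} : Set G) → ℂ) (c * t * c⁻¹) =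
          (ξ : Subgroup.centralizer ({z} : Set G) → ℂ) t := by
        intro ξ
        exact IsIrrCharacter.isClassFunction ξ.2 t c
      simp only [h1, h2]
    · intro u z' hu hconj
      have hz' : z' = zC := by
        obtain ⟨c, hc⟩ := isConj_iff.mp hconj
        rw [← hc, Subgroup.mem_center_iff.mp hzcen c, mul_inv_cancel_right]
      rw [hz'] at hu
      have huG : IsPPart p (u : G) z := by
        have := isPPart_coe' _ hu
        rwa [hzCv] at this
      rw [col_orth (u : G) (h : G), col_orth u h]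
      have hiff : IsConj (u : G) (h : G) ↔ IsConj u h := by
        constructor
        · intro hc
          obtain ⟨c, hc⟩ := isConj_iff.mp hc
          have hcC := mem_centralizer_of_conj hM.1 huG hh hc
          exact isConj_iff.mpr ⟨⟨c, hcC⟩, Subtype.ext hc⟩
        · intro hc
          obtain ⟨c, hc⟩ := isConj_iff.mp hc
          exact isConj_iff.mpr ⟨c, congrArg Subtype.val hc⟩
      have hcard : Nat.card (Subgroup.centralizer ({u} : Set (Subgroup.centralizer ({z} : Set G))))
          = Nat.card (Subgroup.centralizer ({(u : G)} : Set G)) := by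
        rw [card_centralizer_sub]
        have hle : Subgroup.centralizer ({(u : G)} : Set G) ≤
            Subgroup.centralizer ({z} : Set G) := by
          intro c hc
          apply mem_centralizer_of_conj hM.1 huG huG
          rw [Subgroup.mem_centralizer_singleton_iff.mp hc, mul_inv_cancel_right]
        rw [inf_eq_left.mpr hle]
      by_cases hc : IsConj u h
      · rw [if_pos hc, if_pos (hiff.mpr hc), hcard, sub_self]
      · rw [if_neg hc, if_neg (fun h' => hc (hiff.mp h')), sub_self]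
  have hD : ∑ k : Subgroup.centralizer ({z} : Set G), e k *
      (∑ ζ : IrrCharacter G, (ζ : G → ℂ) ((k : G) * (h : G)) * conj ((ζ : G → ℂ) (h : G))) =
      ∑ k : Subgroup.centralizer ({z} : Set G), e k *
      (∑ ξ : IrrCharacter (Subgroup.centralizer ({z} : Set G)),
        (ξ : Subgroup.centralizer ({z} : Set G) → ℂ) (k * h) *
          conj ((ξ : Subgroup.centralizer ({z} : Set G) → ℂ) h)) := by
    rw [← sub_eq_zero, ← Finset.sum_sub_distrib, ← hC]
    apply Finset.sum_congr rfl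
    intro k _
    rw [← mul_sub]
    rfl
  rw [hA, hB, hhv] at hD
  rw [hD]
  apply Finset.sum_congr rfl
  intro ξ _
  rw [hh0]
  exact norm_central ξ.2 hzcen y

theorem blockCoeff_principal_eq_eN {M : Ideal AlgInt} {p : ℕ} (hM : IsPModular p M)
    (K : Subgroup G) [K.Normal] (hK : ∃ k : ℕ, K.index = p ^ k) (hK' : ¬ p ∣ Nat.card K) :
    blockCoeff (principalBlock M G) = eN K := by
  classical
  apply eq_of_W (blockCoeff_isClass _) (eN_isClass K)
  intro ψ hψ
  have h1 := W_blockCoeff (principalBlock M G) ⟨ψ, hψ⟩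
  change W ψ _ = _ at h1
  rw [h1]
  by_cases hψB : (⟨ψ, hψ⟩ : IrrCharacter G) ∈ principalBlock M G
  · rw [if_pos hψB]
    exact (principal_W_eN hM hψB K hK').symm
  · rw [if_neg hψB]
    rcases W_eN hψ K with h2 | h2
    · exact h2.symm
    · exfalso
      apply hψB
      rw [principal_of_normal_complement hM K hK hK']
      exact (W_eN_eq_one_iff hψ K).mp h2

theorem sum_sq_of_normal_complement {M : Ideal AlgInt} {p : ℕ} (hM : IsPModular p M)
    (K : Subgroup G) [K.Normal] (hK : ∃ k : ℕ, K.index = p ^ k) (hK' : ¬ p ∣ Nat.card K)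
    [Fintype (IrrCharacter G)] [DecidablePred (· ∈ principalBlock M G)] (y : G)
    (hy : ¬ p ∣ orderOf y) :
    ∑ ξ ∈ Finset.univ.filter (fun ξ => ξ ∈ principalBlock M G),
      (ξ : G → ℂ) y * conj ((ξ : G → ℂ) y) = (K.index : ℂ) := by
  classical
  have h1 := congrFun (blockCoeff_principal_eq_eN hM K hK hK') 1
  rw [blockCoeff_eq_sum, Finset.sum_apply] at h1
  unfold eI eN at h1
  rw [if_pos K.one_mem, ← Finset.mul_sum] at h1
  have hyK : y ∈ K := mem_of_preg hM.1 K hK y hy
  have h2 : ∑ ξ ∈ Finset.univ.filter (fun ξ => ξ ∈ principalBlock M G),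
      (ξ : G → ℂ) y * conj ((ξ : G → ℂ) y) =
      ∑ ξ ∈ Finset.univ.filter (fun ξ => ξ ∈ principalBlock M G),
      (ξ : G → ℂ) 1 * conj ((ξ : G → ℂ) 1) := by
    apply Finset.sum_congr rfl
    intro ξ hξ
    have hξ' : ξ ∈ principalBlock M G := (Finset.mem_filter.mp hξ).2
    rw [principal_of_normal_complement hM K hK hK'] at hξ'
    rw [hξ' y hyK]
  rw [h2]
  have hG0 : (Nat.card G : ℂ) ≠ 0 := Nat.cast_ne_zero.mpr Nat.card_pos.ne'
  have hK0 : (Nat.card K : ℂ) ≠ 0 := Nat.cast_ne_zero.mpr Nat.card_pos.ne'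
  have h3 : (Nat.card G : ℂ) = (Nat.card K : ℂ) * (K.index : ℂ) := by
    rw [← Nat.cast_mul, Subgroup.card_mul_index]
  rw [h3] at h1
  have hI0 : (K.index : ℂ) ≠ 0 := Nat.cast_ne_zero.mpr Subgroup.index_ne_zero_of_finite
  field_simp at h1
  exact h1

theorem finsum_normsq {ι : Type*} [Fintype ι] (B : Set ι) [DecidablePred (· ∈ B)] (f : ι → ℂ) :
    ((∑ᶠ i ∈ B, ‖f i‖ ^ 2 : ℝ) : ℂ) = ∑ i ∈ Finset.univ.filter (fun i => i ∈ B),
      f i * conj (f i) := by
  rw [finsum_mem_eq_finite_toFinset_sum _ (Set.toFinite B)]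
  push_cast
  apply Finset.sum_congr (by ext; simp)
  intro i _
  rw [Complex.mul_conj, Complex.normSq_eq_norm_sq]
  push_cast
  rfl

theorem index_eq_pow_factorization {p : ℕ} (hp : p.Prime) (K : Subgroup G)
    (hK : ∃ k : ℕ, K.index = p ^ k) (hK' : ¬ p ∣ Nat.card K) :
    K.index = p ^ (Nat.card G).factorization p := by
  obtain ⟨k, hk⟩ := hK
  rw [← Subgroup.card_mul_index K, hk, Nat.factorization_mul Nat.card_pos.ne'
    (pow_ne_zero _ hp.ne_zero), Finsupp.add_apply, Nat.factorization_eq_zero_of_not_dvd hK',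
    zero_add, hp.factorization_pow, Finsupp.single_eq_same]

theorem principal_norm_thm {M : Ideal AlgInt} {p : ℕ} [Fact p.Prime] (hM : IsPModular p M)
    (z : G) (hz : ∃ k : ℕ, orderOf z = p ^ k) (y : Subgroup.centralizer ({z} : Set G))
    (hy : ¬ p ∣ orderOf y) :
    (∑ᶠ ζ ∈ principalBlock M G, ‖(ζ : G → ℂ) (z * (y : G))‖ ^ 2 =
      ∑ᶠ χ ∈ principalBlock M (Subgroup.centralizer ({z} : Set G)),
        ‖(χ : Subgroup.centralizer ({z} : Set G) → ℂ) y‖ ^ 2) ∧
    ((∃ k : ℕ, (pPrimeCore p (Subgroup.centralizer ({z} : Set G))).index = p ^ k) →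
      ∑ᶠ ζ ∈ principalBlock M G, ‖(ζ : G → ℂ) (z * (y : G))‖ ^ 2 =
        ((p ^ (Nat.card (Subgroup.centralizer ({z} : Set G))).factorization p : ℕ) : ℝ)) := by
  classical
  haveI := Fintype.ofFinite (IrrCharacter G)
  haveI := Fintype.ofFinite (IrrCharacter (Subgroup.centralizer ({z} : Set G)))
  have h1 : ∑ᶠ ζ ∈ principalBlock M G, ‖(ζ : G → ℂ) (z * (y : G))‖ ^ 2 =
      ∑ᶠ χ ∈ principalBlock M (Subgroup.centralizer ({z} : Set G)),
        ‖(χ : Subgroup.centralizer ({z} : Set G) → ℂ) y‖ ^ 2 := by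
    apply Complex.ofReal_injective
    rw [finsum_normsq (principalBlock M G) (fun ζ => (ζ : G → ℂ) (z * (y : G))),
      finsum_normsq (principalBlock M (Subgroup.centralizer ({z} : Set G)))
        (fun χ => (χ : Subgroup.centralizer ({z} : Set G) → ℂ) y)]
    exact principal_norm_sum hM z hz y hy
  refine ⟨h1, ?_⟩
  intro hK
  rw [h1]
  apply Complex.ofReal_injective
  haveI := Cfsg.Agent.Lib.Helper1.pPrimeCore_normal (G := Subgroup.centralizer ({z} : Set G)) p
  rw [finsum_normsq (principalBlock M (Subgroup.centralizer ({z} : Set G)))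
        (fun χ => (χ : Subgroup.centralizer ({z} : Set G) → ℂ) y),
    sum_sq_of_normal_complement hM _ hK (pPrimeCore_not_dvd hM.1) y hy,
    index_eq_pow_factorization hM.1 _ hK (pPrimeCore_not_dvd hM.1)]
  simp

end Cfsg.Agent.Lib.Helper2.BlockPr2
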