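import Mathlib

set_option autoImplicit false

namespace Cfsg.Agent.Lib.Helper2.PGen

theorem card_dvd_of_free {A X : Type*} [Group A] [MulAction A X]
    (h : ∀ (a : A) (x : X), a • x = x → a = 1) : Nat.card A ∣ Nat.card X := by
  have h' : ∀ b : X, MulAction.stabilizer A b = ⊥ := by
    intro b
    rw [eq_bot_iff]
    intro a ha
    exact Subgroup.mem_bot.mpr (h a b ha)
  rw [Nat.card_congr (MulAction.selfEquivOrbitsQuotientProd h'), Nat.card_prod]
  exact Dvd.intro_left _ rfl

theorem exists_generators_aux {Q : Type*} [Group Q] [Finite Q] {p : ℕ} (hp : p.Prime)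
    (hQ : IsPGroup p Q) (k : ℕ) :
    ∃ f : Fin k → Q, Subgroup.closure (Set.range f) = ⊤ ∨
      p ^ k ≤ Nat.card (Subgroup.closure (Set.range f)) := by
  have : Fact p.Prime := ⟨hp⟩
  induction k with
  | zero => exact ⟨fun _ => 1, Or.inr (by simp)⟩
  | succ k ih =>
    obtain ⟨f, hf⟩ := ih
    by_cases htop : Subgroup.closure (Set.range f) = ⊤
    · refine ⟨Fin.snoc f 1, Or.inl ?_⟩
      rw [eq_top_iff, ← htop]
      apply Subgroup.closure_mono
      rintro _ ⟨i, rfl⟩
      exact ⟨i.castSucc, by simp⟩
    · have hf' := hf.resolve_left htop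
      obtain ⟨x, hx⟩ : ∃ x, x ∉ Subgroup.closure (Set.range f) := by
        by_contra hcon
        push Not at hcon
        exact htop (eq_top_iff.mpr fun y _ => hcon y)
      refine ⟨Fin.snoc f x, Or.inr ?_⟩
      have hle : Subgroup.closure (Set.range f) ≤
          Subgroup.closure (Set.range (Fin.snoc f x : Fin (k + 1) → Q)) := by
        apply Subgroup.closure_mono
        rintro _ ⟨i, rfl⟩
        exact ⟨i.castSucc, by simp⟩
      have hxm : x ∈ Subgroup.closure (Set.range (Fin.snoc f x : Fin (k + 1) → Q)) :=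
        Subgroup.subset_closure ⟨Fin.last k, by simp⟩
      set H := Subgroup.closure (Set.range f)
      set K := Subgroup.closure (Set.range (Fin.snoc f x : Fin (k + 1) → Q))
      have h1 : Nat.card H * H.relIndex K = Nat.card K := by
        rw [← Subgroup.relIndex_bot_left, ← Subgroup.relIndex_bot_left]
        exact Subgroup.relIndex_mul_relIndex _ _ _ bot_le hle
      have h2 : H.relIndex K ≠ 1 := by
        intro h
        exact hx (Subgroup.relIndex_eq_one.mp h hxm)
      obtain ⟨m, hm⟩ := IsPGroup.iff_card.mp (hQ.to_subgroup K)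
      have h3 : H.relIndex K ∣ p ^ m := hm ▸ Subgroup.relIndex_dvd_card H K
      obtain ⟨j, -, hj⟩ := (Nat.dvd_prime_pow hp).mp h3
      have hj0 : j ≠ 0 := by rintro rfl; exact h2 (by simpa using hj)
      have h4 : p ≤ H.relIndex K := by
        rw [hj]
        calc p = p ^ 1 := (pow_one p).symm
          _ ≤ p ^ j := Nat.pow_le_pow_right hp.pos (Nat.one_le_iff_ne_zero.mpr hj0)
      rw [← h1, pow_succ]
      exact Nat.mul_le_mul hf' h4

/-- A group of order `p ^ r` is generated by `r` elements. -/
theorem exists_generators {Q : Type*} [Group Q] [Finite Q] {p r : ℕ} (hp : p.Prime)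
    (hQ : Nat.card Q = p ^ r) : ∃ f : Fin r → Q, Subgroup.closure (Set.range f) = ⊤ := by
  obtain ⟨f, hf⟩ := exists_generators_aux hp (IsPGroup.of_card hQ) r
  refine ⟨f, ?_⟩
  rcases hf with hf | hf
  · exact hf
  · exact Subgroup.eq_top_of_le_card _ (hQ ▸ hf)

/-- Burnside basis theorem (generation part). -/
theorem exists_generators_frattini {P : Type*} [Group P] [Finite P] {p r : ℕ} (hp : p.Prime)
    (hr : (frattini P).index = p ^ r) :
    ∃ x : Fin r → P, ∀ y : Fin r → P, (∀ i, y i * (x i)⁻¹ ∈ frattini P) →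
      Subgroup.closure (Set.range y) = ⊤ := by
  have hn : (frattini P).Normal := inferInstance
  obtain ⟨f, hf⟩ := exists_generators (Q := P ⧸ frattini P) hp (by rw [← Subgroup.index_eq_card, hr])
  choose x hx using fun i => QuotientGroup.mk'_surjective (frattini P) (f i)
  refine ⟨x, fun y hy => ?_⟩
  apply frattini_nongenerating
  have key : ∀ i, (x i)⁻¹ * y i ∈ frattini P := by
    intro i
    have := hn.conj_mem _ (hy i) (x i)⁻¹
    simpa [mul_assoc] using this
  have h1 : (Subgroup.closure (Set.range y)).map (QuotientGroup.mk' (frattini P)) = ⊤ := by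
    rw [MonoidHom.map_closure, ← hf]
    congr 1
    ext z
    constructor
    · rintro ⟨_, ⟨i, rfl⟩, rfl⟩
      refine ⟨i, ?_⟩
      rw [← hx i]
      simp only [QuotientGroup.mk'_apply]
      rw [QuotientGroup.eq]
      exact key i
    · rintro ⟨i, rfl⟩
      refine ⟨y i, ⟨i, rfl⟩, ?_⟩
      rw [← hx i]
      simp only [QuotientGroup.mk'_apply]
      rw [QuotientGroup.eq]
      have := inv_mem (key i)
      simpa using this
  have h2 := congrArg (Subgroup.comap (QuotientGroup.mk' (frattini P))) h1
  rwa [Subgroup.comap_map_eq, QuotientGroup.ker_mk', Subgroup.comap_top] at h2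

end Cfsg.Agent.Lib.Helper2.PGen
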