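import Mathlib

set_option autoImplicit false

namespace Cfsg.Agent.Lib.Helper2.ThreeSubgroups

variable {G : Type*} [Group G]

theorem le_iff_map_mk_eq_bot (N : Subgroup G) [N.Normal] (A : Subgroup G) :
    A ≤ N ↔ A.map (QuotientGroup.mk' N) = ⊥ := by
  rw [Subgroup.map_eq_bot_iff, QuotientGroup.ker_mk']

/-- Three subgroups lemma modulo a normal subgroup. -/
theorem three_subgroups {A B C N : Subgroup G} [N.Normal] (h1 : ⁅⁅B, C⁆, A⁆ ≤ N) (h2 : ⁅⁅C, A⁆, B⁆ ≤ N) :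
    ⁅⁅A, B⁆, C⁆ ≤ N := by
  rw [le_iff_map_mk_eq_bot, Subgroup.map_commutator, Subgroup.map_commutator] at *
  exact Subgroup.commutator_commutator_eq_bot_of_rotate h1 h2

end Cfsg.Agent.Lib.Helper2.ThreeSubgroups
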